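import Mathlib
import Cfsg.Agent.Helper13.TIDefs

set_option autoImplicit false

namespace Cfsg.Agent.Helper61.TI5955

open Module Polynomial
open Cfsg.Agent.Helper42.SpForm Cfsg.Agent.Helper42.SpGroup Cfsg.Agent.Helper42.SpModels
open Cfsg.Agent.Helper13.TIsp Cfsg.Agent.Helper90.BG

section count

theorem cnta_symp_eq_std {F : Type*} [Field F] (d : ℕ) (u v : Fin d ⊕ Fin d → F) :
    Cfsg.sympForm d F u v = stdForm d u v := by
  rw [stdForm, Matrix.toBilin'_apply']
  rfl

theorem cnta_skew {F : Type*} [Field F] (d : ℕ) (x y : Fin d ⊕ Fin d → F) :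
    stdForm d x y = - stdForm d y x :=
  skew_of_alt (stdForm d : LinearMap.BilinForm F (Fin d ⊕ Fin d → F)) (stdForm_self d) x y

theorem cnta_std_nondeg {F : Type*} [Field F] (d : ℕ) :
    (stdForm d : LinearMap.BilinForm F (Fin d ⊕ Fin d → F)).Nondegenerate := by
  constructor
  · intro x hx
    exact stdForm_nondeg d x hx
  · intro y hy
    apply stdForm_nondeg d y
    intro x
    rw [cnta_skew, hy x, neg_zero]

theorem cnta_mem_perp_iff {F : Type*} [Field F] (d m : ℕ) (v : Fin m → (Fin d ⊕ Fin d → F))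
    (x : Fin d ⊕ Fin d → F) :
    x ∈ (stdForm d).orthogonal (Submodule.span F (Set.range v)) ↔
      ∀ a, Cfsg.sympForm d F x (v a) = 0 := by
  rw [LinearMap.BilinForm.mem_orthogonal_iff]
  constructor
  · intro h a
    have := h (v a) (Submodule.subset_span ⟨a, rfl⟩)
    rw [cnta_symp_eq_std, cnta_skew, this, neg_zero]
  · intro h n hn
    induction hn using Submodule.span_induction with
    | mem y hy =>
      obtain ⟨a, rfl⟩ := hy
      rw [cnta_skew, ← cnta_symp_eq_std, h a, neg_zero]
    | zero => simp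
    | add y z _ _ hy hz => rw [map_add, LinearMap.add_apply, hy, hz, add_zero]
    | smul c y _ hy => rw [map_smul, LinearMap.smul_apply, hy, smul_zero]

theorem cnta_span_le_perp {F : Type*} [Field F] (d m : ℕ) (v : Fin m → (Fin d ⊕ Fin d → F))
    (hti : ∀ a b, Cfsg.sympForm d F (v a) (v b) = 0) :
    Submodule.span F (Set.range v) ≤
      (stdForm d).orthogonal (Submodule.span F (Set.range v)) := by
  intro w hw
  rw [cnta_mem_perp_iff]
  intro a
  rw [cnta_symp_eq_std]
  induction hw using Submodule.span_induction with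
  | mem y hy =>
    obtain ⟨b, rfl⟩ := hy
    rw [← cnta_symp_eq_std]
    exact hti b a
  | zero => simp
  | add y z _ _ hy hz => rw [map_add, LinearMap.add_apply, hy, hz, add_zero]
  | smul c y _ hy => rw [map_smul, LinearMap.smul_apply, hy, smul_zero]

theorem cnta_perp_count {F : Type*} [Field F] [Fintype F] (d m : ℕ)
    (v : Fin m → (Fin d ⊕ Fin d → F)) (hli : LinearIndependent F v)
    (hti : ∀ a b, Cfsg.sympForm d F (v a) (v b) = 0) :
    Nat.card {x : Fin d ⊕ Fin d → F // x ∉ Submodule.span F (Set.range v) ∧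
      ∀ a, Cfsg.sympForm d F x (v a) = 0} =
      Fintype.card F ^ (2 * d - m) - Fintype.card F ^ m := by
  classical
  obtain ⟨W, hW⟩ : ∃ W : Submodule F (Fin d ⊕ Fin d → F), W = Submodule.span F (Set.range v) :=
    ⟨_, rfl⟩
  obtain ⟨P, hP⟩ : ∃ P : Submodule F (Fin d ⊕ Fin d → F), P = (stdForm d).orthogonal W :=
    ⟨_, rfl⟩
  have hWP : W ≤ P := by
    rw [hP, hW]
    exact cnta_span_le_perp d m v hti
  have hfW : finrank F W = m := by
    rw [hW, finrank_span_eq_card hli, Fintype.card_fin]
  have hfV : finrank F (Fin d ⊕ Fin d → F) = 2 * d := by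
    rw [Module.finrank_fintype_fun_eq_card, Fintype.card_sum, Fintype.card_fin]
    ring
  have hfP : finrank F P = 2 * d - m := by
    rw [hP, LinearMap.BilinForm.finrank_orthogonal (cnta_std_nondeg d), hfW, hfV]
  have hcW : Nat.card W = Fintype.card F ^ m := by
    rw [Module.natCard_eq_pow_finrank (K := F), hfW, Nat.card_eq_fintype_card]
  have hcP : Nat.card P = Fintype.card F ^ (2 * d - m) := by
    rw [Module.natCard_eq_pow_finrank (K := F), hfP, Nat.card_eq_fintype_card]
  have hset : {x : Fin d ⊕ Fin d → F | x ∉ Submodule.span F (Set.range v) ∧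
      ∀ a, Cfsg.sympForm d F x (v a) = 0} =
      (P : Set (Fin d ⊕ Fin d → F)) \ (W : Set (Fin d ⊕ Fin d → F)) := by
    ext x
    simp only [Set.mem_ofPred_eq, Set.mem_sdiff, SetLike.mem_coe]
    rw [hP, hW, cnta_mem_perp_iff]
    tauto
  have h1 : Nat.card {x : Fin d ⊕ Fin d → F // x ∉ Submodule.span F (Set.range v) ∧
      ∀ a, Cfsg.sympForm d F x (v a) = 0} =
      Set.ncard {x : Fin d ⊕ Fin d → F | x ∉ Submodule.span F (Set.range v) ∧
      ∀ a, Cfsg.sympForm d F x (v a) = 0} := Nat.card_coe_set_eq _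
  rw [h1, hset, Set.ncard_sdiff (by exact_mod_cast hWP) (Set.toFinite _),
    ← Nat.card_coe_set_eq, ← Nat.card_coe_set_eq]
  exact congrArg₂ (· - ·) hcP hcW

/-- Splitting off the last vector of a totally isotropic independent family. -/
noncomputable def cntaEquiv (F : Type*) [Field F] (d m : ℕ) : TIFam F d (m + 1) ≃
    Σ s : TIFam F d m, {x : Fin d ⊕ Fin d → F // x ∉ Submodule.span F (Set.range s.1) ∧
      ∀ a, Cfsg.sympForm d F x (s.1 a) = 0} where
  toFun u :=
    ⟨⟨Fin.init u.1,
        (linearIndependent_finSnoc.mp (by rw [Fin.snoc_init_self]; exact u.2.1)).1,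
        fun a b => u.2.2 _ _⟩,
      ⟨u.1 (Fin.last m),
        (linearIndependent_finSnoc.mp (by rw [Fin.snoc_init_self]; exact u.2.1)).2,
        fun a => u.2.2 _ _⟩⟩
  invFun p :=
    ⟨Fin.snoc p.1.1 p.2.1, linearIndependent_finSnoc.mpr ⟨p.1.2.1, p.2.2.1⟩, by
      intro a b
      induction a using Fin.lastCases with
      | last =>
        induction b using Fin.lastCases with
        | last =>
          rw [Fin.snoc_last, cnta_symp_eq_std, stdForm_self]
        | cast b =>
          rw [Fin.snoc_last, Fin.snoc_castSucc]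
          exact p.2.2.2 b
      | cast a =>
        induction b using Fin.lastCases with
        | last =>
          rw [Fin.snoc_last, Fin.snoc_castSucc, cnta_symp_eq_std,
            cnta_skew, ← cnta_symp_eq_std, p.2.2.2 a, neg_zero]
        | cast b =>
          rw [Fin.snoc_castSucc, Fin.snoc_castSucc]
          exact p.1.2.2 a b⟩
  left_inv u := Subtype.ext (Fin.snoc_init_self _)
  right_inv p := by
    apply Sigma.subtype_ext
    · apply Subtype.ext
      show Fin.init (Fin.snoc (α := fun _ => Fin d ⊕ Fin d → F) p.1.1 p.2.1) = p.1.1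
      exact Fin.init_snoc _ _
    · show Fin.snoc (α := fun _ => Fin d ⊕ Fin d → F) p.1.1 p.2.1 (Fin.last m) = p.2.1
      exact Fin.snoc_last _ _

/-- CNTA -/
theorem cnt_a (F : Type*) [Field F] [Fintype F] (d m : ℕ) (hmd : m ≤ d) :
    Nat.card (TIFam F d m) =
      ∏ j ∈ Finset.range m, (Fintype.card F ^ (2 * d - j) - Fintype.card F ^ j) := by
  classical
  induction m with
  | zero =>
    rw [Finset.prod_range_zero]
    have : Subsingleton (TIFam F d 0) := ⟨fun a b => Subtype.ext (Subsingleton.elim _ _)⟩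
    have : Nonempty (TIFam F d 0) :=
      ⟨⟨fun a => Fin.elim0 a, linearIndependent_empty_type, fun a => Fin.elim0 a⟩⟩
    exact Nat.card_unique
  | succ m ih =>
    have : Finite (TIFam F d m) := by
      unfold TIFam
      infer_instance
    have : Fintype (TIFam F d m) := Fintype.ofFinite _
    rw [Finset.prod_range_succ, ← ih (by omega), Nat.card_congr (cntaEquiv F d m),
      Nat.card_sigma,
      Finset.sum_congr rfl (fun s _ => cnta_perp_count d m s.1 s.2.1 s.2.2),
      Finset.sum_const, Finset.card_univ, smul_eq_mul, Nat.card_eq_fintype_card]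

end count

end Cfsg.Agent.Helper61.TI5955
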