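import Mathlib
import Cfsg.Agent.Helper21.SPDefs

set_option autoImplicit false

namespace Cfsg.Agent.Helper61.SPMAT

open Cfsg.Agent.Helper83 Cfsg.Agent.Helper21.SP

/-- Entries of `tv i j t`. -/
theorem tv_val {K : Type*} [Field K] {n : ℕ} (i j : Fin n) (hij : i ≠ j) (t : K) :
    ((tv i j t : Matrix.SpecialLinearGroup (Fin n) K) : Matrix (Fin n) (Fin n) K) =
      1 + Matrix.single i j t := by
  unfold tv
  rw [dif_pos hij]
  rfl

/-- The matrix of `w_ij(t)`, in terms of matrix units. -/
theorem stW_val {K : Type*} [Field K] {n : ℕ} (i j : Fin n) (hij : i ≠ j) (t : K) (ht : t ≠ 0) :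
    ((stW (tv i j) (tv j i) t : Matrix.SpecialLinearGroup (Fin n) K) :
      Matrix (Fin n) (Fin n) K) =
      1 - Matrix.single i i 1 - Matrix.single j j 1 + Matrix.single i j t -
        Matrix.single j i t⁻¹ := by
  unfold stW
  rw [Matrix.SpecialLinearGroup.coe_mul, Matrix.SpecialLinearGroup.coe_mul, tv_val i j hij,
    tv_val j i hij.symm]
  have hAA : Matrix.single i j t * Matrix.single i j t = (0 : Matrix (Fin n) (Fin n) K) :=
    Matrix.single_mul_single_of_ne t i j i hij.symm t
  simp only [mul_add, add_mul, mul_one, one_mul, Matrix.single_mul_single_same, hAA, add_zero]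
  have h1 : t * -t⁻¹ = -1 := by field_simp
  have h2 : -t⁻¹ * t = -1 := by field_simp
  rw [h1, h2]
  have h3 : Matrix.single i j ((-1 : K) * t) = - Matrix.single i j t := by
    rw [neg_one_mul, Matrix.single_neg]
  have h4 : Matrix.single i i (-1 : K) = - Matrix.single i i (1 : K) :=
    (Matrix.single_neg _ _ _).symm
  have h5 : Matrix.single j j (-1 : K) = - Matrix.single j j (1 : K) :=
    (Matrix.single_neg _ _ _).symm
  have h6 : Matrix.single j i (-t⁻¹) = - Matrix.single j i t⁻¹ := (Matrix.single_neg _ _ _).symm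
  rw [h3, h4, h5, h6]
  abel

/-- Entries of the matrix of `w_ij(t)`. -/
theorem stW_apply {K : Type*} [Field K] {n : ℕ} (i j : Fin n) (hij : i ≠ j) (t : K) (ht : t ≠ 0)
    (a b : Fin n) :
    ((stW (tv i j) (tv j i) t : Matrix.SpecialLinearGroup (Fin n) K) :
      Matrix (Fin n) (Fin n) K) a b =
      if a = i then (if b = j then t else 0)
        else if a = j then (if b = i then -t⁻¹ else 0) else if a = b then 1 else 0 := by
  rw [stW_val i j hij t ht]
  simp only [Matrix.sub_apply, Matrix.add_apply, Matrix.one_apply, Matrix.single_apply]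
  by_cases hai : a = i
  · subst hai
    by_cases hbj : b = j
    · subst hbj
      simp [hij, hij.symm]
    · by_cases hba : b = a
      · subst hba
        simp [hij, hij.symm]
      · simp [hij.symm, hbj, Ne.symm hbj, Ne.symm hba]
  · by_cases haj : a = j
    · subst haj
      by_cases hbi : b = i
      · subst hbi
        simp [hij, hij.symm]
      · by_cases hba : b = a
        · subst hba
          simp [hij, hij.symm]
        · simp [hij, hij.symm, hbi, Ne.symm hbi, Ne.symm hba]
    · simp [hai, haj, Ne.symm hai, Ne.symm haj]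

theorem mat_w {K : Type*} [Field K] {n : ℕ} (i j : Fin n) (hij : i ≠ j) :
    ((stW (tv i j) (tv j i) (1 : K) : Matrix.SpecialLinearGroup (Fin n) K) :
      Matrix (Fin n) (Fin n) K) =
      fun a b => if a = i then (if b = j then 1 else 0)
        else if a = j then (if b = i then -1 else 0) else if a = b then 1 else 0 := by
  funext a b
  rw [stW_apply i j hij 1 one_ne_zero, inv_one]

theorem mat_h {K : Type*} [Field K] {n : ℕ} (i j : Fin n) (hij : i ≠ j) (c : K) (hc : c ≠ 0) :
    ((stH (tv i j) (tv j i) c : Matrix.SpecialLinearGroup (Fin n) K) :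
      Matrix (Fin n) (Fin n) K) =
      Matrix.diagonal (Function.update (Function.update (fun _ => (1 : K)) i c) j c⁻¹) := by
  set D : Matrix (Fin n) (Fin n) K :=
    Matrix.diagonal (Function.update (Function.update (fun _ => (1 : K)) i c) j c⁻¹) with hD
  set A : Matrix.SpecialLinearGroup (Fin n) K := stW (tv i j) (tv j i) c with hA
  set B : Matrix.SpecialLinearGroup (Fin n) K := stW (tv i j) (tv j i) 1 with hB
  have key : (A : Matrix (Fin n) (Fin n) K) = D * (B : Matrix (Fin n) (Fin n) K) := by
    ext a b
    rw [hD, Matrix.diagonal_mul, hA, hB, stW_apply i j hij c hc, stW_apply i j hij 1 one_ne_zero]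
    by_cases hai : a = i
    · subst hai
      simp [hij]
    · by_cases haj : a = j
      · subst haj
        simp [hij.symm]
      · simp [hai, haj]
  have hstH : stH (tv i j) (tv j i) c = A * B⁻¹ := rfl
  rw [hstH, Matrix.SpecialLinearGroup.coe_mul, key, mul_assoc, ← Matrix.SpecialLinearGroup.coe_mul,
    mul_inv_cancel, Matrix.SpecialLinearGroup.coe_one, mul_one]

end Cfsg.Agent.Helper61.SPMAT
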