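import Mathlib
import Cfsg.Agent.Helper21.SPDefs
import Cfsg.Agent.Helper61.SPMAT

set_option autoImplicit false

namespace Cfsg.Agent.Helper61.SPD4M

open Cfsg.Agent.Helper83 Cfsg.Agent.Helper21.SP
open Matrix

variable {K : Type*} [Field K]

theorem mulVec_single_apply' {n : ℕ} (M : Matrix (Fin n) (Fin n) K) (j : Fin n) (x : K)
    (a : Fin n) : (M *ᵥ Pi.single j x) a = M a j * x := by
  simp [Matrix.mulVec, dotProduct, Pi.single_apply]

theorem colE_iff {n : ℕ} (M : Matrix.SpecialLinearGroup (Fin n) K) (c : Fin n) :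
    ColE M c ↔ (M : Matrix (Fin n) (Fin n) K) *ᵥ Pi.single c 1 = Pi.single c 1 := by
  unfold ColE
  constructor
  · intro h
    funext a
    rw [mulVec_single_apply', mul_one, h a, Pi.single_apply]
  · intro h a
    have := congrFun h a
    rw [mulVec_single_apply', mul_one, Pi.single_apply] at this
    exact this

theorem colE_inv_mul {n : ℕ} (P M : Matrix.SpecialLinearGroup (Fin n) K) (c : Fin n)
    (h : (P : Matrix (Fin n) (Fin n) K) *ᵥ Pi.single c 1 =
      (M : Matrix (Fin n) (Fin n) K) *ᵥ Pi.single c 1) : ColE (P⁻¹ * M) c := by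
  rw [colE_iff, Matrix.SpecialLinearGroup.coe_mul, ← Matrix.mulVec_mulVec, ← h,
    Matrix.mulVec_mulVec, ← Matrix.SpecialLinearGroup.coe_mul, inv_mul_cancel,
    Matrix.SpecialLinearGroup.coe_one, Matrix.one_mulVec]

theorem tv_mulVec {n : ℕ} (i j : Fin n) (hij : i ≠ j) (t : K) (x : Fin n → K) :
    ((tv i j t : Matrix.SpecialLinearGroup (Fin n) K) : Matrix (Fin n) (Fin n) K) *ᵥ x =
      x + Pi.single i (t * x j) := by
  rw [SPMAT.tv_val i j hij, Matrix.add_mulVec, Matrix.one_mulVec]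
  congr 1
  funext a
  simp only [Matrix.mulVec, dotProduct, Matrix.single_apply, Pi.single_apply]
  by_cases hai : a = i
  · subst hai
    simp
  · simp [hai, Ne.symm hai]

theorem stH_mulVec_single {n : ℕ} (i j : Fin n) (hij : i ≠ j) (d : K) (hd : d ≠ 0) (c : Fin n)
    (x : K) :
    ((stH (tv i j) (tv j i) d : Matrix.SpecialLinearGroup (Fin n) K) :
      Matrix (Fin n) (Fin n) K) *ᵥ Pi.single c x =
      Pi.single c ((Function.update (Function.update (fun _ => (1 : K)) i d) j d⁻¹) c * x) := by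
  rw [SPMAT.mat_h i j hij d hd, Matrix.diagonal_mulVec_single]

theorem stW_mulVec {n : ℕ} (i j : Fin n) (hij : i ≠ j) (x : Fin n → K) (a : Fin n) :
    (((stW (tv i j) (tv j i) (1 : K) : Matrix.SpecialLinearGroup (Fin n) K) :
      Matrix (Fin n) (Fin n) K) *ᵥ x) a =
      if a = i then x j else if a = j then - x i else x a := by
  rw [SPMAT.mat_w i j hij]
  simp only [Matrix.mulVec, dotProduct]
  by_cases hai : a = i
  · subst hai
    simp
  · by_cases haj : a = j
    · subst haj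
      simp [hai]
    · simp [hai, haj]

theorem h01 (k : ℕ) : (0 : Fin (k + 3)) ≠ 1 := by simp
theorem h02 (k : ℕ) : (0 : Fin (k + 3)) ≠ 2 := by
  simp [Fin.ext_iff, Nat.mod_eq_of_lt (show 2 < k + 3 by omega)]
theorem h12 (k : ℕ) : (1 : Fin (k + 3)) ≠ 2 := by
  simp [Fin.ext_iff, Nat.mod_eq_of_lt (show 2 < k + 3 by omega)]

theorem stH12_e0 (k : ℕ) (d : K) (hd : d ≠ 0) :
    ((stH (tv 1 2) (tv 2 1) d : Matrix.SpecialLinearGroup (Fin (k + 3)) K) :
      Matrix (Fin (k + 3)) (Fin (k + 3)) K) *ᵥ Pi.single 0 1 = Pi.single 0 1 := by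
  rw [stH_mulVec_single 1 2 (h12 k) d hd, Function.update_of_ne (h02 k),
    Function.update_of_ne (h01 k), mul_one]

theorem stH12_e1 (k : ℕ) (d : K) (hd : d ≠ 0) :
    ((stH (tv 1 2) (tv 2 1) d : Matrix.SpecialLinearGroup (Fin (k + 3)) K) :
      Matrix (Fin (k + 3)) (Fin (k + 3)) K) *ᵥ Pi.single 1 1 = Pi.single 1 d := by
  rw [stH_mulVec_single 1 2 (h12 k) d hd, Function.update_of_ne (h12 k),
    Function.update_self, mul_one]

theorem stW12_e0 (k : ℕ) :
    ((stW (tv 1 2) (tv 2 1) (1 : K) : Matrix.SpecialLinearGroup (Fin (k + 3)) K) :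
      Matrix (Fin (k + 3)) (Fin (k + 3)) K) *ᵥ Pi.single 0 1 = Pi.single 0 1 := by
  have e01 := h01 k
  have e02 := h02 k
  have e12 := h12 k
  funext a
  rw [stW_mulVec 1 2 e12]
  simp only [Pi.single_apply]
  by_cases ha1 : a = 1
  · subst ha1
    simp [e02.symm, e01.symm]
  · by_cases ha2 : a = 2
    · subst ha2
      simp [e02.symm, e01.symm, e12.symm]
    · simp [ha1, ha2]

theorem stW12_e1 (k : ℕ) (x : K) :
    ((stW (tv 1 2) (tv 2 1) (1 : K) : Matrix.SpecialLinearGroup (Fin (k + 3)) K) :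
      Matrix (Fin (k + 3)) (Fin (k + 3)) K) *ᵥ Pi.single 1 x = Pi.single 2 (-x) := by
  have e12 := h12 k
  funext a
  rw [stW_mulVec 1 2 e12]
  simp only [Pi.single_apply]
  by_cases ha1 : a = 1
  · subst ha1
    simp [e12, e12.symm]
  · by_cases ha2 : a = 2
    · subst ha2
      simp [e12.symm]
    · simp [ha1, ha2]

/-- Case B: the `(2,1)` entry is nonzero. -/
theorem caseB (k : ℕ) (M : Matrix.SpecialLinearGroup (Fin (k + 3)) K) (hM : ColE M 0)
    (h2 : (M : Matrix (Fin (k + 3)) (Fin (k + 3)) K) 2 1 ≠ 0) :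
    ∃ d, d ≠ 0 ∧ ∃ M₀ M₀' : Matrix.SpecialLinearGroup (Fin (k + 3)) K,
      ColE M₀ 0 ∧ ColE M₀ 1 ∧ ColE M₀' 0 ∧ ColE M₀' 1 ∧
      M = M₀ * stW (tv 1 2) (tv 2 1) 1 * stH (tv 1 2) (tv 2 1) d * M₀' := by
  have e01 := h01 k
  have e02 := h02 k
  have e12 := h12 k
  obtain ⟨d, hd⟩ : ∃ d : K, d = - (M : Matrix (Fin (k + 3)) (Fin (k + 3)) K) 2 1 := ⟨_, rfl⟩
  have hd0 : d ≠ 0 := by
    rw [hd]
    exact neg_ne_zero.mpr h2
  obtain ⟨u, hu⟩ : ∃ u : Fin (k + 3) → K, u = fun a =>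
      (M : Matrix (Fin (k + 3)) (Fin (k + 3)) K) a 1 /
        (M : Matrix (Fin (k + 3)) (Fin (k + 3)) K) 2 1 := ⟨_, rfl⟩
  have hdet : (Matrix.updateCol (1 : Matrix (Fin (k + 3)) (Fin (k + 3)) K) 2 u).det = 1 := by
    rw [← Matrix.cramer_apply, Matrix.cramer_one]
    simp [hu, h2]
  obtain ⟨M₀, hM₀val⟩ : ∃ M₀ : Matrix.SpecialLinearGroup (Fin (k + 3)) K,
      (M₀ : Matrix (Fin (k + 3)) (Fin (k + 3)) K) =
      Matrix.updateCol (1 : Matrix (Fin (k + 3)) (Fin (k + 3)) K) 2 u :=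
    ⟨⟨Matrix.updateCol (1 : Matrix (Fin (k + 3)) (Fin (k + 3)) K) 2 u, hdet⟩, rfl⟩
  have hc0 : ColE M₀ 0 := by
    intro a
    rw [hM₀val, Matrix.updateCol_apply, if_neg e02, Matrix.one_apply]
  have hc1 : ColE M₀ 1 := by
    intro a
    rw [hM₀val, Matrix.updateCol_apply, if_neg e12, Matrix.one_apply]
  obtain ⟨P, hP⟩ : ∃ P : Matrix.SpecialLinearGroup (Fin (k + 3)) K,
      P = M₀ * stW (tv 1 2) (tv 2 1) 1 * stH (tv 1 2) (tv 2 1) d := ⟨_, rfl⟩
  have hPv : ∀ x : Fin (k + 3) → K, (P : Matrix (Fin (k + 3)) (Fin (k + 3)) K) *ᵥ x =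
      (M₀ : Matrix (Fin (k + 3)) (Fin (k + 3)) K) *ᵥ
        (((stW (tv 1 2) (tv 2 1) (1 : K) : Matrix.SpecialLinearGroup (Fin (k + 3)) K) :
          Matrix (Fin (k + 3)) (Fin (k + 3)) K) *ᵥ
          (((stH (tv 1 2) (tv 2 1) d : Matrix.SpecialLinearGroup (Fin (k + 3)) K) :
            Matrix (Fin (k + 3)) (Fin (k + 3)) K) *ᵥ x)) := by
    intro x
    rw [hP, Matrix.SpecialLinearGroup.coe_mul, Matrix.SpecialLinearGroup.coe_mul,
      Matrix.mulVec_mulVec, Matrix.mulVec_mulVec]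
  have hP0 : (P : Matrix (Fin (k + 3)) (Fin (k + 3)) K) *ᵥ Pi.single 0 1 =
      (M : Matrix (Fin (k + 3)) (Fin (k + 3)) K) *ᵥ Pi.single 0 1 := by
    rw [(colE_iff M 0).mp hM, hPv, stH12_e0 k d hd0, stW12_e0 k]
    exact (colE_iff M₀ 0).mp hc0
  have hP1 : (P : Matrix (Fin (k + 3)) (Fin (k + 3)) K) *ᵥ Pi.single 1 1 =
      (M : Matrix (Fin (k + 3)) (Fin (k + 3)) K) *ᵥ Pi.single 1 1 := by
    rw [hPv, stH12_e1 k d hd0, stW12_e1 k d]
    funext a
    rw [mulVec_single_apply', mulVec_single_apply', hM₀val, Matrix.updateCol_apply, if_pos rfl,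
      mul_one, hu, hd]
    simp only
    field_simp
  refine ⟨d, hd0, M₀, P⁻¹ * M, hc0, hc1, colE_inv_mul P M 0 hP0, colE_inv_mul P M 1 hP1, ?_⟩
  rw [← hP, mul_inv_cancel_left]

theorem d4m (K : Type*) [Field K] (k : ℕ) : D4MP K k := by
  intro M hM
  have e01 := h01 k
  have e02 := h02 k
  have e12 := h12 k
  by_cases h2 : (M : Matrix (Fin (k + 3)) (Fin (k + 3)) K) 2 1 = 0
  · by_cases hA : ∀ a : Fin (k + 3), a ≠ 0 → a ≠ 1 →
        (M : Matrix (Fin (k + 3)) (Fin (k + 3)) K) a 1 = 0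
    · -- Case A
      left
      have hd0 : (M : Matrix (Fin (k + 3)) (Fin (k + 3)) K) 1 1 ≠ 0 := by
        intro h11
        have hdet : (M : Matrix (Fin (k + 3)) (Fin (k + 3)) K).det = 0 := by
          rw [← Matrix.exists_mulVec_eq_zero_iff]
          refine ⟨Pi.single 1 1 -
            Pi.single 0 ((M : Matrix (Fin (k + 3)) (Fin (k + 3)) K) 0 1), ?_, ?_⟩
          · intro h0
            have := congrFun h0 1
            simp [e01.symm] at this
          · funext a
            rw [Matrix.mulVec_sub, Pi.sub_apply, mulVec_single_apply', mulVec_single_apply',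
              mul_one, Pi.zero_apply]
            by_cases ha0 : a = 0
            · subst ha0
              rw [hM 0, if_pos rfl, one_mul, sub_self]
            · by_cases ha1 : a = 1
              · subst ha1
                rw [h11, hM 1, if_neg ha0, zero_mul, sub_self]
              · rw [hA a ha0 ha1, hM a, if_neg ha0, zero_mul, sub_self]
        have h1 : (M : Matrix (Fin (k + 3)) (Fin (k + 3)) K).det = 1 := M.2
        rw [hdet] at h1
        exact zero_ne_one h1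
      obtain ⟨d, hd⟩ : ∃ d : K, d = (M : Matrix (Fin (k + 3)) (Fin (k + 3)) K) 1 1 := ⟨_, rfl⟩
      rw [← hd] at hd0
      obtain ⟨s, hs⟩ : ∃ s : K, s = (M : Matrix (Fin (k + 3)) (Fin (k + 3)) K) 0 1 / d :=
        ⟨_, rfl⟩
      obtain ⟨P, hP⟩ : ∃ P : Matrix.SpecialLinearGroup (Fin (k + 3)) K,
        P = tv 0 1 s * stH (tv 1 2) (tv 2 1) d := ⟨_, rfl⟩
      have hPv : ∀ x : Fin (k + 3) → K, (P : Matrix (Fin (k + 3)) (Fin (k + 3)) K) *ᵥ x =
          ((tv 0 1 s : Matrix.SpecialLinearGroup (Fin (k + 3)) K) :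
            Matrix (Fin (k + 3)) (Fin (k + 3)) K) *ᵥ
            (((stH (tv 1 2) (tv 2 1) d : Matrix.SpecialLinearGroup (Fin (k + 3)) K) :
              Matrix (Fin (k + 3)) (Fin (k + 3)) K) *ᵥ x) := by
        intro x
        rw [hP, Matrix.SpecialLinearGroup.coe_mul, Matrix.mulVec_mulVec]
      have hP0 : (P : Matrix (Fin (k + 3)) (Fin (k + 3)) K) *ᵥ Pi.single 0 1 =
          (M : Matrix (Fin (k + 3)) (Fin (k + 3)) K) *ᵥ Pi.single 0 1 := by
        rw [(colE_iff M 0).mp hM, hPv, stH12_e0 k d hd0, tv_mulVec 0 1 e01]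
        funext a
        simp [Pi.single_apply, e01.symm]
      have hP1 : (P : Matrix (Fin (k + 3)) (Fin (k + 3)) K) *ᵥ Pi.single 1 1 =
          (M : Matrix (Fin (k + 3)) (Fin (k + 3)) K) *ᵥ Pi.single 1 1 := by
        rw [hPv, stH12_e1 k d hd0, tv_mulVec 0 1 e01]
        funext a
        rw [mulVec_single_apply', mul_one, Pi.add_apply, Pi.single_apply, Pi.single_apply,
          Pi.single_apply, if_pos rfl]
        by_cases ha0 : a = 0
        · subst ha0
          rw [if_neg e01, if_pos rfl, zero_add, hs]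
          field_simp
        · by_cases ha1 : a = 1
          · subst ha1
            rw [if_pos rfl, if_neg ha0, add_zero, hd]
          · rw [if_neg ha1, if_neg ha0, add_zero]
            exact (hA a ha0 ha1).symm
      refine ⟨s, d, hd0, P⁻¹ * M, colE_inv_mul P M 0 hP0, colE_inv_mul P M 1 hP1, ?_⟩
      rw [← hP, mul_inv_cancel_left]
    · -- Case B'
      right
      push Not at hA
      obtain ⟨a, ha0, ha1, haM⟩ := hA
      have ha2 : a ≠ 2 := by
        rintro rfl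
        exact haM h2
      obtain ⟨T, hT⟩ : ∃ T : Matrix.SpecialLinearGroup (Fin (k + 3)) K, T = tv 2 a 1 :=
        ⟨_, rfl⟩
      have hTv : ∀ x : Fin (k + 3) → K, (T : Matrix (Fin (k + 3)) (Fin (k + 3)) K) *ᵥ x =
          x + Pi.single 2 (1 * x a) := by
        intro x
        rw [hT]
        exact tv_mulVec 2 a (Ne.symm ha2) 1 x
      have hT0 : (T : Matrix (Fin (k + 3)) (Fin (k + 3)) K) *ᵥ Pi.single 0 1 = Pi.single 0 1 := by
        rw [hTv, Pi.single_apply, if_neg ha0, mul_zero, Pi.single_zero, add_zero]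
      have hT1 : (T : Matrix (Fin (k + 3)) (Fin (k + 3)) K) *ᵥ Pi.single 1 1 = Pi.single 1 1 := by
        rw [hTv, Pi.single_apply, if_neg ha1, mul_zero, Pi.single_zero, add_zero]
      have hTM0 : ColE (T * M) 0 := by
        rw [colE_iff, Matrix.SpecialLinearGroup.coe_mul, ← Matrix.mulVec_mulVec,
          (colE_iff M 0).mp hM, hT0]
      have hTM21 : ((T * M : Matrix.SpecialLinearGroup (Fin (k + 3)) K) :
          Matrix (Fin (k + 3)) (Fin (k + 3)) K) 2 1 ≠ 0 := by
        have h3 : ((T * M : Matrix.SpecialLinearGroup (Fin (k + 3)) K) :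
            Matrix (Fin (k + 3)) (Fin (k + 3)) K) 2 1 =
            (((T * M : Matrix.SpecialLinearGroup (Fin (k + 3)) K) :
            Matrix (Fin (k + 3)) (Fin (k + 3)) K) *ᵥ Pi.single 1 1) 2 := by
          rw [mulVec_single_apply', mul_one]
        rw [h3, Matrix.SpecialLinearGroup.coe_mul, ← Matrix.mulVec_mulVec, hTv, Pi.add_apply,
          Pi.single_apply, if_pos rfl, mulVec_single_apply', mulVec_single_apply', mul_one,
          mul_one, one_mul, h2, zero_add]
        exact haM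
      obtain ⟨d, hd0, M₀, M₀', hc0, hc1, hc0', hc1', hEq⟩ := caseB k (T * M) hTM0 hTM21
      refine ⟨d, hd0, T⁻¹ * M₀, M₀', ?_, ?_, hc0', hc1', ?_⟩
      · apply colE_inv_mul
        rw [hT0, (colE_iff M₀ 0).mp hc0]
      · apply colE_inv_mul
        rw [hT1, (colE_iff M₀ 1).mp hc1]
      · have h5 : M = T⁻¹ * (T * M) := by rw [inv_mul_cancel_left]
        rw [h5, hEq]
        simp only [mul_assoc]
  · right
    exact caseB k M hM h2

end Cfsg.Agent.Helper61.SPD4M
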