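import Mathlib
import Cfsg.Agent.Helper13.TLDefs

/-!
helper61: piece UNT2 (unt_two) of CALL S5954 (helper13).
-/

set_option autoImplicit false
set_option linter.unusedVariables false

namespace Cfsg.Agent.Helper61.TI5954

open Module Polynomial
open Cfsg.Agent.Helper13.TIu Cfsg.Agent.Helper13.TIsp

section field

variable {F : Type*} [Field F] [Fintype F]

/-- UNT2 (case B): `μ = -λ²` has `μ ^ ((q+1)/2) = -1` (as `(q+1)/2` is even), so `v₂ (orderOf μ) =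
v₂ (q+1)`, and `orderOf μ ∣ n / 2`. -/
theorem unt_two (q : ℕ) (hq : Fintype.card F = q ^ 2) (hq3 : q % 4 = 3) (n : ℕ) (hn0 : 0 < n)
    (hne : Even n) (lam : F) (h1 : lam ^ (q + 1) = -1) (h2 : (-(lam ^ 2)) ^ (n / 2) = 1) :
    padicValNat 2 (q + 1) < padicValNat 2 n := by
  obtain ⟨j, rfl⟩ : ∃ j, q = 4 * j + 3 := ⟨q / 4, by omega⟩
  have hchar : ringChar F ≠ 2 := by
    intro h
    have h3 := FiniteField.even_card_iff_char_two.mp h
    rw [hq, Nat.pow_mod] at h3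
    have h4 : (4 * j + 3) % 2 = 1 := by omega
    rw [h4] at h3
    norm_num at h3
  have hne1 : (-1 : F) ≠ 1 := Ring.neg_one_ne_one_of_char_ne_two hchar
  obtain ⟨μ, hμ⟩ : ∃ μ : F, μ = -(lam ^ 2) := ⟨_, rfl⟩
  rw [← hμ] at h2
  have hμ2 : μ ^ (2 * j + 2) = -1 := by
    rw [hμ, ← h1]
    have e : (-(lam ^ 2)) ^ (2 * j + 2) = ((-(lam ^ 2)) ^ 2) ^ (j + 1) := by
      rw [← pow_mul, show 2 * (j + 1) = 2 * j + 2 from by ring]
    rw [e, neg_sq, ← pow_mul, ← pow_mul, show 2 * (2 * (j + 1)) = 4 * j + 3 + 1 from by ring]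
  have hμ4 : μ ^ (4 * j + 3 + 1) = 1 := by
    have e : μ ^ (4 * j + 3 + 1) = (μ ^ (2 * j + 2)) ^ 2 := by
      rw [← pow_mul, show (2 * j + 2) * 2 = 4 * j + 3 + 1 from by ring]
    rw [e, hμ2]
    norm_num
  have hd1 : orderOf μ ∣ n / 2 := orderOf_dvd_of_pow_eq_one h2
  have hd2 : orderOf μ ∣ 4 * j + 3 + 1 := orderOf_dvd_of_pow_eq_one hμ4
  have hd3 : ¬ orderOf μ ∣ 2 * j + 2 := by
    intro h
    have h3 := orderOf_dvd_iff_pow_eq_one.mp h
    rw [hμ2] at h3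
    exact hne1 h3
  have h2a : 2 ^ padicValNat 2 (4 * j + 3 + 1) ∣ orderOf μ := by
    obtain ⟨e, he⟩ := hd2
    have hodd : ¬ 2 ∣ e := by
      rintro ⟨e', rfl⟩
      apply hd3
      refine ⟨e', ?_⟩
      have h3 : 2 * (2 * j + 2) = 2 * (orderOf μ * e') := by
        rw [← mul_assoc, mul_comm 2 (orderOf μ), mul_assoc, ← he]
        ring
      exact Nat.eq_of_mul_eq_mul_left (by norm_num) h3
    have hcop : Nat.Coprime (2 ^ padicValNat 2 (4 * j + 3 + 1)) e :=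
      Nat.Coprime.pow_left _ ((Nat.Prime.coprime_iff_not_dvd Nat.prime_two).mpr hodd)
    have h3 : 2 ^ padicValNat 2 (4 * j + 3 + 1) ∣ orderOf μ * e := by
      rw [← he]
      exact pow_padicValNat_dvd
    exact hcop.dvd_of_dvd_mul_right h3
  obtain ⟨m, hm⟩ := hne
  have hn2 : n / 2 = m := by omega
  rw [hn2] at hd1
  have h3 : 2 ^ (padicValNat 2 (4 * j + 3 + 1) + 1) ∣ n := by
    have h4 : n = m * 2 := by omega
    rw [pow_succ, h4]
    exact Nat.mul_dvd_mul (h2a.trans hd1) (dvd_refl 2)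
  have h4 := (padicValNat_dvd_iff_le (p := 2) hn0.ne').mp h3
  omega

end field

end Cfsg.Agent.Helper61.TI5954
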