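import Mathlib
import Cfsg.Agent.Helper13.TLDefs

/-!
helper61: piece UBAD2NT (ubad2_nt) of CALL S5954 (helper13).
-/

set_option autoImplicit false
set_option linter.unusedVariables false

namespace Cfsg.Agent.Helper61.TI5954

open Module Polynomial
open Cfsg.Agent.Helper13.TIu Cfsg.Agent.Helper13.TIsp

section field

variable {F : Type*} [Field F] [Fintype F]

/-- An element `λ` with `λ ^ (2 ^ a) = -1`, when `q + 1 = 2 ^ a * s` with `s` odd. -/
theorem ubad2_core (q : ℕ) (hq : Fintype.card F = q ^ 2) (a s : ℕ) (ha : 1 ≤ a)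
    (hqa : q + 1 = 2 ^ a * s) (hs : Odd s) :
    ∃ lam : F, lam ^ (2 ^ a) = -1 ∧ lam ^ (q + 1) = -1 := by
  classical
  have hq1 : 1 ≤ q := by
    rcases Nat.eq_zero_or_pos q with h | h
    · subst h
      rw [zero_add] at hqa
      have h2 : 2 ∣ 1 := by
        rw [hqa]
        exact Dvd.dvd.mul_right (dvd_pow_self 2 (by omega)) s
      omega
    · exact h
  have hqe : 2 ∣ q - 1 := by
    have h2 : 2 ∣ q + 1 := by
      rw [hqa]
      exact Dvd.dvd.mul_right (dvd_pow_self 2 (by omega)) s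
    omega
  have hN : Fintype.card Fˣ = (q - 1) * (q + 1) := by
    rw [Fintype.card_units, hq]
    have h2 : q ^ 2 = (q - 1) * (q + 1) + 1 := by
      obtain ⟨k, rfl⟩ : ∃ k, q = k + 1 := ⟨q - 1, by omega⟩
      simp only [Nat.add_sub_cancel]
      ring
    omega
  have hdvd : 2 ^ (a + 1) ∣ Fintype.card Fˣ := by
    rw [hN, pow_succ, mul_comm (2 ^ a) 2, hqa]
    exact Nat.mul_dvd_mul hqe (Dvd.intro s rfl)
  obtain ⟨g, hg⟩ := IsCyclic.exists_generator (α := Fˣ)
  have hord : orderOf g = Fintype.card Fˣ := by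
    rw [← Nat.card_eq_fintype_card]
    exact orderOf_eq_card_of_forall_mem_zpowers hg
  have hNpos : Fintype.card Fˣ ≠ 0 := Fintype.card_ne_zero
  obtain ⟨u, hu⟩ : ∃ u : Fˣ, u = g ^ (Fintype.card Fˣ / 2 ^ (a + 1)) := ⟨_, rfl⟩
  have hordu : orderOf u = 2 ^ (a + 1) := by
    rw [hu, orderOf_pow_of_dvd, hord, Nat.div_div_self hdvd hNpos]
    · intro h
      have h2 := Nat.div_eq_zero_iff.mp h
      rcases h2 with h2 | h2
      · exact absurd h2 (by positivity)
      · exact absurd (Nat.le_of_dvd (Nat.pos_of_ne_zero hNpos) hdvd) (by omega)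
    · rw [hord]
      exact Nat.div_dvd_of_dvd hdvd
  have hε2 : ((u : F) ^ (2 ^ a)) ^ 2 = 1 := by
    rw [← pow_mul, ← pow_succ, ← Units.val_pow_eq_pow_val, ← hordu, pow_orderOf_eq_one,
      Units.val_one]
  have hε1 : (u : F) ^ (2 ^ a) ≠ 1 := by
    intro h
    have h2 : u ^ (2 ^ a) = 1 := Units.ext (by rw [Units.val_pow_eq_pow_val, h, Units.val_one])
    have h3 := orderOf_dvd_of_pow_eq_one h2
    rw [hordu] at h3
    have h4 := Nat.le_of_dvd (by positivity) h3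
    have h5 : 2 ^ a < 2 ^ (a + 1) := Nat.pow_lt_pow_right (by norm_num) (by omega)
    omega
  have hε : (u : F) ^ (2 ^ a) = -1 := by
    rcases sq_eq_one_iff.mp hε2 with h | h
    · exact absurd h hε1
    · exact h
  refine ⟨(u : F), hε, ?_⟩
  rw [hqa, pow_mul, hε, hs.neg_one_pow]

/-- UBAD2NT (case B): `q % 4 = 1`: `λ² = -1`.  `q % 4 = 3`, `a = v₂ (q+1) < v₂ n`: `g` a generator of
`Fˣ`, `λ = g ^ ((q²-1) (2^(a-1)+1) / 2^(a+1))`; then `-λ²` has order `2 ^ a ∣ n / 2`. -/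
theorem ubad2_nt (q : ℕ) (hq : Fintype.card F = q ^ 2) (hodd : Odd q) (n : ℕ) (hn0 : 0 < n)
    (hne : Even n) (h : ¬ (padicValNat 2 n ≤ padicValNat 2 (q + 1) ∧ q % 4 = 3)) :
    ∃ lam : F, lam ^ (q + 1) = -1 ∧ (-(lam ^ 2)) ^ (n / 2) = 1 := by
  by_cases h3 : q % 4 = 3
  · have hlt : padicValNat 2 (q + 1) < padicValNat 2 n := by
      by_contra h4
      exact h ⟨by omega, h3⟩
    obtain ⟨a, ha⟩ : ∃ a, a = padicValNat 2 (q + 1) := ⟨_, rfl⟩
    rw [← ha] at hlt
    have hdvd : 2 ^ a ∣ q + 1 := by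
      rw [ha]
      exact pow_padicValNat_dvd
    obtain ⟨s, hs⟩ := hdvd
    have hsodd : Odd s := by
      rw [← Nat.not_even_iff_odd]
      rintro ⟨s', rfl⟩
      have h5 : 2 ^ (a + 1) ∣ q + 1 := ⟨s', by rw [hs, pow_succ]; ring⟩
      rw [ha] at h5
      exact pow_succ_padicValNat_not_dvd (by omega) h5
    have ha1 : 1 ≤ a := by
      rw [ha]
      exact one_le_padicValNat_of_dvd (by omega) (by omega)
    obtain ⟨lam, hl1, hl2⟩ := ubad2_core q hq a s ha1 hs hsodd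
    refine ⟨lam, hl2, ?_⟩
    have h6 : 2 ^ (a + 1) ∣ n := (padicValNat_dvd_iff_le hn0.ne').mpr (by omega)
    obtain ⟨m, hm⟩ := h6
    have hn2 : n / 2 = 2 ^ a * m := by
      rw [hm, pow_succ]
      have e : 2 ^ a * 2 * m = 2 * (2 ^ a * m) := by ring
      rw [e, Nat.mul_div_cancel_left _ (by norm_num : 0 < 2)]
    rw [hn2, pow_mul]
    have h7 : (-(lam ^ 2)) ^ (2 ^ a) = 1 := by
      have hev : Even (2 ^ a) := (Nat.even_pow.mpr ⟨even_two, by omega⟩)
      rw [neg_pow, hev.neg_one_pow, one_mul, ← pow_mul, mul_comm 2, pow_mul lam, hl1]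
      norm_num
    rw [h7, one_pow]
  · have h1 : q % 4 = 1 := by
      obtain ⟨k, hk⟩ := hodd
      omega
    obtain ⟨lam, hl1, hl2⟩ := ubad2_core q hq 1 ((q + 1) / 2) le_rfl (by omega)
      (by rw [Nat.odd_iff]; omega)
    refine ⟨lam, hl2, ?_⟩
    rw [pow_one] at hl1
    rw [hl1, neg_neg, one_pow]

end field

end Cfsg.Agent.Helper61.TI5954
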