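import Mathlib
import Cfsg.Agent.Helper13.TLDefs
import Cfsg.Agent.Helper61.TLUBAD2NT
import Cfsg.Agent.Helper47.TLUMONO
import Cfsg.Agent.Helper51.TLUEXND
import Cfsg.Agent.Helper93.TLUEVEN2B

/-!
helper61: piece CASEBB (u_case_two_back) of CALL S5954 (helper13).
-/

set_option autoImplicit false
set_option linter.unusedVariables false

namespace Cfsg.Agent.Helper61.TI5954

open Module Polynomial
open Cfsg.Agent.Helper13.TIu Cfsg.Agent.Helper13.TIsp
open Cfsg.Agent.Helper47.TI5954 Cfsg.Agent.Helper51.TI5954 Cfsg.Agent.Helper93.TI5954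

section cases

variable {F : Type*} [Field F] [Fintype F] {σ : F →+* F}

/-- CASEBB (uses UBAD2NT, UMONO (`r = 2`, `z = λ²`), UEVEN2B, UEXND): by contradiction `n` even,
`m` odd; the model `T` has `det T = (-λ²) ^ (n/2) = 1`, is not scalar (else a nondegenerate `m`-space
would be invariant, contradicting UEVEN2B) and fixes no nondegenerate `m`-space. -/
theorem u_case_two_back (p : ℕ) [Fact p.Prime] [CharP F p] (hp2 : p ≠ 2) (q : ℕ)
    (hq : Fintype.card F = q ^ 2) (hσ : ∀ a, σ a = a ^ q) (hσ2 : ∀ a, σ (σ a) = a)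
    (hσne : σ ≠ RingHom.id F) (n m : ℕ) (hn : 1 ≤ n) (hmn : m ≤ n) (hL : UAll σ n m 2) :
    Odd n ∨ Even m ∨ (padicValNat 2 n ≤ padicValNat 2 (q + 1) ∧ q % 4 = 3) := by
  by_contra hcon
  push Not at hcon
  obtain ⟨hn_odd, hm_even, hthird⟩ := hcon
  have hne : Even n := Nat.not_odd_iff_even.mp hn_odd
  have hchar : ringChar F ≠ 2 := by
    rw [ringChar.eq F p]
    exact hp2
  have h2 : (2 : F) ≠ 0 := Ring.two_ne_zero hchar
  have hodd : Odd q := by
    rw [← Nat.not_even_iff_odd]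
    intro hev
    apply hchar
    rw [FiniteField.even_card_iff_char_two, hq, Nat.pow_mod]
    have h3 : q % 2 = 0 := Nat.even_iff.mp hev
    rw [h3]
  obtain ⟨lam, hl1, hl2⟩ := ubad2_nt q hq hodd n hn hne (fun h => hthird h.1 h.2)
  have hlam : σ lam * lam = -1 := by
    rw [hσ, ← pow_succ, hl1]
  have hz : σ (lam ^ 2) * lam ^ 2 = 1 := by
    rw [map_pow, ← mul_pow, hlam]
    norm_num
  obtain ⟨k, hk⟩ := hne
  have hnk : n = 2 * k := by omega
  obtain ⟨T, hT, hT2, hdet⟩ := ubad_mono (σ := σ) (lam ^ 2) hz 2 k n (by norm_num) hnk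
  have hdet1 : LinearMap.det T = 1 := by
    have e : n / 2 = k := by omega
    rw [e] at hl2
    rw [hdet, show (2 : ℕ) - 1 = 1 from rfl, pow_one, neg_one_mul]
    exact hl2
  have hS := stdH_symm σ hσ2 n
  have hfr : finrank F (⊤ : Submodule F (Fin n → F)) = n := by
    rw [finrank_top, Module.finrank_fin_fun]
  -- an invariant nondegenerate `m`-space
  have hW : ∃ W : Submodule F (Fin n → F), Module.finrank F W = m ∧ UNd (stdH σ n) W ∧
      W.map T ≤ W := by
    by_cases hsc : ∃ c : F, T = c • (1 : Module.End F (Fin n → F))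
    · obtain ⟨c, hc⟩ := hsc
      obtain ⟨W, -, hWnd, hWm⟩ := u_exists_nd (stdH σ n) hσ2 hσne hS ⊤ (stdH_nd_top σ n) m
        (by rw [hfr]; exact hmn)
      refine ⟨W, hWm, hWnd, ?_⟩
      rintro _ ⟨w, hw, rfl⟩
      rw [hc]
      exact W.smul_mem c hw
    · push Not at hsc
      exact hL T hT hdet1 ⟨lam ^ 2, hT2⟩ hsc
  obtain ⟨W, hWm, hWnd, hWT⟩ := hW
  have hev := ueven_invB (stdH σ n) hσ2 hS h2 T hT lam hlam hT2 W hWT hWnd
  rw [hWm] at hev
  exact hm_even hev

end cases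

end Cfsg.Agent.Helper61.TI5954
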