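import Mathlib
import Cfsg.Agent.Helper13.TLDefs
import Cfsg.Agent.Helper19.TLUMODELSUM
import Cfsg.Agent.Helper52.TLUMODELODD
import Cfsg.Agent.Helper57.TLUMODELTWO

/-!
helper61: piece UMODELALL (umodel_all) of CALL S5954 (helper13), double.
-/

set_option autoImplicit false
set_option linter.unusedVariables false

namespace Cfsg.Agent.Helper61.TI5954

open Module Polynomial
open Cfsg.Agent.Helper13.TIu Cfsg.Agent.Helper13.TIsp
open Cfsg.Agent.Helper19.TI5954 Cfsg.Agent.Helper52.TI5954 Cfsg.Agent.Helper57.TI5954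

section std2

variable {F : Type*} [Field F] {σ : F →+* F}

/-- The identity on `F¹` is a single Jordan block of size one. -/
theorem umodel_all_one : JT ((1 : Module.End F (Fin 1 → F)) - 1) ⊤ (Multiset.replicate 1 1) := by
  intro k
  rw [sub_self, Multiset.replicate_one, Multiset.map_singleton, Multiset.sum_singleton]
  rcases Nat.eq_zero_or_pos k with rfl | hk
  · rw [pow_zero, Module.End.one_eq_id, LinearMap.ker_id, inf_bot_eq, finrank_bot]
    rfl
  · rw [zero_pow hk.ne', LinearMap.ker_zero, inf_top_eq, finrank_top, Module.finrank_fin_fun]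
    omega

/-- UMODELALL (case A; uses UMODELODD, UMODELTWO, UMODELSUM; mirror `model_all`): induction on `μ`;
for `p = 2` the parts are `1` (`T = 1` on `Fin 1 → F`) and `2` (UMODELTWO). -/
theorem umodel_all [Finite F] (hσ2 : ∀ a, σ (σ a) = a) (hσne : σ ≠ RingHom.id F) (p : ℕ)
    [Fact p.Prime] [CharP F p] (μ : Multiset ℕ) (hμ : ∀ a ∈ μ, 0 < a ∧ a ≤ p) (n : ℕ)
    (hsum : μ.sum = n) :
    ∃ T : Module.End F (Fin n → F), UPres (stdH σ n) T ∧ T ^ p = 1 ∧ JT (T - 1) ⊤ μ := by
  have hpp : p.Prime := Fact.out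
  revert n
  induction μ using Multiset.induction with
  | empty =>
    intro n hsum
    obtain rfl : n = 0 := by
      rw [← hsum, Multiset.sum_zero]
    refine ⟨1, fun u v => rfl, one_pow p, ?_⟩
    intro k
    rw [Multiset.map_zero, Multiset.sum_zero]
    exact Module.finrank_zero_of_subsingleton
  | cons a μ' ih =>
    intro n hsum
    obtain rfl : n = a + μ'.sum := by
      rw [← hsum, Multiset.sum_cons]
    obtain ⟨T', hT', hp', hJ'⟩ := ih (fun b hb => hμ b (Multiset.mem_cons_of_mem hb)) _ rfl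
    obtain ⟨ha0, hap⟩ := hμ a (Multiset.mem_cons_self a μ')
    have hblock : ∃ T₁ : Module.End F (Fin a → F), UPres (stdH σ a) T₁ ∧ T₁ ^ p = 1 ∧
        JT (T₁ - 1) ⊤ (Multiset.replicate 1 a) := by
      by_cases h2 : (2 : F) = 0
      · have hp2 : p = 2 := by
          have h3 : ((2 : ℕ) : F) = 0 := by exact_mod_cast h2
          exact (Nat.prime_dvd_prime_iff_eq hpp Nat.prime_two).mp
            ((CharP.cast_eq_zero_iff F p 2).mp h3)
        have ha12 : a = 1 ∨ a = 2 := by omega
        rcases ha12 with rfl | rfl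
        · exact ⟨1, fun u v => rfl, one_pow p, umodel_all_one⟩
        · obtain ⟨T₁, h1, h2', h3⟩ := umodel_two (σ := σ) h2
          exact ⟨T₁, h1, by rw [hp2]; exact h2', h3⟩
      · exact umodel_odd hσ2 hσne p h2 a ha0 hap
    obtain ⟨T₁, hT₁, hp₁, hJ₁⟩ := hblock
    obtain ⟨T, hT, hp, hJ⟩ := umodel_sum p a μ'.sum T₁ T' hT₁ hT' hp₁ hp' _ _ hJ₁ hJ'
    refine ⟨T, hT, hp, ?_⟩
    rwa [Multiset.replicate_one, Multiset.singleton_add] at hJ

end std2

end Cfsg.Agent.Helper61.TI5954
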