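import Mathlib
import Cfsg.Agent.Helper45.OutG

set_option autoImplicit false

namespace Cfsg.Agent.Helper61.TriCall

open DihedralGroup in
/-- an automorphism of the dihedral group of order eight fixing a non-central involution `s`
is trivial or conjugation by `s` -/
theorem d8_aut_fix (a : MulAut (DihedralGroup 4)) (s : DihedralGroup 4) (hs2 : s * s = 1)
    (hnc : ∃ k : DihedralGroup 4, s * k ≠ k * s) (has : a s = s) :
    (∀ x, a x = x) ∨ (∀ x, a x = s * x * s⁻¹) := by
  have hinj := a.injective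
  obtain ⟨i, rfl⟩ : ∃ i : ZMod 4, s = sr i := by
    rcases s with j | j
    · exfalso
      obtain ⟨k, hk⟩ := hnc
      have key : ∀ j : ZMod 4, (r j : DihedralGroup 4) * r j = 1 →
          ∀ k : DihedralGroup 4, r j * k = k * r j := by decide
      exact hk (key j hs2 k)
    · exact ⟨j, rfl⟩
  have hS : ∀ y : DihedralGroup 4, y * y ≠ 1 → y = r 1 ∨ y = r 3 := by
    intro y hy
    rcases y with j | j
    · fin_cases j
      · exact absurd (by decide) hy
      · left
        rfl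
      · exact absurd (by decide) hy
      · right
        rfl
    · exact absurd (by simp) hy
  have h2 : a (r 1) * a (r 1) ≠ 1 := by
    rw [← map_mul]
    intro h0
    have h1 := hinj (h0.trans (map_one a).symm)
    exact absurd h1 (by decide)
  have hsr : ∀ j : ZMod 4, (sr j : DihedralGroup 4) = sr i * r (j - i) := by
    intro j
    rw [sr_mul_r]
    congr 1
    ring
  rcases hS _ h2 with h3 | h3
  · left
    have hr : ∀ j : ZMod 4, a (r j) = r j := by
      intro j
      fin_cases j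
      · show a (r 0) = r 0
        have h5 : (r 0 : DihedralGroup 4) = 1 := rfl
        rw [h5, map_one]
      · exact h3
      · show a (r 2) = r 2
        have h5 : (r 2 : DihedralGroup 4) = r 1 * r 1 := by decide
        rw [h5, map_mul, h3]
      · show a (r 3) = r 3
        have h5 : (r 3 : DihedralGroup 4) = r 1 * r 1 * r 1 := by decide
        rw [h5, map_mul, map_mul, h3]
    intro x
    rcases x with j | j
    · exact hr j
    · rw [hsr j, map_mul, has, hr]
  · right
    have hr : ∀ j : ZMod 4, a (r j) = r (-j) := by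
      intro j
      fin_cases j
      · show a (r 0) = r (-0)
        have h5 : (r 0 : DihedralGroup 4) = 1 := rfl
        rw [h5, map_one]
        rfl
      · exact h3
      · show a (r 2) = r (-2)
        have h5 : (r 2 : DihedralGroup 4) = r 1 * r 1 := by decide
        rw [h5, map_mul, h3]
        decide
      · show a (r 3) = r (-3)
        have h5 : (r 3 : DihedralGroup 4) = r 1 * r 1 * r 1 := by decide
        rw [h5, map_mul, map_mul, h3]
        decide
    have hc1 : ∀ i j : ZMod 4, (sr i : DihedralGroup 4) * r j * (sr i)⁻¹ = r (-j) := by decide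
    have hc2 : ∀ i j : ZMod 4, (sr i : DihedralGroup 4) * (sr i * r (j - i)) * (sr i)⁻¹
        = sr i * r (-(j - i)) := by decide
    intro x
    rcases x with j | j
    · rw [hr j, hc1]
    · rw [hsr j, map_mul, has, hr, hc2]


theorem out_d8_field {A : Type*} [Group A] (I : Subgroup A) [I.Normal] {C : Type*} [Group C]
    (f : ℕ) (hf : 0 < f) (hC : Nat.card C = f) (Θ : A →* C) (hI : I ≤ Θ.ker)
    (φ : ↥(Θ.ker) →* DihedralGroup 4) (hφs : Function.Surjective φ)
    (hφk : φ.ker = I.subgroupOf Θ.ker)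
    (ψ : A) (hgen : ∀ c : C, ∃ j : ℕ, c = Θ ψ ^ j) (hψ : ψ ^ f ∈ I)
    (γ : A) (hγ : γ ∈ Θ.ker) (hγ2 : γ * γ ∈ I) (hψγ : ψ * γ * ψ⁻¹ * γ⁻¹ ∈ I)
    (k : A) (hk : k ∈ Θ.ker) (hγk : γ * k * γ⁻¹ * k⁻¹ ∉ I) :
    Nonempty (A ⧸ I ≃* DihedralGroup 4 × Multiplicative (ZMod f)) := by
  classical
  obtain ⟨Θb, hΘb⟩ : ∃ Θb : A ⧸ I →* C, ∀ a : A, Θb (QuotientGroup.mk a) = Θ a :=
    ⟨QuotientGroup.lift I Θ hI, fun a => rfl⟩
  have hρ : ∀ a : ↥Θ.ker, (QuotientGroup.mk (a : A) : A ⧸ I) ∈ Θb.ker := by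
    intro a
    rw [MonoidHom.mem_ker, hΘb]
    exact a.2
  let ρ : ↥Θ.ker →* ↥Θb.ker :=
    { toFun := fun a => ⟨QuotientGroup.mk (a : A), hρ a⟩
      map_one' := rfl
      map_mul' := fun a b => rfl }
  have hρs : Function.Surjective ρ := by
    rintro ⟨x, hx⟩
    obtain ⟨a, rfl⟩ := QuotientGroup.mk_surjective x
    rw [MonoidHom.mem_ker, hΘb] at hx
    exact ⟨⟨a, hx⟩, rfl⟩
  have hρk : ρ.ker = I.subgroupOf Θ.ker := by
    ext a
    rw [MonoidHom.mem_ker, Subgroup.mem_subgroupOf]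
    constructor
    · intro h
      have h1 : (QuotientGroup.mk (a : A) : A ⧸ I) = 1 := congrArg Subtype.val h
      exact (QuotientGroup.eq_one_iff _).mp h1
    · intro h
      apply Subtype.ext
      exact (QuotientGroup.eq_one_iff _).mpr h
  have e : ↥Θb.ker ≃* DihedralGroup 4 :=
    (QuotientGroup.quotientKerEquivOfSurjective ρ hρs).symm.trans
      ((QuotientGroup.quotientMulEquivOfEq (hρk.trans hφk.symm)).trans
        (QuotientGroup.quotientKerEquivOfSurjective φ hφs))
  clear_value ρ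
  -- the elements of the quotient
  obtain ⟨x, hx⟩ : ∃ x : A ⧸ I, x = QuotientGroup.mk ψ := ⟨_, rfl⟩
  obtain ⟨g, hg⟩ : ∃ g : A ⧸ I, g = QuotientGroup.mk γ := ⟨_, rfl⟩
  obtain ⟨κ, hκ⟩ : ∃ κ : A ⧸ I, κ = QuotientGroup.mk k := ⟨_, rfl⟩
  have hΘx : Θb x = Θ ψ := by rw [hx, hΘb]
  have hgK : g ∈ Θb.ker := by
    rw [hg, MonoidHom.mem_ker, hΘb]
    exact hγ
  have hκK : κ ∈ Θb.ker := by
    rw [hκ, MonoidHom.mem_ker, hΘb]
    exact hk
  have hxf : x ^ f = 1 := by
    rw [hx]
    exact (QuotientGroup.eq_one_iff (ψ ^ f)).mpr hψ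
  have hgg : g * g = 1 := by
    rw [hg]
    exact (QuotientGroup.eq_one_iff (γ * γ)).mpr hγ2
  have hginv : g⁻¹ = g := inv_eq_of_mul_eq_one_right hgg
  have hxg : x * g = g * x := by
    have h1 : x * g * x⁻¹ * g⁻¹ = 1 := by
      rw [hx, hg]
      exact (QuotientGroup.eq_one_iff (ψ * γ * ψ⁻¹ * γ⁻¹)).mpr hψγ
    calc x * g = x * g * x⁻¹ * g⁻¹ * g * x := by group
      _ = g * x := by rw [h1, one_mul]
  have hgκ : g * κ ≠ κ * g := by
    intro h
    apply hγk
    have h1 : g * κ * g⁻¹ * κ⁻¹ = 1 := by rw [h]; group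
    rw [hg, hκ] at h1
    exact (QuotientGroup.eq_one_iff (γ * k * γ⁻¹ * k⁻¹)).mp h1
  -- the automorphism of the dihedral group induced by `x`
  obtain ⟨a, ha⟩ : ∃ a : MulAut (DihedralGroup 4),
      a = MulAut.congr e (MulAut.conjNormal x : MulAut ↥Θb.ker) := ⟨_, rfl⟩
  have hae : ∀ u : ↥Θb.ker, a (e u) = e ((MulAut.conjNormal x : MulAut ↥Θb.ker) u) := by
    intro u
    rw [ha]
    show e ((MulAut.conjNormal x : MulAut ↥Θb.ker) (e.symm (e u))) = _
    rw [MulEquiv.symm_apply_apply]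
  have has : a (e ⟨g, hgK⟩) = e ⟨g, hgK⟩ := by
    rw [hae]
    congr 1
    apply Subtype.ext
    rw [MulAut.conjNormal_apply]
    show x * g * x⁻¹ = g
    rw [hxg]
    group
  have hs2 : e ⟨g, hgK⟩ * e ⟨g, hgK⟩ = 1 := by
    rw [← map_mul]
    have : (⟨g, hgK⟩ : ↥Θb.ker) * ⟨g, hgK⟩ = 1 := Subtype.ext hgg
    rw [this, map_one]
  have hnc : ∃ k' : DihedralGroup 4, e ⟨g, hgK⟩ * k' ≠ k' * e ⟨g, hgK⟩ := by
    refine ⟨e ⟨κ, hκK⟩, fun h => hgκ ?_⟩
    rw [← map_mul, ← map_mul] at h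
    exact congrArg Subtype.val (e.injective h)
  have hfix := d8_aut_fix a _ hs2 hnc has
  have hy : ∃ y₀ : A ⧸ I, Θb y₀ = Θ ψ ∧ y₀ ^ f = 1 ∧ ∀ u ∈ Θb.ker, y₀ * u = u * y₀ := by
    by_cases h1 : ∀ u ∈ Θb.ker, x * u = u * x
    · exact ⟨x, hΘx, hxf, h1⟩
    · have h2 : ∀ u ∈ Θb.ker, x * u * x⁻¹ = g * u * g := by
        rcases hfix with h | h
        · exfalso
          apply h1
          intro u hu
          have h3 := h (e ⟨u, hu⟩)
          rw [hae] at h3
          have h4 := congrArg Subtype.val (e.injective h3)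
          rw [MulAut.conjNormal_apply] at h4
          have h5 : x * u * x⁻¹ = u := h4
          calc x * u = x * u * x⁻¹ * x := by group
            _ = u * x := by rw [h5]
        · intro u hu
          have h3 := h (e ⟨u, hu⟩)
          rw [hae, ← map_inv, ← map_mul, ← map_mul] at h3
          have h4 := congrArg Subtype.val (e.injective h3)
          rw [MulAut.conjNormal_apply] at h4
          have h5 : x * u * x⁻¹ = g * u * g⁻¹ := h4
          rw [h5, hginv]
      have h3 : ∀ u ∈ Θb.ker, x ^ 2 * u = u * x ^ 2 := by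
        intro u hu
        have hu' : g * u * g ∈ Θb.ker := Θb.ker.mul_mem (Θb.ker.mul_mem hgK hu) hgK
        have e1 := h2 u hu
        have e2 := h2 _ hu'
        have e3 : x * (x * u * x⁻¹) * x⁻¹ = u := by
          rw [e1, e2]
          calc g * (g * u * g) * g = (g * g) * u * (g * g) := by group
            _ = u := by rw [hgg, one_mul, mul_one]
        calc x ^ 2 * u = x * (x * u * x⁻¹) * x⁻¹ * x ^ 2 := by rw [pow_two]; group
          _ = u * x ^ 2 := by rw [e3]
      have hfeven : Even f := by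
        by_contra hodd
        rw [Nat.not_even_iff_odd] at hodd
        obtain ⟨j, hj⟩ := hodd
        apply h1
        intro u hu
        have hx' : x = ((x ^ 2) ^ j)⁻¹ := by
          rw [eq_inv_iff_mul_eq_one, ← pow_mul, ← pow_succ', ← hj]
          exact hxf
        have hc : Commute (x ^ 2) u := h3 u hu
        rw [hx']
        exact ((hc.pow_left j).inv_left).eq
      obtain ⟨j, hj⟩ := hfeven
      refine ⟨g * x, ?_, ?_, ?_⟩
      · rw [map_mul, MonoidHom.mem_ker.mp hgK, one_mul, hΘx]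
      · have hc : Commute g x := hxg.symm
        rw [hc.mul_pow, hxf, mul_one, hj, ← two_mul, pow_mul, pow_two, hgg, one_pow]
      · intro u hu
        have e1 := h2 u hu
        calc g * x * u = g * (x * u * x⁻¹) * x := by group
          _ = g * (g * u * g) * x := by rw [e1]
          _ = (g * g) * u * (g * x) := by group
          _ = u * (g * x) := by rw [hgg, one_mul]
  obtain ⟨y₀, hΘy, hyf, hycomm⟩ := hy
  have : Finite C := Nat.finite_of_card_ne_zero (by omega)
  obtain ⟨c₁, hc₁def⟩ : ∃ c₁ : C, c₁ = Θ ψ := ⟨_, rfl⟩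
  have hc₁ : ∀ c : C, c ∈ Subgroup.zpowers c₁ := by
    intro c
    obtain ⟨j, rfl⟩ := hgen c
    rw [← hc₁def]
    exact Subgroup.pow_mem _ (Subgroup.mem_zpowers c₁) j
  have hord1 : orderOf c₁ = f := by
    rw [orderOf_eq_card_of_forall_mem_zpowers hc₁, hC]
  have hdvd : orderOf y₀ ∣ orderOf c₁ := by
    rw [hord1]
    exact orderOf_dvd_of_pow_eq_one hyf
  obtain ⟨s, hs⟩ : ∃ s : C →* A ⧸ I, s c₁ = y₀ :=
    ⟨monoidHomOfForallMemZpowers hc₁ hdvd, monoidHomOfForallMemZpowers_apply_gen hc₁ hdvd⟩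
  have hsΘ : ∀ c, Θb (s c) = c := by
    intro c
    obtain ⟨j, rfl⟩ := Subgroup.mem_zpowers_iff.mp (hc₁ c)
    rw [map_zpow, map_zpow, hs, hΘy, hc₁def]
  have hcomm : ∀ u ∈ Θb.ker, ∀ c, s c * u = u * s c := by
    intro u hu c
    obtain ⟨j, rfl⟩ := Subgroup.mem_zpowers_iff.mp (hc₁ c)
    rw [map_zpow, hs]
    have h1 : Commute y₀ u := hycomm u hu
    exact (h1.zpow_left j).eq
  obtain ⟨e1⟩ := Cfsg.Agent.Helper45.OO.split_prod Θb s hsΘ hcomm
  have hcyc : IsCyclic C := ⟨⟨c₁, hc₁⟩⟩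
  have e3 : Multiplicative (ZMod f) ≃* C := by
    have h3 := zmodCyclicMulEquiv hcyc
    rw [hC] at h3
    exact h3
  exact ⟨e1.trans (MulEquiv.prodCongr e e3.symm)⟩

end Cfsg.Agent.Helper61.TriCall
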