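import Mathlib
import Cfsg.Agent.S0444

set_option autoImplicit false

namespace Cfsg.Agent.Helper61.TriCall

theorem perm3_center_trivial : ∀ σ : Equiv.Perm (Fin 3),
    (∀ τ : Equiv.Perm (Fin 3), σ * τ = τ * σ) → σ = 1 := by decide

/-- in a group of order `6` the product of two distinct involutions has order dividing `3` -/
theorem cube_of_card_six {Q : Type*} [Group Q] [Finite Q] (hQ : Nat.card Q = 6) (a b : Q)
    (ha : a * a = 1) (hb : b * b = 1) (ha1 : a ≠ 1) (hb1 : b ≠ 1) :
    (a * b) ^ 3 = 1 := by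
  have : Fact (Nat.Prime 3) := ⟨by norm_num⟩
  obtain ⟨x, hx⟩ := exists_prime_orderOf_dvd_card' (G := Q) 3 (by rw [hQ]; norm_num)
  have hP : Nat.card (Subgroup.zpowers x) = 3 := by rw [Nat.card_zpowers, hx]
  have hidx : (Subgroup.zpowers x).index = 2 := by
    have := Subgroup.index_mul_card (Subgroup.zpowers x)
    rw [hP, hQ] at this
    omega
  have hnot : ∀ y : Q, y * y = 1 → y ≠ 1 → y ∉ Subgroup.zpowers x := by
    intro y hy hy1 hmem
    have h3 : orderOf y ∣ 3 := hP ▸ Subgroup.orderOf_dvd_natCard _ hmem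
    have h2 : orderOf y ∣ 2 := orderOf_dvd_of_pow_eq_one (by rw [pow_two]; exact hy)
    have h1 : orderOf y ∣ 1 := by
      have := Nat.dvd_gcd h3 h2
      simpa using this
    exact hy1 (orderOf_eq_one_iff.mp (Nat.dvd_one.mp h1))
  have hmem : a * b ∈ Subgroup.zpowers x :=
    (Subgroup.mul_mem_iff_of_index_two hidx).mpr (iff_of_false (hnot a ha ha1) (hnot b hb hb1))
  exact orderOf_dvd_iff_pow_eq_one.mp (hP ▸ Subgroup.orderOf_dvd_natCard _ hmem)


theorem s3_times_cyclic {G : Type*} [Group G] [Finite G] (f : ℕ) (z c t : G)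
    (hz : orderOf z = f) (hzc : ∀ g : G, g * z = z * g) (hc2 : c * c = 1)
    (hcz : c ∉ Subgroup.zpowers z) (hcard : Nat.card G = 6 * f)
    (ht : ∀ i : ℤ, t⁻¹ * c * t ≠ z ^ i ∧ t⁻¹ * c * t ≠ c * z ^ i) :
    Nonempty (G ≃* Equiv.Perm (Fin 3) × Multiplicative (ZMod f)) := by
  classical
  have hZc : ∀ x ∈ Subgroup.zpowers z, ∀ g : G, g * x = x * g := by
    intro x hx g
    obtain ⟨i, rfl⟩ := Subgroup.mem_zpowers_iff.mp hx
    exact (Commute.zpow_right (hzc g) i).eq
  have hZn : (Subgroup.zpowers z).Normal := ⟨fun n hn g => by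
    rw [hZc n hn g, mul_inv_cancel_right]; exact hn⟩
  have hfpos : 0 < f := by rw [← hz]; exact orderOf_pos z
  have hZcard : Nat.card (Subgroup.zpowers z) = f := by rw [← hz]; exact Nat.card_zpowers z
  have hQ : Nat.card (G ⧸ Subgroup.zpowers z) = 6 := by
    have := Subgroup.card_eq_card_quotient_mul_card_subgroup (Subgroup.zpowers z)
    rw [hcard, hZcard] at this
    exact (Nat.eq_of_mul_eq_mul_right hfpos this).symm
  have hcinv : c⁻¹ = c := inv_eq_of_mul_eq_one_right hc2
  obtain ⟨c', hc'⟩ : ∃ c' : G, c' = t⁻¹ * c * t := ⟨_, rfl⟩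
  have hc'2 : c' * c' = 1 := by
    rw [hc']
    calc t⁻¹ * c * t * (t⁻¹ * c * t) = t⁻¹ * (c * c) * t := by group
      _ = 1 := by rw [hc2]; group
  have hc'inv : c'⁻¹ = c' := inv_eq_of_mul_eq_one_right hc'2
  have hc'Z : c' ∉ Subgroup.zpowers z := by
    intro h
    obtain ⟨i, hi⟩ := Subgroup.mem_zpowers_iff.mp h
    exact (ht i).1 (by rw [← hc']; exact hi.symm)
  have hwZ : c * c' ∉ Subgroup.zpowers z := by
    intro h
    obtain ⟨i, hi⟩ := Subgroup.mem_zpowers_iff.mp h
    apply (ht i).2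
    rw [← hc', hi, ← mul_assoc, hc2, one_mul]
  -- the cube of `w = c c'` is central
  have hw3 : (c * c') ^ 3 ∈ Subgroup.zpowers z := by
    have h := cube_of_card_six hQ (QuotientGroup.mk' (Subgroup.zpowers z) c)
      (QuotientGroup.mk' (Subgroup.zpowers z) c')
      (by rw [← map_mul, hc2, map_one]) (by rw [← map_mul, hc'2, map_one])
      (fun h => hcz ((QuotientGroup.eq_one_iff c).mp h))
      (fun h => hc'Z ((QuotientGroup.eq_one_iff c').mp h))
    rw [← map_mul, ← map_pow] at h
    exact (QuotientGroup.eq_one_iff _).mp h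
  obtain ⟨w, hw⟩ : ∃ w : G, w = c * c' := ⟨_, rfl⟩
  rw [← hw] at hw3 hwZ
  have hcw : c * w * c = w⁻¹ := by
    rw [hw, mul_inv_rev, hcinv, hc'inv]
    calc c * (c * c') * c = (c * c) * c' * c := by group
      _ = c' * c := by rw [hc2, one_mul]
  have hcwn : ∀ n : ℕ, c * w ^ n * c = (w ^ n)⁻¹ := by
    intro n
    induction n with
    | zero => simp [hc2]
    | succ n ih =>
      calc c * w ^ (n + 1) * c = (c * w ^ n * c) * (c * w * c) := by
            rw [pow_succ]
            calc c * (w ^ n * w) * c = c * w ^ n * 1 * w * c := by group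
              _ = c * w ^ n * (c * c) * w * c := by rw [hc2]
              _ = (c * w ^ n * c) * (c * w * c) := by group
        _ = (w ^ n)⁻¹ * w⁻¹ := by rw [ih, hcw]
        _ = (w ^ (n + 1))⁻¹ := by
            rw [pow_succ', mul_inv_rev]
  have hw6 : w ^ 6 = 1 := by
    have h1 := hcwn 3
    have h2 := hZc _ hw3 c
    have h3 : w ^ 3 = (w ^ 3)⁻¹ := by
      rw [← h1, h2, mul_assoc, hc2, mul_one]
    have h4 : w ^ 3 * w ^ 3 = 1 := by
      nth_rewrite 2 [h3]
      exact mul_inv_cancel _
    rw [← h4, ← pow_add]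
  -- the element of order three
  obtain ⟨v, hv⟩ : ∃ v : G, v = w ^ 4 := ⟨_, rfl⟩
  have hv3 : v ^ 3 = 1 := by
    rw [hv, ← pow_mul]
    show w ^ (6 * 2) = 1
    rw [pow_mul, hw6, one_pow]
  have hv1 : v ≠ 1 := by
    intro h
    apply hwZ
    have : w = (w ^ 3)⁻¹ := by
      rw [eq_inv_iff_mul_eq_one, ← pow_succ']
      rw [← hv]; exact h
    rw [this]
    exact inv_mem hw3
  have hcv : c * v * c = v⁻¹ := by rw [hv]; exact hcwn 4
  have hvv : v * v ≠ 1 := by
    intro h
    apply hv1
    calc v = v ^ 3 * (v * v)⁻¹ := by group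
      _ = 1 := by rw [hv3, h]; group
  obtain ⟨d, hd⟩ : ∃ d : G, d = c * v := ⟨_, rfl⟩
  have hd2 : d * d = 1 := by
    rw [hd]
    calc c * v * (c * v) = (c * v * c) * v := by group
      _ = 1 := by rw [hcv]; group
  have hc1 : c ≠ 1 := fun h => hcz (h ▸ one_mem _)
  have hd1 : d ≠ 1 := by
    intro h
    have hvc : v = c := by
      have : c * v = c * c := by rw [← hd, h, hc2]
      exact mul_left_cancel this
    apply hc1
    have h3 := hv3
    rw [hvc] at h3
    calc c = c ^ 3 * (c * c)⁻¹ := by group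
      _ = 1 := by rw [h3, hc2]; group
  have hcd : c * d = v := by rw [hd, ← mul_assoc, hc2, one_mul]
  have hdc : d * c = v⁻¹ := by rw [hd, hcv]
  have hprime2 : Fact (Nat.Prime 2) := ⟨Nat.prime_two⟩
  have hE : Cfsg.IsThreeTranspositionSet ({c, d} : Set G) := by
    refine ⟨?_, ?_⟩
    · rintro x (rfl | rfl)
      · exact orderOf_eq_prime (by rw [pow_two]; exact hc2) hc1
      · exact orderOf_eq_prime (by rw [pow_two]; exact hd2) hd1
    · rintro x (rfl | rfl) y (rfl | rfl)
      · left; rw [hc2, one_pow]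
      · right; rw [hcd, hv3]
      · right; rw [hdc, inv_pow, hv3, inv_one]
      · left; rw [hd2, one_pow]
  have hnc : ¬ Commute c d := by
    intro h
    have h1 : v = v⁻¹ := by
      calc v = c * d := hcd.symm
        _ = d * c := h.eq
        _ = v⁻¹ := hdc
    exact hvv (by nth_rewrite 2 [h1]; exact mul_inv_cancel v)
  obtain ⟨e⟩ := Cfsg.Agent.S0444.result hE (by simp) (by simp) hnc
  have hScard : Nat.card (Subgroup.closure ({c, d} : Set G)) = 6 := by
    rw [Nat.card_congr e.toEquiv, Nat.card_eq_fintype_card, Fintype.card_perm, Fintype.card_fin]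
    rfl
  generalize Subgroup.closure ({c, d} : Set G) = S at e hScard
  have hcomm : ∀ (s : S) (x : Subgroup.zpowers z),
      Commute (S.subtype s) ((Subgroup.zpowers z).subtype x) := by
    intro s x
    exact hZc x.1 x.2 s.1
  have hdisj : Disjoint S (Subgroup.zpowers z) := by
    rw [Subgroup.disjoint_def]
    intro x hxS hxZ
    have hcen : ∀ τ : Equiv.Perm (Fin 3), e ⟨x, hxS⟩ * τ = τ * e ⟨x, hxS⟩ := by
      intro τ
      obtain ⟨s, rfl⟩ := e.surjective τ
      rw [← map_mul, ← map_mul]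
      congr 1
      apply Subtype.ext
      exact (hZc x hxZ s.1).symm
    have h1 := perm3_center_trivial _ hcen
    have h2 : (⟨x, hxS⟩ : S) = 1 := e.injective (by rw [h1, map_one])
    exact congrArg Subtype.val h2
  have hinj : Function.Injective
      (MonoidHom.noncommCoprod S.subtype (Subgroup.zpowers z).subtype hcomm) := by
    rw [MonoidHom.noncommCoprod_injective]
    refine ⟨Subgroup.subtype_injective _, Subgroup.subtype_injective _, ?_⟩
    rw [Subgroup.range_subtype, Subgroup.range_subtype]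
    exact hdisj
  have hbij : Function.Bijective
      (MonoidHom.noncommCoprod S.subtype (Subgroup.zpowers z).subtype hcomm) := by
    rw [Nat.bijective_iff_injective_and_card]
    refine ⟨hinj, ?_⟩
    rw [Nat.card_prod, hScard, hZcard, hcard]
  have hcyc : IsCyclic (Subgroup.zpowers z) := inferInstance
  have eZ : Subgroup.zpowers z ≃* Multiplicative (ZMod f) := by
    have e1 := zmodCyclicMulEquiv hcyc
    rw [hZcard] at e1
    exact e1.symm
  exact ⟨(MulEquiv.ofBijective _ hbij).symm.trans (MulEquiv.prodCongr e eZ)⟩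

end Cfsg.Agent.Helper61.TriCall
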