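import Mathlib
import Cfsg.Agent.Helper21.SMDefs

set_option autoImplicit false

namespace Cfsg.Agent.Helper61.SMEXH

open Cfsg.Agent.Helper83 Cfsg.Agent.Helper21.SP Cfsg.Agent.Helper21.SM

variable {F : Type*} [Field F] {n : ℕ} {E : Type*} [Group E] {G : Type*} [Group G]

/-- PIECE EXH: an index avoiding four given ones. -/
theorem sm_exh (hn : 5 ≤ n) (i j k l : Fin n) : ∃ h : Fin n, h ≠ i ∧ h ≠ j ∧ h ≠ k ∧ h ≠ l := by
  classical
  have hcard : ({i, j, k, l} : Finset (Fin n)).card < (Finset.univ : Finset (Fin n)).card := by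
    have h1 : ({i, j, k, l} : Finset (Fin n)).card ≤ 4 := Finset.card_le_four
    have h2 : (Finset.univ : Finset (Fin n)).card = n := by simp
    omega
  obtain ⟨h, -, hh⟩ := Finset.exists_mem_notMem_of_card_lt_card hcard
  refine ⟨h, ?_, ?_, ?_, ?_⟩ <;> rintro rfl <;> exact hh (by simp)

end Cfsg.Agent.Helper61.SMEXH
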