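import Mathlib
import Cfsg.Agent.Helper21.SMDefs

set_option autoImplicit false

namespace Cfsg.Agent.Helper61.SMF3

open Cfsg.Agent.Helper83 Cfsg.Agent.Helper21.SP Cfsg.Agent.Helper21.SM

variable {F : Type*} [Field F] {n : ℕ} {E : Type*} [Group E] {G : Type*} [Group G]

/-- PIECE F3: the field with three elements. -/
theorem sm_f3 [Finite F] (h : Nat.card F = 3) :
    (∀ t : F, t = 0 ∨ t = 1 ∨ t = -1) ∧ (1 : F) + 1 + 1 = 0 := by
  classical
  haveI : Fintype F := Fintype.ofFinite F
  have hc : Fintype.card F = 3 := by rw [← Nat.card_eq_fintype_card]; exact h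
  have h3 : ((3 : ℕ) : F) = 0 := by
    rw [← hc]; exact Nat.cast_card_eq_zero F
  have h30 : (1 : F) + 1 + 1 = 0 := by
    have : ((3 : ℕ) : F) = 1 + 1 + 1 := by push_cast; ring
    rw [← this]; exact h3
  have h10 : (1 : F) ≠ 0 := one_ne_zero
  have hm1 : (-1 : F) ≠ 0 := neg_ne_zero.mpr one_ne_zero
  have h1m1 : (1 : F) ≠ -1 := by
    intro h'
    have h2 : (1 : F) + 1 = 0 := by
      nth_rewrite 2 [h']; ring
    have : (1 : F) = 0 := by
      have := h30
      rw [h2] at this
      simpa using this
    exact h10 this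
  refine ⟨?_, h30⟩
  intro t
  by_contra hcon
  push Not at hcon
  obtain ⟨ht0, ht1, htm⟩ := hcon
  have hcard4 : ({0, 1, -1, t} : Finset F).card = 4 := by
    rw [Finset.card_insert_of_notMem, Finset.card_insert_of_notMem, Finset.card_insert_of_notMem,
      Finset.card_singleton]
    · simp only [Finset.mem_singleton]; exact fun h' => htm h'.symm
    · simp only [Finset.mem_insert, Finset.mem_singleton]
      rintro (h' | h')
      · exact h1m1 h'
      · exact ht1 h'.symm
    · simp only [Finset.mem_insert, Finset.mem_singleton]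
      rintro (h' | h' | h')
      · exact h10 h'.symm
      · exact hm1 h'.symm
      · exact ht0 h'.symm
  have := Finset.card_le_univ ({0, 1, -1, t} : Finset F)
  omega

end Cfsg.Agent.Helper61.SMF3
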