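import Mathlib
import Cfsg.Prelude.Def_GeometricClasses
import Cfsg.Prelude.Def_LieTypeDatum

/-!
# CALL S2699 (helper43), piece Char2Orth

A nondegenerate symmetric matrix over a finite field of characteristic 2 with a nonzero diagonal
entry is congruent to the identity (Albert).
-/

set_option autoImplicit false

open Matrix Module

namespace Cfsg.Agent.Helper61

namespace GBC2

/-- splitting off a vector of norm one -/
theorem split_step {F : Type*} [Field F] {V : Type*} [AddCommGroup V] [Module F V]
    [FiniteDimensional F V] (B : LinearMap.BilinForm F V) (hs : B.IsSymm)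
    (hnd : B.Nondegenerate) (d : ℕ) (hfin : Module.finrank F V = d + 1) (x : V)
    (hx : B x x = 1) :
    Module.finrank F ↥(B.orthogonal (F ∙ x)) = d ∧
    (B.restrict (B.orthogonal (F ∙ x))).IsSymm ∧
    (B.restrict (B.orthogonal (F ∙ x))).Nondegenerate ∧
    ∀ v' : Fin d → ↥(B.orthogonal (F ∙ x)),
      (∀ i j, (B.restrict (B.orthogonal (F ∙ x))) (v' i) (v' j) = if i = j then 1 else 0) →
      ∃ v : Fin (d + 1) → V, ∀ i j, B (v i) (v j) = if i = j then 1 else 0 := by
  have hx0 : B x x ≠ 0 := by rw [hx]; exact one_ne_zero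
  have hxne : x ≠ 0 := by
    rintro rfl
    simp at hx0
  refine ⟨?_, hs.restrict _, ?_, ?_⟩
  · have h1 := Submodule.finrank_add_eq_of_isCompl
      (LinearMap.BilinForm.isCompl_span_singleton_orthogonal (B := B) hx0)
    rw [finrank_span_singleton hxne, hfin] at h1
    omega
  · exact LinearMap.BilinForm.restrict_nondegenerate_orthogonal_spanSingleton B hnd hs.isRefl hx0
  · intro v' hv'
    have hort : ∀ i, B x (v' i : V) = 0 := fun i =>
      (v' i).2 x (Submodule.mem_span_singleton_self x)
    refine ⟨Fin.cons x (fun i => (v' i : V)), ?_⟩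
    intro i j
    refine Fin.cases ?_ (fun i' => ?_) i <;> refine Fin.cases ?_ (fun j' => ?_) j
    · simp [hx]
    · simp only [Fin.cons_zero, Fin.cons_succ]
      rw [hort j', if_neg (Fin.succ_ne_zero j').symm]
    · simp only [Fin.cons_zero, Fin.cons_succ]
      rw [hs.eq, hort i', if_neg (Fin.succ_ne_zero i')]
    · simp only [Fin.cons_succ, Fin.succ_inj]
      exact hv' i' j'

/-- orthonormal families for nondegenerate non-alternating symmetric forms in characteristic 2
over a field with square roots -/
theorem orthonormal_family {F : Type*} [Field F] (h2 : (2 : F) = 0)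
    (hsq : ∀ a : F, ∃ s, s * s = a) :
    ∀ (d : ℕ) (V : Type _) [AddCommGroup V] [Module F V] [FiniteDimensional F V]
      (B : LinearMap.BilinForm F V), Module.finrank F V = d → B.IsSymm →
      B.Nondegenerate → (∃ v, B v v ≠ 0) →
      ∃ v : Fin d → V, ∀ i j, B (v i) (v j) = if i = j then 1 else 0 := by
  intro d
  induction d with
  | zero =>
    intro V _ _ _ B _ _ _ _
    exact ⟨Fin.elim0, fun i => i.elim0⟩
  | succ d ih =>
    intro V _ _ _ B hfin hs hnd hne
    obtain ⟨w, hw⟩ := hne
    obtain ⟨s, hs2⟩ := hsq (B w w)⁻¹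
    have hx : B (s • w) (s • w) = 1 := by
      simp only [map_smul, LinearMap.smul_apply, smul_eq_mul]
      rw [← mul_assoc, hs2, inv_mul_cancel₀ hw]
    set x := s • w with hxdef
    obtain ⟨hW1, hW2, hW3, hW4⟩ := split_step B hs hnd d hfin x hx
    rcases Nat.eq_zero_or_pos d with hd | hd
    · subst hd
      exact hW4 Fin.elim0 (fun i => i.elim0)
    by_cases halt : ∃ y : ↥(B.orthogonal (F ∙ x)), (B.restrict (B.orthogonal (F ∙ x))) y y ≠ 0
    · obtain ⟨v', hv'⟩ := ih _ _ hW1 hW2 hW3 halt
      exact hW4 v' hv'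
    · push Not at halt
      -- the restriction is alternating; pick a hyperbolic pair
      have hpos : 0 < Module.finrank F ↥(B.orthogonal (F ∙ x)) := by omega
      obtain ⟨e, he⟩ := Module.finrank_pos_iff_exists_ne_zero.mp hpos
      have hef : ∃ f : ↥(B.orthogonal (F ∙ x)), (B.restrict (B.orthogonal (F ∙ x))) e f ≠ 0 := by
        by_contra hcon
        push Not at hcon
        exact he (hW3.1 e hcon)
      obtain ⟨f, hf⟩ := hef
      have hf' : B (e : V) (f : V) ≠ 0 := hf
      have hxe : B x (e : V) = 0 := e.2 x (Submodule.mem_span_singleton_self x)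
      have hxf : B x (f : V) = 0 := f.2 x (Submodule.mem_span_singleton_self x)
      have hee : B (e : V) (e : V) = 0 := halt e
      have hff : B (f : V) (f : V) = 0 := halt f
      have hex : B (e : V) x = 0 := by rw [hs.eq]; exact hxe
      have hfx : B (f : V) x = 0 := by rw [hs.eq]; exact hxf
      set c := (B (e : V) (f : V))⁻¹ with hc
      have hx2 : B (x + (e : V)) (x + (e : V)) = 1 := by
        simp only [map_add, LinearMap.add_apply, hx, hxe, hex, hee]
        ring
      obtain ⟨hU1, hU2, hU3, hU4⟩ := split_step B hs hnd d hfin (x + (e : V)) hx2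
      have hy : x + c • (f : V) ∈ B.orthogonal (F ∙ (x + (e : V))) := by
        intro n hn
        obtain ⟨a, rfl⟩ := Submodule.mem_span_singleton.mp hn
        show B (a • (x + (e : V))) (x + c • (f : V)) = 0
        simp only [map_add, LinearMap.add_apply, LinearMap.map_smul, LinearMap.smul_apply,
          smul_eq_mul, hx, hxf, hex]
        rw [hc, inv_mul_cancel₀ hf']
        linear_combination a * h2
      have hyy : B (x + c • (f : V)) (x + c • (f : V)) ≠ 0 := by
        simp only [map_add, LinearMap.add_apply, LinearMap.map_smul, LinearMap.smul_apply,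
          smul_eq_mul, hx, hxf, hfx, hff]
        simp
      obtain ⟨v', hv'⟩ := ih _ _ hU1 hU2 hU3 ⟨⟨_, hy⟩, hyy⟩
      exact hU4 v' hv'

end GBC2

theorem sym_congr_one_char2 {F : Type*} [Field F] [Finite F] (h2 : (2 : F) = 0) {n : ℕ}
    (M : Matrix (Fin n) (Fin n) F) (hM : Mᵀ = M) (hdet : M.det ≠ 0) (hd : ∃ i, M i i ≠ 0) :
    ∃ k : GL (Fin n) F, (k : Matrix (Fin n) (Fin n) F)ᵀ * M * (k : Matrix (Fin n) (Fin n) F) = 1 := by
  classical
  have hsq : ∀ a : F, ∃ s, s * s = a := by
    have hinj : Function.Injective (fun s : F => s * s) := by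
      intro a b hab
      have h1 : (a - b) * (a - b) = 0 := by
        have hab' : a * a = b * b := hab
        linear_combination hab' + (b * b - a * b) * h2
      have h3 : a - b = 0 := by
        rcases mul_eq_zero.mp h1 with h | h <;> exact h
      exact sub_eq_zero.mp h3
    exact fun a => (Finite.injective_iff_surjective.mp hinj) a
  have hBs : (Matrix.toBilin' M).IsSymm := by
    refine ⟨fun u v => ?_⟩
    rw [Matrix.toBilin'_apply', Matrix.toBilin'_apply', Matrix.dotProduct_mulVec,
      dotProduct_comm, ← Matrix.mulVec_transpose, hM]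
  have hBn : (Matrix.toBilin' M).Nondegenerate :=
    LinearMap.BilinForm.nondegenerate_toBilin'_of_det_ne_zero' M hdet
  obtain ⟨i₀, hi₀⟩ := hd
  have hne : ∃ v, (Matrix.toBilin' M) v v ≠ 0 := by
    refine ⟨Pi.single i₀ 1, ?_⟩
    rw [Matrix.toBilin'_single]
    exact hi₀
  obtain ⟨v, hv⟩ := GBC2.orthonormal_family h2 hsq n (Fin n → F) (Matrix.toBilin' M)
    (Module.finrank_fin_fun F) hBs hBn hne
  set k : Matrix (Fin n) (Fin n) F := Matrix.of (fun i j => v j i) with hk
  have hkk : kᵀ * M * k = 1 := by
    ext i j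
    have h1 := hv i j
    rw [Matrix.toBilin'_apply'] at h1
    rw [Matrix.one_apply, ← h1, Matrix.mul_assoc, Matrix.mul_apply, dotProduct]
    refine Finset.sum_congr rfl (fun a _ => ?_)
    rw [Matrix.mul_apply, Matrix.mulVec, dotProduct]
    simp only [hk, Matrix.transpose_apply, Matrix.of_apply]
  have hdk : k.det ≠ 0 := by
    intro h0
    have := congrArg Matrix.det hkk
    rw [Matrix.det_mul, Matrix.det_mul, Matrix.det_transpose, h0] at this
    simp at this
  exact ⟨Matrix.GeneralLinearGroup.mkOfDetNeZero k hdk, hkk⟩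

end Cfsg.Agent.Helper61
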