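import Mathlib

set_option autoImplicit false
set_option linter.unusedSectionVars false
set_option linter.unusedVariables false
set_option linter.unusedSimpArgs false
set_option linter.style.haveILetI false

namespace Cfsg.Agent.Helper61

open Matrix

theorem orth3_three_eq_zero {F : Type*} [Field F] [Fintype F] (hF : Fintype.card F = 3) :
    (3 : F) = 0 := by
  have h := Nat.cast_card_eq_zero F
  rw [hF] at h
  exact_mod_cast h

theorem orth3_two_ne_zero {F : Type*} [Field F] [Fintype F] (hF : Fintype.card F = 3) :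
    (2 : F) ≠ 0 := by
  intro h2
  have h3 := orth3_three_eq_zero hF
  exact one_ne_zero (α := F) (by linear_combination h3 - h2)

theorem orth3_cases {F : Type*} [Field F] [Fintype F] (hF : Fintype.card F = 3) (x : F) :
    x = 0 ∨ x = 1 ∨ x = -1 := by
  classical
  have h2 := orth3_two_ne_zero hF
  have h01 : (0 : F) ≠ 1 := zero_ne_one
  have h0m : (0 : F) ≠ -1 := by
    intro h
    exact one_ne_zero (α := F) (by linear_combination h)
  have h1m : (1 : F) ≠ -1 := by
    intro h
    exact h2 (by linear_combination h)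
  have hcard : ({0, 1, -1} : Finset F).card = 3 := by
    rw [Finset.card_insert_of_notMem, Finset.card_insert_of_notMem, Finset.card_singleton]
    · simpa using h1m
    · simp [h01, h0m]
  have huniv : ({0, 1, -1} : Finset F) = Finset.univ := by
    apply Finset.eq_univ_of_card
    rw [hcard, hF]
  have hx : x ∈ ({0, 1, -1} : Finset F) := by rw [huniv]; exact Finset.mem_univ x
  simpa using hx

theorem orth3_col {F : Type*} [Field F] (h3 : (3 : F) = 0) (a b c : F)
    (ha : a = 0 ∨ a = 1 ∨ a = -1) (hb : b = 0 ∨ b = 1 ∨ b = -1) (hc : c = 0 ∨ c = 1 ∨ c = -1)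
    (h : a * a + b * b + c * c = 1) :
    (a ≠ 0 ∧ b = 0 ∧ c = 0) ∨ (a = 0 ∧ b ≠ 0 ∧ c = 0) ∨ (a = 0 ∧ b = 0 ∧ c ≠ 0) := by
  rcases ha with rfl | rfl | rfl <;> rcases hb with rfl | rfl | rfl <;>
    rcases hc with rfl | rfl | rfl <;>
    first
    | (exfalso; exact one_ne_zero (α := F) (by linear_combination -h))
    | (exfalso; exact one_ne_zero (α := F) (by linear_combination h))
    | (exfalso; exact one_ne_zero (α := F) (by linear_combination h3 - h))
    | simp

/-- PIECE P2 of CALL S5673 -/
theorem orth3_monomial {F : Type*} [Field F] [Fintype F] (hF : Fintype.card F = 3)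
    (g : Matrix (Fin 3) (Fin 3) F) (c : F) (hc : c ≠ 0)
    (h : gᵀ * g = c • (1 : Matrix (Fin 3) (Fin 3) F)) :
    c = 1 ∧ ∃ π : Equiv.Perm (Fin 3), ∀ i j, g i j ≠ 0 ↔ i = π j := by
  classical
  have h3 := orth3_three_eq_zero hF
  have h2 := orth3_two_ne_zero hF
  have hcases := orth3_cases hF
  have hc1 : c = 1 := by
    rcases hcases c with h0 | h1 | hm1
    · exact absurd h0 hc
    · exact h1
    · exfalso
      have hdet := congrArg Matrix.det h
      rw [Matrix.det_mul, Matrix.det_transpose, Matrix.det_smul, Matrix.det_one,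
        Fintype.card_fin, hm1] at hdet
      rcases hcases g.det with d0 | d1 | dm1
      · rw [d0] at hdet
        exact one_ne_zero (α := F) (by linear_combination hdet)
      · rw [d1] at hdet
        exact h2 (by linear_combination hdet)
      · rw [dm1] at hdet
        exact h2 (by linear_combination hdet)
  refine ⟨hc1, ?_⟩
  rw [hc1, one_smul] at h
  have hentry : ∀ i j, (gᵀ * g) i j = g 0 i * g 0 j + g 1 i * g 1 j + g 2 i * g 2 j := by
    intro i j
    simp [Matrix.mul_apply, Fin.sum_univ_three]
  have hcol : ∀ j, ∃ k : Fin 3, ∀ i, g i j ≠ 0 ↔ i = k := by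
    intro j
    have hjj : g 0 j * g 0 j + g 1 j * g 1 j + g 2 j * g 2 j = 1 := by
      rw [← hentry, h]; simp
    rcases orth3_col h3 _ _ _ (hcases _) (hcases _) (hcases _) hjj with
      ⟨ha, hb, hc'⟩ | ⟨ha, hb, hc'⟩ | ⟨ha, hb, hc'⟩
    · refine ⟨0, fun i => ?_⟩
      fin_cases i <;> simp [ha, hb, hc']
    · refine ⟨1, fun i => ?_⟩
      fin_cases i <;> simp [ha, hb, hc']
    · refine ⟨2, fun i => ?_⟩
      fin_cases i <;> simp [ha, hb, hc']
  choose P hP using hcol
  have hinj : Function.Injective P := by
    intro j j' hjj'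
    by_contra hne
    have hz : ∀ i', i' ≠ P j → g i' j = 0 := fun i' hi' => by
      by_contra hne'
      exact hi' ((hP j i').mp hne')
    have h1 : g (P j) j ≠ 0 := (hP j (P j)).mpr rfl
    have h2' : g (P j) j' ≠ 0 := (hP j' (P j)).mpr hjj'
    have hsum : (gᵀ * g) j j' = g (P j) j * g (P j) j' := by
      rw [Matrix.mul_apply]
      rw [Finset.sum_eq_single (P j)]
      · rfl
      · intro b _ hb
        rw [Matrix.transpose_apply, hz b hb, zero_mul]
      · intro hh
        exact absurd (Finset.mem_univ _) hh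
    rw [h, Matrix.one_apply_ne hne] at hsum
    exact mul_ne_zero h1 h2' hsum.symm
  refine ⟨Equiv.ofBijective P (Finite.injective_iff_bijective.mp hinj), fun i j => ?_⟩
  rw [Equiv.ofBijective_apply]
  exact hP j i

end Cfsg.Agent.Helper61
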