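import Mathlib

set_option autoImplicit false
set_option linter.unusedSectionVars false
set_option linter.unusedVariables false
set_option linter.unusedSimpArgs false
set_option linter.style.haveILetI false

namespace Cfsg.Agent.Helper61

open Matrix

/-- a nondegenerate binary diagonal form over a finite field of odd characteristic is universal -/
theorem symsim_repr {F : Type*} [Field F] [Fintype F] (h2 : (2 : F) ≠ 0) (a b t : F)
    (ha : a ≠ 0) (hb : b ≠ 0) : ∃ x y : F, a * x ^ 2 + b * y ^ 2 = t := by
  have hchar : ringChar F ≠ 2 := by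
    intro h
    apply h2
    have := CharP.cast_eq_zero F (ringChar F)
    rw [h] at this
    exact_mod_cast this
  have hodd := FiniteField.odd_card_of_char_ne_two hchar
  have hf : (Polynomial.C a * Polynomial.X ^ 2 : Polynomial F).degree = 2 :=
    Polynomial.degree_C_mul_X_pow 2 ha
  have hg : (Polynomial.C b * Polynomial.X ^ 2 - Polynomial.C t : Polynomial F).degree = 2 := by
    rw [Polynomial.degree_sub_C]
    · exact Polynomial.degree_C_mul_X_pow 2 hb
    · rw [Polynomial.degree_C_mul_X_pow 2 hb]; norm_num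
  obtain ⟨x, y, hxy⟩ := FiniteField.exists_root_sum_quadratic hf hg hodd
  refine ⟨x, y, ?_⟩
  simp only [Polynomial.eval_mul, Polynomial.eval_C, Polynomial.eval_pow, Polynomial.eval_X,
    Polynomial.eval_sub] at hxy
  linear_combination hxy

/-- two-index step for orthogonal families -/
theorem symsim_step {F : Type*} [Field F] {V : Type*} [AddCommGroup V] [Module F V]
    (β : LinearMap.BilinForm F V) {ι : Type*} [DecidableEq ι] (v : ι → V) (a : ι → F)
    (hv : ∀ k l, β (v k) (v l) = if k = l then a k else 0)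
    (i j : ι) (hij : i ≠ j) (x y : F) :
    ∃ v' : ι → V, ∀ k l, β (v' k) (v' l) =
      if k = l then Function.update (Function.update a i (a i * x ^ 2 + a j * y ^ 2)) j
        (a i * a j * (a i * x ^ 2 + a j * y ^ 2)) k else 0 := by
  have hii : β (v i) (v i) = a i := by rw [hv]; simp
  have hjj : β (v j) (v j) = a j := by rw [hv]; simp
  have hijz : β (v i) (v j) = 0 := by rw [hv]; simp [hij]
  have hjiz : β (v j) (v i) = 0 := by rw [hv]; simp [hij.symm]
  have hio : ∀ l, l ≠ i → β (v i) (v l) = 0 := fun l hl => by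
    rw [hv]; simp [Ne.symm hl]
  have hjo : ∀ l, l ≠ j → β (v j) (v l) = 0 := fun l hl => by
    rw [hv]; simp [Ne.symm hl]
  have hoi : ∀ l, l ≠ i → β (v l) (v i) = 0 := fun l hl => by
    rw [hv]; simp [hl]
  have hoj : ∀ l, l ≠ j → β (v l) (v j) = 0 := fun l hl => by
    rw [hv]; simp [hl]
  obtain ⟨wi, hwi⟩ : ∃ wi : V, wi = x • v i + y • v j := ⟨_, rfl⟩
  obtain ⟨wj, hwj⟩ : ∃ wj : V, wj = (-(a j) * y) • v i + (a i * x) • v j := ⟨_, rfl⟩
  have hwiwi : β wi wi = a i * x ^ 2 + a j * y ^ 2 := by
    simp only [hwi, map_add, map_smul, LinearMap.add_apply, LinearMap.smul_apply, smul_eq_mul,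
      hii, hjj, hijz, hjiz]
    ring
  have hwiwj : β wi wj = 0 := by
    simp only [hwi, hwj, map_add, map_smul, LinearMap.add_apply, LinearMap.smul_apply, smul_eq_mul,
      hii, hjj, hijz, hjiz]
    ring
  have hwjwi : β wj wi = 0 := by
    simp only [hwi, hwj, map_add, map_smul, LinearMap.add_apply, LinearMap.smul_apply, smul_eq_mul,
      hii, hjj, hijz, hjiz]
    ring
  have hwjwj : β wj wj = a i * a j * (a i * x ^ 2 + a j * y ^ 2) := by
    simp only [hwj, map_add, map_smul, LinearMap.add_apply, LinearMap.smul_apply, smul_eq_mul,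
      hii, hjj, hijz, hjiz]
    ring
  have hwio : ∀ l, l ≠ i → l ≠ j → β wi (v l) = 0 := fun l h1 h2 => by
    simp only [hwi, map_add, map_smul, LinearMap.add_apply, LinearMap.smul_apply, smul_eq_mul,
      hio l h1, hjo l h2]
    ring
  have hwjo : ∀ l, l ≠ i → l ≠ j → β wj (v l) = 0 := fun l h1 h2 => by
    simp only [hwj, map_add, map_smul, LinearMap.add_apply, LinearMap.smul_apply, smul_eq_mul,
      hio l h1, hjo l h2]
    ring
  have howi : ∀ l, l ≠ i → l ≠ j → β (v l) wi = 0 := fun l h1 h2 => by
    simp only [hwi, map_add, map_smul, LinearMap.add_apply, LinearMap.smul_apply, smul_eq_mul,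
      hoi l h1, hoj l h2]
    ring
  have howj : ∀ l, l ≠ i → l ≠ j → β (v l) wj = 0 := fun l h1 h2 => by
    simp only [hwj, map_add, map_smul, LinearMap.add_apply, LinearMap.smul_apply, smul_eq_mul,
      hoi l h1, hoj l h2]
    ring
  refine ⟨Function.update (Function.update v i wi) j wj, ?_⟩
  have ev_i : Function.update (Function.update v i wi) j wj i = wi := by
    rw [Function.update_of_ne hij, Function.update_self]
  have ev_j : Function.update (Function.update v i wi) j wj j = wj := Function.update_self ..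
  have ev_o : ∀ k, k ≠ i → k ≠ j → Function.update (Function.update v i wi) j wj k = v k :=
    fun k h1 h2 => by rw [Function.update_of_ne h2, Function.update_of_ne h1]
  have ea_i : Function.update (Function.update a i (a i * x ^ 2 + a j * y ^ 2)) j
      (a i * a j * (a i * x ^ 2 + a j * y ^ 2)) i = a i * x ^ 2 + a j * y ^ 2 := by
    rw [Function.update_of_ne hij, Function.update_self]
  have ea_j : Function.update (Function.update a i (a i * x ^ 2 + a j * y ^ 2)) j
      (a i * a j * (a i * x ^ 2 + a j * y ^ 2)) j = a i * a j * (a i * x ^ 2 + a j * y ^ 2) :=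
    Function.update_self ..
  have ea_o : ∀ k, k ≠ i → k ≠ j → Function.update (Function.update a i (a i * x ^ 2 + a j * y ^ 2)) j
      (a i * a j * (a i * x ^ 2 + a j * y ^ 2)) k = a k :=
    fun k h1 h2 => by rw [Function.update_of_ne h2, Function.update_of_ne h1]
  intro k l
  by_cases hki : k = i
  · by_cases hli : l = i
    · rw [hki, hli, ev_i, if_pos rfl, ea_i, hwiwi]
    · by_cases hlj : l = j
      · rw [hki, hlj, ev_i, ev_j, if_neg hij, hwiwj]
      · rw [hki, ev_i, ev_o l hli hlj, if_neg (Ne.symm hli), hwio l hli hlj]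
  · by_cases hkj : k = j
    · by_cases hli : l = i
      · rw [hkj, hli, ev_i, ev_j, if_neg hij.symm, hwjwi]
      · by_cases hlj : l = j
        · rw [hkj, hlj, ev_j, if_pos rfl, ea_j, hwjwj]
        · rw [hkj, ev_j, ev_o l hli hlj, if_neg (Ne.symm hlj), hwjo l hli hlj]
    · by_cases hli : l = i
      · rw [hli, ev_i, ev_o k hki hkj, if_neg hki, howi k hki hkj]
      · by_cases hlj : l = j
        · rw [hlj, ev_j, ev_o k hki hkj, if_neg hkj, howj k hki hkj]
        · rw [ev_o k hki hkj, ev_o l hli hlj, ea_o k hki hkj, hv]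

/-- PIECE P1 of CALL S5673 -/
theorem sym_similar_one {F : Type*} [Field F] [Fintype F] (h2 : (2 : F) ≠ 0) {d : ℕ} (hd : Odd d)
    (B : Matrix (Fin d) (Fin d) F) (hB : Bᵀ = B) (hdet : B.det ≠ 0) :
    ∃ (A : Matrix (Fin d) (Fin d) F) (μ : F), A.det ≠ 0 ∧ μ ≠ 0 ∧
      Aᵀ * B * A = μ • (1 : Matrix (Fin d) (Fin d) F) := by
  classical
  obtain ⟨m, hm⟩ := hd
  subst hm
  haveI : Invertible (2 : F) := invertibleOfNonzero h2
  have hsymm : (Matrix.toBilin' B).IsSymm := Matrix.isSymm_toBilin'_iff_isSymm.mpr hB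
  obtain ⟨b, hb⟩ := LinearMap.BilinForm.exists_orthogonal_basis
    (LinearMap.BilinForm.isSymm_iff.mp hsymm)
  have hsep : (Matrix.toBilin' B).SeparatingLeft :=
    (LinearMap.BilinForm.nondegenerate_toBilin'_of_det_ne_zero' B hdet).1
  have hfr : Module.finrank F (Fin (2 * m + 1) → F) = 2 * m + 1 := Module.finrank_fin_fun F
  -- initial orthogonal family
  obtain ⟨v0, a0, hv0, ha0⟩ : ∃ (v : Fin (2 * m + 1) → (Fin (2 * m + 1) → F))
      (a : Fin (2 * m + 1) → F),
      (∀ k l, Matrix.toBilin' B (v k) (v l) = if k = l then a k else 0) ∧ ∀ k, a k ≠ 0 := by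
    refine ⟨fun k => b (finCongr hfr.symm k),
      fun k => Matrix.toBilin' B (b (finCongr hfr.symm k)) (b (finCongr hfr.symm k)), ?_, ?_⟩
    · intro k l
      by_cases hkl : k = l
      · subst hkl; simp
      · rw [if_neg hkl]
        exact hb (fun h => hkl ((finCongr hfr.symm).injective h))
    · intro k
      exact hb.not_isOrtho_basis_self_of_separatingLeft hsep _
  obtain ⟨δ, hδ⟩ : ∃ δ : F, δ = ∏ k, a0 k := ⟨_, rfl⟩
  have hδ0 : δ ≠ 0 := by
    rw [hδ]; exact Finset.prod_ne_zero_iff.mpr (fun k _ => ha0 k)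
  obtain ⟨l, hl⟩ : ∃ l : Fin (2 * m + 1), l = Fin.last (2 * m) := ⟨_, rfl⟩
  have key : ∀ S : Finset (Fin (2 * m + 1)), l ∉ S →
      ∃ (v : Fin (2 * m + 1) → (Fin (2 * m + 1) → F)) (a : Fin (2 * m + 1) → F),
        (∀ k k', Matrix.toBilin' B (v k) (v k') = if k = k' then a k else 0) ∧ (∀ k, a k ≠ 0) ∧
        (∀ k ∈ S, a k = δ) ∧ ∃ s : F, s ≠ 0 ∧ ∏ k, a k = δ * s ^ 2 := by
    intro S
    induction S using Finset.induction_on with
    | empty =>
      intro _
      exact ⟨v0, a0, hv0, ha0, fun k hk => absurd hk (Finset.notMem_empty k), 1, one_ne_zero,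
        by rw [← hδ]; ring⟩
    | insert i S hiS ih =>
      intro hlS
      have hil : i ≠ l := fun h => hlS (by rw [← h]; exact Finset.mem_insert_self i S)
      have hlS' : l ∉ S := fun h => hlS (Finset.mem_insert_of_mem h)
      obtain ⟨v, a, hv, ha, haS, s, hs, hprod⟩ := ih hlS'
      obtain ⟨x, y, hxy⟩ := symsim_repr h2 (a i) (a l) δ (ha i) (ha l)
      obtain ⟨v', hv'⟩ := symsim_step (Matrix.toBilin' B) v a hv i l hil x y
      rw [hxy] at hv'
      refine ⟨v', _, hv', ?_, ?_, s * δ, mul_ne_zero hs hδ0, ?_⟩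
      · intro k
        by_cases hkl : k = l
        · rw [hkl, Function.update_self]
          exact mul_ne_zero (mul_ne_zero (ha i) (ha l)) hδ0
        · rw [Function.update_of_ne hkl]
          by_cases hki : k = i
          · rw [hki, Function.update_self]; exact hδ0
          · rw [Function.update_of_ne hki]; exact ha k
      · intro k hk
        rcases Finset.mem_insert.mp hk with hki | hkS
        · rw [hki, Function.update_of_ne hil, Function.update_self]
        · have hkl : k ≠ l := fun h => hlS' (h ▸ hkS)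
          have hki : k ≠ i := fun h => hiS (h ▸ hkS)
          rw [Function.update_of_ne hkl, Function.update_of_ne hki]
          exact haS k hkS
      · rw [Finset.prod_update_of_mem (Finset.mem_univ l)]
        have hi_mem : i ∈ Finset.univ \ {l} := by simp [hil]
        rw [Finset.prod_update_of_mem hi_mem]
        have h1 : ∏ k, a k = a l * (a i * ∏ k ∈ (Finset.univ \ {l}) \ {i}, a k) := by
          rw [Finset.prod_eq_mul_prod_sdiff_singleton_of_mem (Finset.mem_univ l) a,
            Finset.prod_eq_mul_prod_sdiff_singleton_of_mem hi_mem a]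
        rw [h1] at hprod
        linear_combination (δ ^ 2) * hprod
  obtain ⟨v, a, hv, ha, haS, s, hs, hprod⟩ := key (Finset.univ.erase l) (Finset.notMem_erase l _)
  have hak : ∀ k, k ≠ l → a k = δ := fun k hk =>
    haS k (Finset.mem_erase.mpr ⟨hk, Finset.mem_univ k⟩)
  have hal : a l * δ ^ (2 * m) = δ * s ^ 2 := by
    rw [← hprod, ← Finset.mul_prod_erase Finset.univ a (Finset.mem_univ l)]
    congr 1
    rw [Finset.prod_congr rfl (fun k hk => hak k (Finset.ne_of_mem_erase hk)), Finset.prod_const,
      Finset.card_erase_of_mem (Finset.mem_univ l), Finset.card_univ, Fintype.card_fin]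
    rfl
  obtain ⟨c, hc⟩ : ∃ c : F, c = δ ^ m / s := ⟨_, rfl⟩
  have hc2 : c * (c * a l) = δ := by
    rw [hc]
    field_simp
    linear_combination hal
  have hw : ∀ k k', Matrix.toBilin' B ((if k = l then c else 1) • v k)
      ((if k' = l then c else 1) • v k') = if k = k' then δ else 0 := by
    intro k k'
    simp only [map_smul, LinearMap.smul_apply, smul_eq_mul]
    rw [hv]
    by_cases hkk : k = k'
    · subst hkk
      rw [if_pos rfl, if_pos rfl]
      by_cases hkl : k = l
      · rw [if_pos hkl, hkl]; exact hc2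
      · rw [if_neg hkl, hak k hkl]; ring
    · rw [if_neg hkk, if_neg hkk]; ring
  have hA : (Matrix.of (fun r k => ((if k = l then c else 1) • v k) r))ᵀ * B *
      (Matrix.of (fun r k => ((if k = l then c else 1) • v k) r)) =
      δ • (1 : Matrix (Fin (2 * m + 1)) (Fin (2 * m + 1)) F) := by
    ext k k'
    have := hw k k'
    rw [Matrix.toBilin'_apply] at this
    rw [Matrix.smul_apply, Matrix.one_apply, smul_eq_mul, mul_ite, mul_one, mul_zero, ← this]
    simp only [Matrix.mul_apply, Matrix.transpose_apply, Matrix.of_apply, Finset.sum_mul]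
    exact Finset.sum_comm
  refine ⟨Matrix.of (fun r k => ((if k = l then c else 1) • v k) r), δ, ?_, hδ0, hA⟩
  intro h0
  have hdet' := congrArg Matrix.det hA
  rw [Matrix.det_mul, Matrix.det_mul, Matrix.det_transpose, h0, Matrix.det_smul, Matrix.det_one,
    zero_mul, zero_mul, mul_one] at hdet'
  exact hδ0 ((pow_eq_zero_iff (Fintype.card_ne_zero)).mp hdet'.symm)

end Cfsg.Agent.Helper61
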