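import Cfsg.Agent.Helper1.BG139Defs
import Cfsg.Prelude.Def_OddOrder

/-!
# CALL S1378 (helper1), piece C8 (pure group theory): `C_{E₃}(E₁) = 1`
for `E = E₃ E₁`, `E₃ ≤ E'` abelian normal, `E₁` abelian, coprime orders (transfer into `E₃`).
-/

set_option autoImplicit false

namespace Cfsg.Agent.Helper61

open Cfsg Subgroup Cfsg.Agent.Helper1

universe u

variable {G : Type u} [Group G] [Finite G]

theorem bg139_E3_fpf {E E₁ E₃ : Subgroup G} (hE₁ : E₁ ≤ E) (hE₃ : E₃ ≤ E)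
    (hEle : E ≤ E₃ ⊔ E₁) (hcop : (Nat.card E₃).Coprime (Nat.card E₁))
    (hE₃c : ∀ a ∈ E₃, ∀ b ∈ E₃, a * b = b * a) (hE₁c : ∀ a ∈ E₁, ∀ b ∈ E₁, a * b = b * a)
    (hE₃n : E ≤ normalizer (E₃ : Set G)) (hE₃d : E₃ ≤ ⁅E, E⁆) :
    ∀ z ∈ E₃, (∀ x ∈ E₁, x * z = z * x) → z = 1 := by
  intro z hz hzc
  classical
  -- decomposition of the elements of `E`
  have hdec : ∀ e ∈ E, ∃ a ∈ E₃, ∃ x ∈ E₁, e = a * x := by
    intro e he
    have h1 : e ∈ ((E₃ ⊔ E₁ : Subgroup G) : Set G) := hEle he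
    rw [Subgroup.coe_mul_of_right_le_normalizer_left E₃ E₁ (hE₁.trans hE₃n)] at h1
    obtain ⟨a, ha, x, hx, rfl⟩ := Set.mem_mul.mp h1
    exact ⟨a, ha, x, hx, rfl⟩
  set H : Subgroup ↥E := E₃.subgroupOf E with hH
  have hHn : H.Normal := (Subgroup.normal_subgroupOf_iff_le_normalizer hE₃).mpr hE₃n
  let _ : CommGroup ↥H :=
    { (inferInstance : Group ↥H) with
      mul_comm := fun a b => Subtype.ext (Subtype.ext (hE₃c _ a.2 _ b.2)) }
  -- `z` is central in `E`
  have hzcent : ∀ e ∈ E, e * z = z * e := by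
    intro e he
    obtain ⟨a, ha, x, hx, rfl⟩ := hdec e he
    rw [mul_assoc, hzc x hx, ← mul_assoc, hE₃c a ha z hz, mul_assoc]
  set z' : ↥E := ⟨z, hE₃ hz⟩ with hz'
  have hz'cent : ∀ e : ↥E, e * z' = z' * e := fun e => Subtype.ext (hzcent e e.2)
  have key : ∀ (k : ℕ) (g₀ : ↥E), g₀⁻¹ * z' ^ k * g₀ ∈ H → g₀⁻¹ * z' ^ k * g₀ = z' ^ k := by
    intro k g₀ _
    have h1 : Commute g₀ (z' ^ k) := (show Commute g₀ z' from hz'cent g₀).pow_right k
    rw [mul_assoc, ← h1.eq, inv_mul_cancel_left]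
  have htr := MonoidHom.transfer_eq_pow (MonoidHom.id ↥H) z' key
  -- `z'` is in the commutator subgroup of `E`
  have hzcomm : z' ∈ commutator ↥E := by
    have h1 : z ∈ (commutator ↥E).map E.subtype := by
      rw [commutator_def, Subgroup.map_commutator]
      have h2 : (⊤ : Subgroup ↥E).map E.subtype = E := by
        rw [← MonoidHom.range_eq_map, Subgroup.range_subtype]
      rw [h2]
      exact hE₃d hz
    obtain ⟨w, hw, hwz⟩ := Subgroup.mem_map.mp h1
    have : w = z' := Subtype.ext hwz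
    rw [← this]
    exact hw
  have hker : MonoidHom.transfer (MonoidHom.id ↥H) z' = 1 :=
    MonoidHom.mem_ker.mp (Abelianization.commutator_subset_ker _ hzcomm)
  rw [hker] at htr
  have hzpow : z ^ H.index = 1 := by
    have h1 := congrArg (fun w : ↥H => ((w : ↥E) : G)) htr
    simpa using h1.symm
  -- the index divides `|E₁|`
  have hidx : H.index ∣ Nat.card E₁ := by
    let f : ↥E₁ →* ↥E ⧸ H := (QuotientGroup.mk' H).comp (Subgroup.inclusion hE₁)
    have hf : Function.Surjective f := by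
      intro q
      induction q using QuotientGroup.induction_on with
      | H e =>
        obtain ⟨a, ha, x, hx, hax⟩ := hdec e e.2
        refine ⟨⟨x, hx⟩, ?_⟩
        show (QuotientGroup.mk (Subgroup.inclusion hE₁ ⟨x, hx⟩) : ↥E ⧸ H) = QuotientGroup.mk e
        rw [QuotientGroup.eq]
        show ((Subgroup.inclusion hE₁ ⟨x, hx⟩)⁻¹ * e : ↥E) ∈ E₃.subgroupOf E
        rw [Subgroup.mem_subgroupOf]
        show x⁻¹ * (e : G) ∈ E₃
        rw [hax]
        have hxn := hE₃n (hE₁ hx)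
        have h3 : x⁻¹ * a * x⁻¹⁻¹ ∈ E₃ :=
          ((Subgroup.mem_normalizer_iff.mp (Subgroup.inv_mem _ hxn)) a).mp ha
        rw [inv_inv] at h3
        rw [← mul_assoc]
        exact h3
    exact Subgroup.card_dvd_of_surjective f hf
  have ho1 : orderOf z ∣ Nat.card E₁ := (orderOf_dvd_of_pow_eq_one hzpow).trans hidx
  have ho3 : orderOf z ∣ Nat.card E₃ := by
    have := Subgroup.orderOf_dvd_natCard E₃ hz
    exact this
  have ho : orderOf z = 1 := Nat.eq_one_of_dvd_coprimes hcop ho3 ho1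
  exact orderOf_eq_one_iff.mp ho

end Cfsg.Agent.Helper61
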