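import Mathlib
import Cfsg.Agent.Lead.LWDefs

/-!
# CALL S0747 (lead), piece A2: the index of the induced group is at most the size of the class
-/

set_option autoImplicit false

namespace Cfsg.Agent.Helper61.LWA2

open Cfsg.Agent.Lead.LW

variable {α : Type*} [Fintype α] [DecidableEq α]

theorem index_le_ncard (G : Subgroup (Equiv.Perm α)) (k : ℕ) (hG : KTrans G k) (Γ : Finset α)
    (hΓ : Γ.card = k) (δ : α) (hδ : δ ∉ Γ) :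
    (induced G (insert δ Γ)).index ≤ (cls G Γ δ).ncard := by
  classical
  set Δ : Finset α := insert δ Γ with hΔ
  have hδΔ : δ ∈ Δ := Finset.mem_insert_self δ Γ
  have hΓΔ : ∀ a, a ∈ Γ → a ∈ Δ := fun a ha => Finset.mem_insert_of_mem ha
  have hΔcases : ∀ a, a ∈ Δ → a = δ ∨ a ∈ Γ := fun a ha => Finset.mem_insert.mp ha
  -- realising σ⁻¹ on Γ
  have hex : ∀ σ : Equiv.Perm ↥Δ, ∃ g ∈ G, ∀ b : ↥Δ, (b : α) ∈ Γ →
      g ((σ⁻¹ b : ↥Δ) : α) = b := by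
    intro σ
    let e := Finset.equivFinOfCardEq hΓ
    let y : Fin k ↪ α := e.symm.toEmbedding.trans (Function.Embedding.subtype _)
    have hyΓ : ∀ i, y i ∈ Γ := fun i => (e.symm i).2
    let x : Fin k ↪ α := ⟨fun i => ((σ⁻¹ ⟨y i, hΓΔ _ (hyΓ i)⟩ : ↥Δ) : α), by
      intro i j hij
      have h1 : (σ⁻¹ ⟨y i, hΓΔ _ (hyΓ i)⟩ : ↥Δ) = σ⁻¹ ⟨y j, hΓΔ _ (hyΓ j)⟩ := Subtype.ext hij
      have h2 := σ⁻¹.injective h1
      have h3 : y i = y j := congrArg (fun z : ↥Δ => (z : α)) h2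
      exact y.injective h3⟩
    obtain ⟨g, hgG, hg⟩ := hG x y
    refine ⟨g, hgG, fun b hb => ?_⟩
    have hyb : y (e ⟨b, hb⟩) = b := by simp [y]
    have hbb : (⟨y (e ⟨b, hb⟩), hΓΔ _ (hyΓ _)⟩ : ↥Δ) = b := Subtype.ext hyb
    have := hg (e ⟨b, hb⟩)
    rw [hyb] at this
    rw [← this]
    show g ((σ⁻¹ b : ↥Δ) : α) = g ((σ⁻¹ ⟨y (e ⟨b, hb⟩), hΓΔ _ (hyΓ _)⟩ : ↥Δ) : α)
    rw [hbb]
  choose gσ hgσG hgσ using hex
  set φ : Equiv.Perm ↥Δ → α := fun σ => gσ σ ((σ⁻¹ ⟨δ, hδΔ⟩ : ↥Δ) : α) with hφ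
  have F1 : ∀ (σ : Equiv.Perm ↥Δ) (x : ↥Δ), ((σ x : ↥Δ) : α) ∈ Γ → gσ σ (x : α) = (σ x : ↥Δ) := by
    intro σ x hx
    have := hgσ σ (σ x) hx
    have h0 : σ⁻¹ (σ x) = x := by simp
    rwa [h0] at this
  have F2 : ∀ (σ : Equiv.Perm ↥Δ) (x : ↥Δ), ((σ x : ↥Δ) : α) = δ → gσ σ (x : α) = φ σ := by
    intro σ x hx
    have h1 : σ x = ⟨δ, hδΔ⟩ := Subtype.ext hx
    have h2 : x = σ⁻¹ ⟨δ, hδΔ⟩ := by rw [← h1]; simp
    rw [hφ]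
    show gσ σ (x : α) = gσ σ ((σ⁻¹ ⟨δ, hδΔ⟩ : ↥Δ) : α)
    rw [← h2]
  have P1 : ∀ σ : Equiv.Perm ↥Δ, φ σ ∈ cls G Γ δ := by
    intro σ
    rw [mem_cls]
    constructor
    · intro hmem
      have h1 := hgσ σ ⟨φ σ, hΓΔ _ hmem⟩ hmem
      have h2 : ((σ⁻¹ ⟨φ σ, hΓΔ _ hmem⟩ : ↥Δ) : α) = ((σ⁻¹ ⟨δ, hδΔ⟩ : ↥Δ) : α) :=
        (gσ σ).injective h1
      have h3 := σ⁻¹.injective (Subtype.ext h2)
      have h4 : φ σ = δ := congrArg Subtype.val h3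
      rw [h4] at hmem
      exact hδ hmem
    · refine ⟨gσ σ, hgσG σ, fun a => ?_⟩
      constructor
      · intro ha
        rcases Finset.mem_insert.mp ha with h | h
        · have h2 : a = ((σ⁻¹ ⟨δ, hδΔ⟩ : ↥Δ) : α) := (gσ σ).injective h
          rw [h2]
          exact (σ⁻¹ ⟨δ, hδΔ⟩ : ↥Δ).2
        · have h1 := hgσ σ ⟨gσ σ a, hΓΔ _ h⟩ h
          have h2 : ((σ⁻¹ ⟨gσ σ a, hΓΔ _ h⟩ : ↥Δ) : α) = a := (gσ σ).injective h1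
          rw [← h2]
          exact (σ⁻¹ ⟨gσ σ a, hΓΔ _ h⟩ : ↥Δ).2
      · intro ha
        rcases hΔcases _ (σ ⟨a, ha⟩).2 with h | h
        · rw [F2 σ ⟨a, ha⟩ h]
          exact Finset.mem_insert_self _ _
        · rw [F1 σ ⟨a, ha⟩ h]
          exact Finset.mem_insert_of_mem h
  have P2 : ∀ σ τ : Equiv.Perm ↥Δ, φ σ = φ τ → τ⁻¹ * σ ∈ induced G Δ := by
    intro σ τ hστ
    rw [mem_induced]
    refine ⟨(gσ τ)⁻¹ * gσ σ, G.mul_mem (G.inv_mem (hgσG τ)) (hgσG σ), fun x => ?_⟩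
    rw [Equiv.Perm.mul_apply, Equiv.Perm.mul_apply, Equiv.Perm.inv_eq_iff_eq]
    rcases hΔcases _ (σ x).2 with h | h
    · rw [F2 σ x h, hστ]
      have h1 : σ x = ⟨δ, hδΔ⟩ := Subtype.ext h
      rw [h1]
    · rw [F1 σ x h]
      exact (hgσ τ (σ x) h).symm
  -- the injection
  have hfin : Finite ↥(cls G Γ δ) := Set.toFinite _
  rw [← Nat.card_coe_set_eq]
  show Nat.card (Equiv.Perm ↥Δ ⧸ induced G Δ) ≤ _
  apply Nat.card_le_card_of_injective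
    (fun q : Equiv.Perm ↥Δ ⧸ induced G Δ => (⟨φ q.out, P1 q.out⟩ : ↥(cls G Γ δ)))
  intro q q' hqq
  have h1 : φ q.out = φ q'.out := congrArg Subtype.val hqq
  have h2 := P2 _ _ h1
  have h3 : (QuotientGroup.mk q'.out : Equiv.Perm ↥Δ ⧸ induced G Δ) = QuotientGroup.mk q.out :=
    QuotientGroup.eq.mpr h2
  rw [QuotientGroup.out_eq', QuotientGroup.out_eq'] at h3
  exact h3.symm

end Cfsg.Agent.Helper61.LWA2
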