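import Mathlib
import Cfsg.Agent.Lead.LWDefs

/-!
# CALL S0747 (lead), piece B1: Witt's lemma
-/

set_option autoImplicit false

namespace Cfsg.Agent.Helper61.LWB1

open Cfsg.Agent.Lead.LW

variable {α : Type*} [Fintype α] [DecidableEq α]

theorem witt (G : Subgroup (Equiv.Perm α)) (k : ℕ) (hG : KTrans G k) (Γ : Finset α)
    (hΓ : Γ.card = k) (P : Subgroup (Equiv.Perm α)) (hP : P ≤ pstab G Γ)
    (hcard : Nat.card P = 2 ^ (Nat.card (pstab G Γ)).factorization 2)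
    (x y : Fin k ↪ α) (hx : ∀ i, x i ∈ fixF P) (hy : ∀ i, y i ∈ fixF P) :
    ∃ g ∈ nrm G P, ∀ i, g (x i) = y i := by
  classical
  obtain ⟨g₀, hg₀G, hg₀⟩ := hG x y
  set L : Subgroup (Equiv.Perm α) := pstab G (Finset.univ.map y) with hL
  have hmemL : ∀ u, u ∈ L ↔ u ∈ G ∧ ∀ i, u (y i) = y i := by
    intro u
    rw [hL, mem_pstab]
    constructor
    · rintro ⟨h1, h2⟩
      exact ⟨h1, fun i => h2 _ (Finset.mem_map_of_mem y (Finset.mem_univ i))⟩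
    · rintro ⟨h1, h2⟩
      refine ⟨h1, fun a ha => ?_⟩
      obtain ⟨i, -, rfl⟩ := Finset.mem_map.mp ha
      exact h2 i
  have hPG : ∀ h ∈ P, h ∈ G := fun h hh => (hP hh).1
  have hPL : P ≤ L := fun h hh => (hmemL h).mpr ⟨hPG h hh, fun i => mem_fixF.mp (hy i) h hh⟩
  -- the conjugate P₀ = g₀ P g₀⁻¹
  set P₀ : Subgroup (Equiv.Perm α) := P.map (MulAut.conj g₀).toMonoidHom with hP₀
  have hmemP₀ : ∀ u, u ∈ P₀ ↔ g₀⁻¹ * u * g₀ ∈ P := by
    intro u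
    rw [hP₀, Subgroup.mem_map]
    constructor
    · rintro ⟨h, hh, rfl⟩
      have : g₀⁻¹ * ((MulAut.conj g₀).toMonoidHom h) * g₀ = h := by
        show g₀⁻¹ * (MulAut.conj g₀ h) * g₀ = h
        rw [MulAut.conj_apply]
        group
      rw [this]
      exact hh
    · intro hu
      refine ⟨g₀⁻¹ * u * g₀, hu, ?_⟩
      show MulAut.conj g₀ (g₀⁻¹ * u * g₀) = u
      rw [MulAut.conj_apply]
      group
  have hP₀L : P₀ ≤ L := by
    intro u hu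
    rw [hmemP₀] at hu
    rw [hmemL]
    have huG : u ∈ G := by
      have h1 := G.mul_mem (G.mul_mem hg₀G (hPG _ hu)) (G.inv_mem hg₀G)
      have h2 : g₀ * (g₀⁻¹ * u * g₀) * g₀⁻¹ = u := by group
      rw [h2] at h1
      exact h1
    refine ⟨huG, fun i => ?_⟩
    have h1 := mem_fixF.mp (hx i) _ hu
    rw [Equiv.Perm.mul_apply, Equiv.Perm.mul_apply, hg₀ i, Equiv.Perm.inv_eq_iff_eq, hg₀ i] at h1
    exact h1
  -- |L| = |pstab G Γ|
  have hcardL : Nat.card L = Nat.card (pstab G Γ) := by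
    let e := Finset.equivFinOfCardEq hΓ
    let z : Fin k ↪ α := e.symm.toEmbedding.trans (Function.Embedding.subtype _)
    have hzΓ : ∀ i, z i ∈ Γ := fun i => (e.symm i).2
    have hzsurj : ∀ a ∈ Γ, ∃ i, z i = a := fun a ha => ⟨e ⟨a, ha⟩, by simp [z]⟩
    obtain ⟨g₁, hg₁G, hg₁⟩ := hG z y
    have hg₁' : ∀ i, g₁⁻¹ (y i) = z i := fun i => by
      rw [Equiv.Perm.inv_eq_iff_eq, hg₁ i]
    refine Nat.card_congr
      { toFun := fun u => ⟨g₁⁻¹ * (u : Equiv.Perm α) * g₁, ?_⟩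
        invFun := fun h => ⟨g₁ * (h : Equiv.Perm α) * g₁⁻¹, ?_⟩
        left_inv := fun u => Subtype.ext (by show g₁ * (g₁⁻¹ * (u : Equiv.Perm α) * g₁) * g₁⁻¹ = u; group)
        right_inv := fun h => Subtype.ext (by show g₁⁻¹ * (g₁ * (h : Equiv.Perm α) * g₁⁻¹) * g₁ = h; group) }
    · obtain ⟨hu1, hu2⟩ := (hmemL _).mp u.2
      refine mem_pstab.mpr ⟨G.mul_mem (G.mul_mem (G.inv_mem hg₁G) hu1) hg₁G, fun a ha => ?_⟩
      obtain ⟨i, rfl⟩ := hzsurj a ha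
      rw [Equiv.Perm.mul_apply, Equiv.Perm.mul_apply, hg₁ i, hu2 i, hg₁' i]
    · obtain ⟨hh1, hh2⟩ := mem_pstab.mp h.2
      refine (hmemL _).mpr ⟨G.mul_mem (G.mul_mem hg₁G hh1) (G.inv_mem hg₁G), fun i => ?_⟩
      rw [Equiv.Perm.mul_apply, Equiv.Perm.mul_apply, hg₁' i, hh2 _ (hzΓ i), hg₁ i]
  have hcP : Nat.card (P.subgroupOf L) = 2 ^ (Nat.card L).factorization 2 := by
    rw [Nat.card_congr (Subgroup.subgroupOfEquivOfLe hPL).toEquiv, hcard, hcardL]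
  have hcP₀ : Nat.card (P₀.subgroupOf L) = 2 ^ (Nat.card L).factorization 2 := by
    rw [Nat.card_congr (Subgroup.subgroupOfEquivOfLe hP₀L).toEquiv, hcardL, ← hcard, hP₀]
    exact (Nat.card_congr (Subgroup.equivMapOfInjective P (MulAut.conj g₀).toMonoidHom
      (MulAut.conj g₀).injective).toEquiv).symm
  have : Fact (Nat.Prime 2) := ⟨Nat.prime_two⟩
  let S₁ : Sylow 2 L := Sylow.ofCard (P.subgroupOf L) hcP
  let S₂ : Sylow 2 L := Sylow.ofCard (P₀.subgroupOf L) hcP₀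
  obtain ⟨c, hc⟩ := MulAction.exists_smul_eq L S₂ S₁
  have key : ∀ u : Equiv.Perm α, u ∈ L → (u ∈ P ↔ (c * g₀ : Equiv.Perm α)⁻¹ * u * (c * g₀) ∈ P) := by
    intro u hu
    have h1 : (⟨u, hu⟩ : L) ∈ (S₁ : Subgroup L) ↔ (⟨u, hu⟩ : L) ∈ ((c • S₂ : Sylow 2 L) : Subgroup L) := by
      rw [hc]
    rw [Sylow.coe_subgroup_smul, Subgroup.mem_pointwise_smul_iff_inv_smul_mem] at h1
    have h2 : (⟨u, hu⟩ : L) ∈ (S₁ : Subgroup L) ↔ u ∈ P := Iff.rfl
    have h3 : ((MulAut.conj c)⁻¹ • (⟨u, hu⟩ : L)) ∈ (S₂ : Subgroup L) ↔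
        (c : Equiv.Perm α)⁻¹ * u * c ∈ P₀ := by
      show ((MulAut.conj c)⁻¹ (⟨u, hu⟩ : L)) ∈ P₀.subgroupOf L ↔ _
      rw [Subgroup.mem_subgroupOf, ← map_inv, MulAut.conj_apply]
      simp
    rw [h2, h3, hmemP₀] at h1
    rw [h1]
    have : (c * g₀ : Equiv.Perm α)⁻¹ * u * (c * g₀) = g₀⁻¹ * ((c : Equiv.Perm α)⁻¹ * u * c) * g₀ := by
      group
    rw [this]
  have hcL := (hmemL _).mp c.2
  refine ⟨c * g₀, mem_nrm.mpr ⟨G.mul_mem hcL.1 hg₀G, fun h => ?_⟩, fun i => ?_⟩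
  · have hcancel : (c * g₀ : Equiv.Perm α)⁻¹ * ((c * g₀ : Equiv.Perm α) * h * (c * g₀ : Equiv.Perm α)⁻¹)
        * (c * g₀) = h := by group
    constructor
    · intro hh
      have huL : (c * g₀ : Equiv.Perm α) * h * (c * g₀ : Equiv.Perm α)⁻¹ ∈ L := by
        have h1 : g₀ * h * g₀⁻¹ ∈ P₀ := by
          rw [hmemP₀]
          have : g₀⁻¹ * (g₀ * h * g₀⁻¹) * g₀ = h := by group
          rw [this]
          exact hh
        have h2 := L.mul_mem (L.mul_mem c.2 (hP₀L h1)) (L.inv_mem c.2)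
        have h3 : (c : Equiv.Perm α) * (g₀ * h * g₀⁻¹) * (c : Equiv.Perm α)⁻¹
            = (c * g₀ : Equiv.Perm α) * h * (c * g₀ : Equiv.Perm α)⁻¹ := by group
        rw [h3] at h2
        exact h2
      rw [key _ huL, hcancel]
      exact hh
    · intro hu
      have := (key _ (hPL hu)).mp hu
      rw [hcancel] at this
      exact this
  · rw [Equiv.Perm.mul_apply, hg₀ i]
    exact hcL.2 i

end Cfsg.Agent.Helper61.LWB1
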