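import Mathlib

/-!
# CALL S0996 (helper79), piece NF1: divisors `≡ 1 (mod p)` of `(1 + n p)(p - 1)` for
non-exceptional `n`
-/

set_option autoImplicit false

universe u

namespace Cfsg.Agent.Helper61

theorem brn_nonF (p n m : ℕ) (hp : 2 ≤ p)
    (hnF : ∀ h u : ℕ, 0 < h → 0 < u → n * (u + 1) ≠ h * u * p + u ^ 2 + u + h)
    (hm : (m : ℤ) ≡ 1 [ZMOD p]) (hdvd : m ∣ (1 + n * p) * (p - 1)) :
    m = 1 ∨ m = 1 + n * p := by
  obtain ⟨P1, rfl⟩ : ∃ P1, p = P1 + 1 := ⟨p - 1, by omega⟩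
  have hP1 : 1 ≤ P1 := by omega
  rw [Nat.add_sub_cancel] at hdvd
  obtain ⟨c, hc⟩ := hdvd
  have hprod : 0 < (1 + n * (P1 + 1)) * P1 := by positivity
  have hm0 : 0 < m := by
    rcases Nat.eq_zero_or_pos m with h0 | h0
    · rw [h0, zero_mul] at hc
      omega
    · exact h0
  have hc0 : 0 < c := by
    rcases Nat.eq_zero_or_pos c with h0 | h0
    · rw [h0, mul_zero] at hc
      omega
    · exact h0
  -- m = 1 + u * p
  obtain ⟨u, hu⟩ : ∃ u : ℕ, m = 1 + u * (P1 + 1) := by
    have h1 : ((P1 + 1 : ℕ) : ℤ) ∣ (m : ℤ) - 1 := (Int.modEq_iff_dvd.mp hm.symm)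
    have h2 : ((P1 + 1 : ℕ) : ℤ) ∣ ((m - 1 : ℕ) : ℤ) := by
      rw [Nat.cast_sub hm0]
      exact_mod_cast h1
    obtain ⟨u, hu⟩ := Int.natCast_dvd_natCast.mp h2
    exact ⟨u, by rw [mul_comm]; omega⟩
  have hcz : ((1 : ℤ) + n * (P1 + 1)) * P1 = (1 + u * (P1 + 1)) * c := by
    have := hc
    rw [hu] at this
    exact_mod_cast this
  rcases Nat.eq_zero_or_pos u with hu0 | hu0
  · left
    rw [hu, hu0]
    simp
  rcases lt_trichotomy u n with hlt | heq | hgt
  · -- exceptional form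
    exfalso
    set hz : ℤ := (u : ℤ) ^ 2 * c + ((n : ℤ) - u) - n * ((m : ℤ) - u - 1) with hhz
    have hmz : (m : ℤ) = 1 + u * (P1 + 1) := by exact_mod_cast hu
    have key : ((n : ℤ) - u) * (u + 1) = hz * m := by
      rw [hhz, hmz]
      linear_combination (u : ℤ) ^ 2 * hcz
    have hpos : 0 < hz * (m : ℤ) := by
      rw [← key]
      have h1 : (0 : ℤ) < (n : ℤ) - u := by
        have : (u : ℤ) < n := by exact_mod_cast hlt
        linarith
      positivity
    have hmpos : (0 : ℤ) < m := by exact_mod_cast hm0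
    have hzpos : 0 < hz := by
      by_contra hcon
      push Not at hcon
      have : hz * (m : ℤ) ≤ 0 := mul_nonpos_of_nonpos_of_nonneg hcon hmpos.le
      linarith
    obtain ⟨h, hh⟩ : ∃ h : ℕ, (h : ℤ) = hz := ⟨hz.toNat, Int.toNat_of_nonneg hzpos.le⟩
    have hhpos : 0 < h := by
      have : (0 : ℤ) < (h : ℤ) := by rw [hh]; exact hzpos
      exact_mod_cast this
    apply hnF h u hhpos hu0
    have : ((n : ℤ)) * (u + 1) = h * u * (P1 + 1) + u ^ 2 + u + h := by
      rw [hh]
      rw [hmz] at key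
      linear_combination key
    exact_mod_cast this
  · right
    rw [hu, heq]
  · -- u > n : impossible
    exfalso
    have hclt : c < P1 := by
      by_contra hcon
      push Not at hcon
      have h1 : (1 + n * (P1 + 1)) * P1 < m * c := by
        have h2 : 1 + n * (P1 + 1) < m := by
          rw [hu]
          have : n * (P1 + 1) < u * (P1 + 1) := Nat.mul_lt_mul_of_pos_right hgt (by omega)
          omega
        calc (1 + n * (P1 + 1)) * P1 < m * P1 := Nat.mul_lt_mul_of_pos_right h2 (by omega)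
          _ ≤ m * c := Nat.mul_le_mul_left m hcon
      omega
    have hdz : ((P1 + 1 : ℕ) : ℤ) ∣ ((c + 1 : ℕ) : ℤ) := by
      refine ⟨1 + n * P1 - u * c, ?_⟩
      push_cast
      linear_combination -hcz
    have hd : P1 + 1 ∣ c + 1 := Int.natCast_dvd_natCast.mp hdz
    have := Nat.le_of_dvd (by omega) hd
    omega

end Cfsg.Agent.Helper61
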