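import Mathlib

/-!
# CALL S0996 (helper79), pieces GT1 and GT2

* `brn_norm_preg`: an element of `N(P) \ P` has order prime to `p` when `|P| = |C(P)| = p`.
* `brn_invol_count`: the number of conjugates of an inverting involution in `N(P)` is `p`.
-/

set_option autoImplicit false

universe u

namespace Cfsg.Agent.Helper61

theorem brn_norm_preg {G : Type u} [Group G] [Finite G] {p : ℕ} [Fact p.Prime] (P : Sylow p G)
    (hP : Nat.card (P : Subgroup G) = p)
    (hC : Nat.card (Subgroup.centralizer ((P : Subgroup G) : Set G)) = p) (h : G)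
    (hh : h ∈ Subgroup.normalizer ((P : Subgroup G) : Set G)) (hhP : h ∉ (P : Subgroup G)) :
    ¬ p ∣ orderOf h := by
  intro hdvd
  have hp := (Fact.out : p.Prime)
  set y := h ^ (orderOf h / p) with hy
  have hyord : orderOf y = p := orderOf_pow_orderOf_div (orderOf_pos h).ne' hdvd
  have hyN : y ∈ Subgroup.normalizer ((P : Subgroup G) : Set G) := Subgroup.pow_mem _ hh _
  have hyP : y ∈ (P : Subgroup G) := by
    have hpg : IsPGroup p (Subgroup.zpowers y ⊔ (P : Subgroup G) : Subgroup G) := by
      apply IsPGroup.to_sup_of_normal_right' ?_ P.isPGroup' ?_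
      · exact IsPGroup.of_card (n := 1) (by rw [Nat.card_zpowers, hyord, pow_one])
      · rw [Subgroup.zpowers_le]
        exact hyN
    have := P.is_maximal' hpg le_sup_right
    rw [← this]
    exact Subgroup.mem_sup_left (Subgroup.mem_zpowers y)
  have hzP : Subgroup.zpowers y = (P : Subgroup G) := by
    apply Subgroup.eq_of_le_of_card_ge (Subgroup.zpowers_le.mpr hyP)
    rw [Nat.card_zpowers, hyord, hP]
  have hcomm : ∀ x ∈ (P : Subgroup G), ∀ g, Commute g y → g * x = x * g := by
    intro x hx g hg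
    rw [← hzP] at hx
    obtain ⟨k, rfl⟩ := Subgroup.mem_zpowers_iff.mp hx
    exact (hg.zpow_right k).eq
  have hhC : h ∈ Subgroup.centralizer ((P : Subgroup G) : Set G) := by
    rw [Subgroup.mem_centralizer_iff]
    intro x hx
    exact (hcomm x hx h ((Commute.refl h).pow_right _)).symm
  have hPC : (P : Subgroup G) ≤ Subgroup.centralizer ((P : Subgroup G) : Set G) := by
    intro x hx
    rw [Subgroup.mem_centralizer_iff]
    intro z hz
    have hxy : Commute x y := by
      have hx' := hx
      rw [← hzP] at hx'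
      obtain ⟨k, rfl⟩ := Subgroup.mem_zpowers_iff.mp hx'
      exact (Commute.refl y).zpow_left k
    exact (hcomm z hz x hxy).symm
  have hPeq : (P : Subgroup G) = Subgroup.centralizer ((P : Subgroup G) : Set G) :=
    Subgroup.eq_of_le_of_card_ge hPC (by rw [hC, hP])
  exact hhP (hPeq ▸ hhC)

theorem brn_invol_count {G : Type u} [Group G] [Finite G] {p : ℕ} [Fact p.Prime] (hodd : p ≠ 2)
    (P : Sylow p G) (hP : Nat.card (P : Subgroup G) = p) (τ : G) (hτ : orderOf τ = 2)
    (hτN : τ ∈ Subgroup.normalizer ((P : Subgroup G) : Set G))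
    (hinv : ∀ x : G, x ∈ (P : Subgroup G) → τ * x * τ⁻¹ = x⁻¹)
    (hall : ∀ σ : G, σ ∈ Subgroup.normalizer ((P : Subgroup G) : Set G) → orderOf σ = 2 →
        ∃ x : G, x ∈ (P : Subgroup G) ∧ σ = x * τ) :
    Nat.card {x : ↥(Subgroup.normalizer ((P : Subgroup G) : Set G)) // IsConj (x : G) τ} = p := by
  have hp := (Fact.out : p.Prime)
  have hPN : (P : Subgroup G) ≤ Subgroup.normalizer ((P : Subgroup G) : Set G) :=
    Subgroup.le_normalizer
  have hconj : ∀ x ∈ (P : Subgroup G), IsConj (x * τ) τ := by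
    intro x hx
    obtain ⟨k, hk⟩ : ∃ k, p + 1 = 2 * k := by
      obtain ⟨t, ht⟩ := hp.odd_of_ne_two hodd
      exact ⟨t + 1, by omega⟩
    set y := x ^ k with hy
    have hyP : y ∈ (P : Subgroup G) := Subgroup.pow_mem _ hx _
    have hxp : x ^ p = 1 := by
      have h1 : (⟨x, hx⟩ : (P : Subgroup G)) ^ Nat.card (P : Subgroup G) = 1 := pow_card_eq_one'
      rw [hP] at h1
      have := congrArg Subtype.val h1
      simpa using this
    have hyy : y * y = x := by
      rw [hy, ← pow_add, ← two_mul, ← hk, pow_succ, hxp, one_mul]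
    have h1 : τ * y⁻¹ * τ⁻¹ = y := by
      have := hinv y⁻¹ (Subgroup.inv_mem _ hyP)
      rw [inv_inv] at this
      exact this
    rw [isConj_comm, isConj_iff]
    refine ⟨y, ?_⟩
    calc y * τ * y⁻¹ = y * (τ * y⁻¹ * τ⁻¹) * τ := by group
      _ = y * y * τ := by rw [h1]
      _ = x * τ := by rw [hyy]
  let f : ↥(P : Subgroup G) →
      {x : ↥(Subgroup.normalizer ((P : Subgroup G) : Set G)) // IsConj (x : G) τ} :=
    fun x => ⟨⟨(x : G) * τ, Subgroup.mul_mem _ (hPN x.2) hτN⟩, hconj x x.2⟩
  have hf : Function.Bijective f := by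
    constructor
    · intro a b hab
      have h1 : (a : G) * τ = (b : G) * τ := congrArg (fun z => (z.1.1 : G)) hab
      exact Subtype.ext (mul_right_cancel h1)
    · rintro ⟨⟨σ, hσN⟩, hσ⟩
      have hσ2 : orderOf σ = 2 := by
        obtain ⟨c, hc⟩ := isConj_iff.mp hσ
        have h1 := orderOf_injective (MulAut.conj c).toMonoidHom (MulAut.conj c).injective σ
        have h2 : (MulAut.conj c).toMonoidHom σ = τ := by
          show MulAut.conj c σ = τ
          rw [MulAut.conj_apply]
          exact hc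
        rw [h2, hτ] at h1
        exact h1.symm
      obtain ⟨x, hx, rfl⟩ := hall σ hσN hσ2
      exact ⟨⟨x, hx⟩, rfl⟩
  rw [← Nat.card_congr (Equiv.ofBijective f hf), hP]

end Cfsg.Agent.Helper61
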