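import Mathlib

set_option autoImplicit false

namespace Cfsg.Agent.Helper61

theorem list_prod_apply_eq_sum_paths {ι : Type*} [Fintype ι] [DecidableEq ι] {R : Type*}
    [CommRing R] (n : ℕ) (M : Fin n → Matrix ι ι R) (a b : ι) :
    (List.ofFn M).prod a b = ∑ w : Fin (n + 1) → ι,
      if w 0 = a ∧ w (Fin.last n) = b then ∏ i : Fin n, M i (w i.castSucc) (w i.succ) else 0 := by
  induction n generalizing a with
  | zero =>
    simp only [List.ofFn_zero, List.prod_nil, Finset.univ_eq_empty, Finset.prod_empty]
    rw [Matrix.one_apply]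
    rw [← (Equiv.funUnique (Fin 1) ι).symm.sum_comp]
    simp only [Equiv.funUnique_symm_apply, uniqueElim_const]
    by_cases hab : a = b
    · subst hab
      simp
    · simp only [hab, if_false]
      symm
      apply Finset.sum_eq_zero
      intro c _
      rw [if_neg]
      rintro ⟨rfl, h⟩
      exact hab h
  | succ n ih =>
    rw [List.ofFn_succ, List.prod_cons, Matrix.mul_apply]
    rw [← (Fin.consEquiv (fun _ : Fin (n + 2) => ι)).sum_comp, Fintype.sum_prod_type]
    simp only [Fin.consEquiv_apply]
    have hlast : Fin.last (n + 1) = (Fin.last n).succ := (Fin.succ_last n).symm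
    simp only [hlast, Fin.cons_zero, Fin.cons_succ, Fin.prod_univ_succ, Fin.castSucc_zero,
      ← Fin.succ_castSucc]
    rw [Finset.sum_comm]
    simp only [ih, Finset.mul_sum]
    rw [Finset.sum_comm]
    apply Finset.sum_congr rfl
    intro w _
    by_cases hb : w (Fin.last n) = b
    · simp [hb]
    · simp [hb]

end Cfsg.Agent.Helper61
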