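import Mathlib
import Cfsg.Agent.Helper40.StGLBase

set_option autoImplicit false
set_option linter.unusedVariables false
set_option linter.unusedSectionVars false
set_option linter.style.haveILetI false

open Polynomial Cfsg.Agent.Helper40.StGL
universe u v w

namespace Cfsg.Agent.Helper61.StT1

section Charpoly
variable {F : Type u} {K : Type w} [Field F] [Field K] [Algebra F K] [FiniteDimensional F K]

theorem charpoly_smul_pi (α : K) (m : ℕ) :
    LinearMap.charpoly (Algebra.lsmul F F (Fin m → K) α) =
      LinearMap.charpoly (Algebra.lsmul F F K α) ^ m := by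
  induction m with
  | zero =>
    rw [pow_zero]
    have h : Module.finrank F (Fin 0 → K) = 0 := Module.finrank_zero_of_subsingleton
    have hd := LinearMap.charpoly_natDegree (Algebra.lsmul F F (Fin 0 → K) α)
    rw [h] at hd
    exact Polynomial.eq_one_of_monic_natDegree_zero (LinearMap.charpoly_monic _) hd
  | succ m ih =>
    have hconj : (Fin.consLinearEquiv F (fun _ : Fin (m + 1) => K)).conj
        ((Algebra.lsmul F F K α).prodMap
          (Algebra.lsmul F F (Fin m → K) α))
        = Algebra.lsmul F F (Fin (m + 1) → K) α := by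
      apply LinearMap.ext
      intro x
      funext i
      refine Fin.cases ?_ (fun j => ?_) i
      · simp [LinearEquiv.conj_apply, Algebra.lsmul_coe]
      · simp [LinearEquiv.conj_apply, Algebra.lsmul_coe, Fin.tail]
    rw [← hconj, LinearEquiv.charpoly_conj, LinearMap.charpoly_prodMap, ih, pow_succ']

end Charpoly

section Abstract
variable {F : Type u} {K : Type w} {V : Type v} [Field F] [Field K] [Algebra F K]
  [AddCommGroup V] [Module F V] [Module K V] [IsScalarTower F K V]

theorem pow_apply_eq_smul (α : K) (φ : Module.End F V) (hφ : ∀ v, φ v = α • v) (n : ℕ) (v : V) :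
    (φ ^ n) v = α ^ n • v := by
  induction n generalizing v with
  | zero => simp
  | succ n ih =>
    rw [pow_succ, Module.End.mul_apply, ih, hφ, pow_succ, mul_smul]

theorem aeval_apply_eq_smul (α : K) (φ : Module.End F V) (hφ : ∀ v, φ v = α • v) (p : F[X])
    (v : V) : aeval φ p v = aeval α p • v := by
  induction p using Polynomial.induction_on' with
  | add p q hp hq => rw [map_add, map_add, LinearMap.add_apply, add_smul, hp, hq]
  | monomial n a =>
    rw [aeval_monomial, aeval_monomial, Module.End.mul_apply, Module.algebraMap_end_apply,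
      pow_apply_eq_smul α φ hφ, mul_smul, algebraMap_smul]

/-- the `φ`-invariant `F`-subspaces are the `K`-subspaces -/
noncomputable def invtIso (α : K) (hgen : ∀ k : K, ∃ p : F[X], aeval α p = k)
    (φ : Module.End F V) (hφ : ∀ v, φ v = α • v) :
    ↥(Module.End.invtSubmodule φ) ≃o Submodule K V where
  toFun W :=
    { carrier := W.1
      add_mem' := W.1.add_mem
      zero_mem' := W.1.zero_mem
      smul_mem' := by
        intro k v hv
        obtain ⟨p, rfl⟩ := hgen k
        rw [← aeval_apply_eq_smul α φ hφ]
        have hW : ∀ x ∈ W.1, φ x ∈ W.1 := W.2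
        induction p using Polynomial.induction_on' with
        | add p q hp hq =>
          rw [map_add, LinearMap.add_apply]
          exact W.1.add_mem hp hq
        | monomial n a =>
          rw [aeval_monomial, Module.End.mul_apply, Module.algebraMap_end_apply]
          apply W.1.smul_mem
          have : ∀ (n : ℕ) (x : V), x ∈ W.1 → (φ ^ n) x ∈ W.1 := by
            intro n
            induction n with
            | zero => intro x hx; simpa using hx
            | succ n ih =>
              intro x hx
              rw [pow_succ, Module.End.mul_apply]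
              exact ih _ (hW x hx)
          exact this n v hv }
  invFun N := ⟨N.restrictScalars F, fun v hv => by
    show φ v ∈ N
    rw [hφ]
    exact N.smul_mem α hv⟩
  left_inv W := Subtype.ext (Submodule.ext fun v => Iff.rfl)
  right_inv N := Submodule.ext fun v => Iff.rfl
  map_rel_iff' := Iff.rfl

/-- all subspaces are invariant under the identity -/
def idIso (W : Type*) [AddCommGroup W] [Module K W] :
    Submodule K W ≃o ↥(Module.End.invtSubmodule (LinearMap.id : Module.End K W)) where
  toFun N := ⟨N, fun v hv => hv⟩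
  invFun N := N.1
  left_inv N := rfl
  right_inv N := rfl
  map_rel_iff' := Iff.rfl


theorem abstract_main [Finite V] [Finite K] [FiniteDimensional F K] (α : K)
    (hgen : ∀ k : K, ∃ p : F[X], aeval α p = k)
    (φ : Module.End F V) (hφ : ∀ v, φ v = α • v) :
    ∃ m : ℕ, Module.finrank F V = Module.finrank F K * m ∧
      LinearMap.charpoly φ = LinearMap.charpoly (Algebra.lsmul F F K α) ^ m ∧
      invEC φ = invEC (LinearMap.id : Module.End K (Fin m → K)) := by
  have : Module.Finite K V := Module.Finite.of_finite
  obtain ⟨e⟩ : Nonempty (V ≃ₗ[K] (Fin (Module.finrank K V) → K)) :=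
    ⟨(Module.finBasis K V).equivFun⟩
  refine ⟨Module.finrank K V, (Module.finrank_mul_finrank F K V).symm, ?_, ?_⟩
  · have hconj : (e.restrictScalars F).conj φ =
        Algebra.lsmul F F (Fin (Module.finrank K V) → K) α := by
      apply LinearMap.ext
      intro x
      rw [LinearEquiv.conj_apply]
      show e (φ (e.symm x)) = α • x
      rw [hφ, map_smul, LinearEquiv.apply_symm_apply]
    rw [← LinearEquiv.charpoly_conj (e.restrictScalars F) φ, hconj, charpoly_smul_pi]
  · exact invEC_orderIso φ LinearMap.id
      ((invtIso α hgen φ hφ).trans ((Submodule.orderIsoMapComap e).trans (idIso _)))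

end Abstract


end Cfsg.Agent.Helper61.StT1

namespace Cfsg.Agent.Helper61

open Cfsg.Agent.Helper61.StT1

theorem invEC_irreducible {F : Type u} {V : Type v} [Field F] [Fintype F] [AddCommGroup V]
    [Module F V] [Finite V] (φ : Module.End F V) (f : F[X]) (hf : Irreducible f) (hm : f.Monic)
    (hφ : aeval φ f = 0)
    (hG0 : ∀ (K : Type u) [Field K] [Fintype K] (m : ℕ),
      invEC (LinearMap.id : Module.End K (Fin m → K)) =
        (-1) ^ m * (Fintype.card K : ℤ) ^ (m * (m - 1) / 2)) :
    ∃ m : ℕ, Module.finrank F V = f.natDegree * m ∧ LinearMap.charpoly φ = f ^ m ∧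
      invEC φ = (-1) ^ m * ((Fintype.card F : ℤ) ^ f.natDegree) ^ (m * (m - 1) / 2) := by
  classical
  have : Fact (Irreducible f) := ⟨hf⟩
  have hker : ∀ a ∈ (Ideal.span {f} : Ideal F[X]),
      (aeval φ : F[X] →ₐ[F] Module.End F V).toRingHom a = 0 := by
    intro a ha
    obtain ⟨y, rfl⟩ := Ideal.mem_span_singleton.mp ha
    show aeval φ (f * y) = 0
    rw [map_mul, hφ, zero_mul]
  let kHom : AdjoinRoot f →+* Module.End F V :=
    Ideal.Quotient.lift (Ideal.span {f}) (aeval φ : F[X] →ₐ[F] Module.End F V).toRingHom hker
  have hkHom : ∀ p : F[X], kHom (AdjoinRoot.mk f p) = aeval φ p := fun p => rfl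
  letI : Module (AdjoinRoot f) V := Module.compHom V kHom
  have hsmul : ∀ (k : AdjoinRoot f) (v : V), k • v = kHom k v := fun k v => rfl
  have : IsScalarTower F (AdjoinRoot f) V := ⟨fun a k v => by
    rw [hsmul, hsmul, Algebra.smul_def, map_mul]
    have h0 : kHom (algebraMap F (AdjoinRoot f) a) = algebraMap F (Module.End F V) a := by
      rw [AdjoinRoot.algebraMap_eq, ← AdjoinRoot.mk_C, hkHom, aeval_C]
    rw [h0, Module.End.mul_apply, Module.algebraMap_end_apply]⟩
  have hφ' : ∀ v, φ v = AdjoinRoot.root f • v := by
    intro v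
    rw [hsmul, AdjoinRoot.root, hkHom, aeval_X]
  have hgen : ∀ k : AdjoinRoot f, ∃ p : F[X], aeval (AdjoinRoot.root f) p = k := by
    intro k
    obtain ⟨p, rfl⟩ := AdjoinRoot.mk_surjective k
    exact ⟨p, AdjoinRoot.aeval_eq p⟩
  have : FiniteDimensional F (AdjoinRoot f) := (AdjoinRoot.powerBasis hf.ne_zero).finite
  have : Finite (AdjoinRoot f) := Module.finite_of_finite F
  obtain ⟨m, h1, h2, h3⟩ := abstract_main (AdjoinRoot.root f) hgen φ hφ'
  have hrank : Module.finrank F (AdjoinRoot f) = f.natDegree := by
    rw [(AdjoinRoot.powerBasis hf.ne_zero).finrank, AdjoinRoot.powerBasis_dim]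
  have hchar : LinearMap.charpoly (Algebra.lsmul F F (AdjoinRoot f) (AdjoinRoot.root f)) = f := by
    have h4 := charpoly_leftMulMatrix (AdjoinRoot.powerBasis hf.ne_zero)
    rw [AdjoinRoot.minpoly_powerBasis_gen_of_monic hm, Algebra.leftMulMatrix_apply,
      LinearMap.charpoly_toMatrix] at h4
    refine Eq.trans ?_ h4
    congr 1
  letI : Fintype (AdjoinRoot f) := Fintype.ofFinite _
  have hcard : (Fintype.card (AdjoinRoot f) : ℤ) = (Fintype.card F : ℤ) ^ f.natDegree := by
    rw [Module.card_eq_pow_finrank (K := F) (V := AdjoinRoot f), hrank]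
    push_cast
    rfl
  refine ⟨m, by rw [h1, hrank], by rw [h2, hchar], ?_⟩
  rw [h3, hG0 (AdjoinRoot f) m, hcard]

end Cfsg.Agent.Helper61
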