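import Mathlib

set_option autoImplicit false

namespace Cfsg.Agent.Helper61.TFINVCH

open Matrix Polynomial
open scoped Kronecker

/-! ## Piece INVCH -/
theorem charpoly_inv {F : Type*} [Field F] {d : ℕ} (M M' : Matrix (Fin d) (Fin d) F)
    (h : M * M' = 1) : ∃ c : F, c ≠ 0 ∧ M'.charpoly = C c * M.charpoly.reverse := by
  have hdet : M.det * M'.det = 1 := by rw [← Matrix.det_mul, h, Matrix.det_one]
  have hd0 : M.det ≠ 0 := by
    intro h0
    rw [h0, zero_mul] at hdet
    exact zero_ne_one hdet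
  have hu : IsUnit M := (Matrix.isUnit_iff_isUnit_det M).mpr (isUnit_iff_ne_zero.mpr hd0)
  have hinv : M⁻¹ = M' := Matrix.inv_eq_right_inv h
  refine ⟨(-1) ^ d * (M.det)⁻¹, mul_ne_zero (pow_ne_zero _ (neg_ne_zero.mpr one_ne_zero))
    (inv_ne_zero hd0), ?_⟩
  rw [← hinv, Matrix.charpoly_inv M hu, Matrix.reverse_charpoly, Fintype.card_fin,
    Ring.inverse_eq_inv', C_mul, C_pow, C_neg, C_1]

end Cfsg.Agent.Helper61.TFINVCH
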