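import Mathlib

set_option autoImplicit false

namespace Cfsg.Agent.Helper61.TFODDREC

open Matrix Polynomial
open scoped Kronecker

/-! ## Piece ODDREC -/
theorem reverse_ne_of_odd {F : Type*} [Field F] (h2 : (2 : F) ≠ 0) (r : ℕ) (hr : Odd r)
    (Φ : F[X]) (hm : Φ.Monic) (hirr : Irreducible Φ) (hdvd : Φ ∣ X ^ r - 1)
    (h1 : Φ.eval 1 ≠ 0) (hodd : Odd Φ.natDegree) (c : F) : C c * Φ.reverse ≠ Φ := by
  intro h
  have e1 : Φ.reverse.eval 1 = Φ.eval 1 := by
    let _i : Invertible (1 : F) := invertibleOne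
    have := Polynomial.eval₂_reverse_mul_pow (RingHom.id F) (1 : F) Φ
    rw [invOf_one, one_pow, mul_one] at this
    exact this
  have em : Φ.reverse.eval (-1) * (-1) ^ Φ.natDegree = Φ.eval (-1) := by
    let _i : Invertible (-1 : F) := ⟨-1, by ring, by ring⟩
    exact Polynomial.eval₂_reverse_mul_pow (RingHom.id F) (-1 : F) Φ
  have hc : c = 1 := by
    have := congrArg (Polynomial.eval 1) h
    rw [eval_mul, eval_C, e1] at this
    exact mul_right_cancel₀ h1 (this.trans (one_mul _).symm)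
  rw [hc, C_1, one_mul] at h
  rw [h, hodd.neg_one_pow] at em
  have h0 : Φ.eval (-1) = 0 := by
    have h3 : (2 : F) * Φ.eval (-1) = 0 := by linear_combination -em
    rcases mul_eq_zero.mp h3 with h4 | h4
    · exact absurd h4 h2
    · exact h4
  have h5 := Polynomial.eval_eq_zero_of_dvd_of_eval_eq_zero hdvd h0
  rw [eval_sub, eval_pow, eval_X, eval_one, hr.neg_one_pow] at h5
  apply h2
  linear_combination -h5

end Cfsg.Agent.Helper61.TFODDREC
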