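import Mathlib
import Cfsg.Prelude.Def_LieExceptional

/-!
helper61: piece SUBBN of CALL S2314 (helper40) - the BN-pair induced on a standard parabolic
subgroup `P_J = B ⊔ ⟨J⟩` (`J ⊆ S`): `B' = B`, `N' = ⟨J⟩ (B ⊓ N)`, `S' = J`.
-/

set_option autoImplicit false

namespace Cfsg.Agent.Helper61.UCSUBBN

/-- SUBBN: the BN-pair induced on a standard parabolic subgroup. -/
theorem subBN_exists {G : Type*} [Group G] (P : Cfsg.BNPair G) (J : Set G) (hJ : J ⊆ P.S) :
    ∃ Q : Cfsg.BNPair ↥(P.parabolic J),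
      Q.B = P.B.subgroupOf (P.parabolic J) ∧
      Q.N = (Subgroup.closure J ⊔ (P.B ⊓ P.N)).subgroupOf (P.parabolic J) ∧
      Q.S = {x : ↥(P.parabolic J) | (x : G) ∈ J} := by
  have hBP : P.B ≤ P.parabolic J := le_sup_left
  have hcJP : Subgroup.closure J ≤ P.parabolic J := le_sup_right
  have hJP : J ⊆ (P.parabolic J : Set G) := fun x hx => hcJP (Subgroup.subset_closure hx)
  have hJN : Subgroup.closure J ≤ P.N := (Subgroup.closure_le _).mpr (hJ.trans P.subset)
  have hNJN : Subgroup.closure J ⊔ (P.B ⊓ P.N) ≤ P.N := sup_le hJN inf_le_right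
  have hTP : P.B ⊓ P.N ≤ P.parabolic J := inf_le_left.trans hBP
  have hNJP : Subgroup.closure J ⊔ (P.B ⊓ P.N) ≤ P.parabolic J := sup_le hcJP hTP
  refine ⟨{ B := P.B.subgroupOf (P.parabolic J)
            N := (Subgroup.closure J ⊔ (P.B ⊓ P.N)).subgroupOf (P.parabolic J)
            S := {x : ↥(P.parabolic J) | (x : G) ∈ J}
            sup_eq_top := ?_
            conj_mem := ?_
            subset := ?_
            sq_mem := ?_
            inj := ?_
            closure_sup := ?_
            mul_mem_union := ?_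
            conj_ne := ?_ }, rfl, rfl, rfl⟩
  · rw [← Subgroup.subgroupOf_sup hBP hNJP]
    have h1 : P.B ⊔ (Subgroup.closure J ⊔ (P.B ⊓ P.N)) = P.parabolic J := by
      apply le_antisymm (sup_le hBP hNJP)
      exact sup_le le_sup_left (le_sup_of_le_right le_sup_left)
    rw [h1, Subgroup.subgroupOf_self]
  · intro n hn t ht
    rw [Subgroup.mem_subgroupOf] at hn ⊢
    obtain ⟨ht1, ht2⟩ := Subgroup.mem_inf.mp ht
    rw [Subgroup.mem_subgroupOf] at ht1 ht2
    exact P.conj_mem n (hNJN hn) t (Subgroup.mem_inf.mpr ⟨ht1, hNJN ht2⟩)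
  · intro x hx
    exact Subgroup.mem_subgroupOf.mpr (Subgroup.mem_sup_left (Subgroup.subset_closure hx))
  · intro s hs
    exact Subgroup.mem_subgroupOf.mpr (P.sq_mem s (hJ hs))
  · intro s hs s' hs' h
    exact Subtype.ext (P.inj s (hJ hs) s' (hJ hs') (Subgroup.mem_subgroupOf.mp h))
  · apply le_antisymm
    · apply sup_le
      · rw [Subgroup.closure_le]
        intro x hx
        exact Subgroup.mem_subgroupOf.mpr (Subgroup.mem_sup_left (Subgroup.subset_closure hx))
      · exact inf_le_right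
    · have h1 : (Subgroup.closure J ⊔ (P.B ⊓ P.N)).subgroupOf (P.parabolic J)
          = (Subgroup.closure J).subgroupOf (P.parabolic J)
            ⊔ (P.B ⊓ P.N).subgroupOf (P.parabolic J) := Subgroup.subgroupOf_sup hcJP hTP
      have hmap : (Subgroup.closure {x : ↥(P.parabolic J) | (x : G) ∈ J}).map
          (P.parabolic J).subtype = Subgroup.closure J := by
        rw [MonoidHom.map_closure]
        congr 1
        ext x
        constructor
        · rintro ⟨y, hy, rfl⟩
          exact hy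
        · intro hx
          exact ⟨⟨x, hJP hx⟩, hx, rfl⟩
      have h2 : (Subgroup.closure J).subgroupOf (P.parabolic J)
          ≤ Subgroup.closure {x : ↥(P.parabolic J) | (x : G) ∈ J} := by
        intro x hx
        rw [Subgroup.mem_subgroupOf, ← hmap] at hx
        obtain ⟨y, hy, hyx⟩ := hx
        have h3 : y = x := Subtype.ext hyx
        rw [← h3]
        exact hy
      have h3 : (P.B ⊓ P.N).subgroupOf (P.parabolic J)
          ≤ P.B.subgroupOf (P.parabolic J)
            ⊓ (Subgroup.closure J ⊔ (P.B ⊓ P.N)).subgroupOf (P.parabolic J) := by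
        intro x hx
        rw [Subgroup.mem_subgroupOf] at hx
        exact Subgroup.mem_inf.mpr ⟨Subgroup.mem_subgroupOf.mpr (Subgroup.mem_inf.mp hx).1,
          Subgroup.mem_subgroupOf.mpr (Subgroup.mem_sup_right hx)⟩
      calc (Subgroup.closure J ⊔ (P.B ⊓ P.N)).subgroupOf (P.parabolic J)
          = (Subgroup.closure J).subgroupOf (P.parabolic J)
            ⊔ (P.B ⊓ P.N).subgroupOf (P.parabolic J) := h1
        _ ≤ _ := sup_le_sup h2 h3
  · intro s hs n hn b hb
    have h := P.mul_mem_union s (hJ hs) n (hNJN (Subgroup.mem_subgroupOf.mp hn)) b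
      (Subgroup.mem_subgroupOf.mp hb)
    rcases h with h | h
    · left
      rw [DoubleCoset.mem_doubleCoset] at h ⊢
      obtain ⟨x, hx, y, hy, hxy⟩ := h
      exact ⟨⟨x, hBP hx⟩, Subgroup.mem_subgroupOf.mpr hx, ⟨y, hBP hy⟩,
        Subgroup.mem_subgroupOf.mpr hy, Subtype.ext hxy⟩
    · right
      rw [DoubleCoset.mem_doubleCoset] at h ⊢
      obtain ⟨x, hx, y, hy, hxy⟩ := h
      exact ⟨⟨x, hBP hx⟩, Subgroup.mem_subgroupOf.mpr hx, ⟨y, hBP hy⟩,
        Subgroup.mem_subgroupOf.mpr hy, Subtype.ext hxy⟩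
  · intro s hs heq
    apply P.conj_ne s (hJ hs)
    ext x
    constructor
    · rintro ⟨b, hb, rfl⟩
      have h1 : s * ⟨b, hBP hb⟩ * s ∈
          ((P.B.subgroupOf (P.parabolic J) : Subgroup ↥(P.parabolic J)) : Set ↥(P.parabolic J)) := by
        rw [← heq]
        exact ⟨⟨b, hBP hb⟩, Subgroup.mem_subgroupOf.mpr hb, rfl⟩
      exact Subgroup.mem_subgroupOf.mp h1
    · intro hx
      have h1 : (⟨x, hBP hx⟩ : ↥(P.parabolic J)) ∈
          ((P.B.subgroupOf (P.parabolic J) : Subgroup ↥(P.parabolic J)) : Set ↥(P.parabolic J)) :=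
        Subgroup.mem_subgroupOf.mpr hx
      rw [← heq] at h1
      obtain ⟨b, hb, hbx⟩ := h1
      exact ⟨b, Subgroup.mem_subgroupOf.mp hb, congrArg Subtype.val hbx⟩

end Cfsg.Agent.Helper61.UCSUBBN
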