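import Mathlib

/-!
# CALL S1352 (helper22), piece E1

Burnside transfer: a nontrivial Sylow `q`-subgroup `Q` of `E` inside `E'` is not central in `E`.
-/

set_option autoImplicit false
set_option linter.unusedSectionVars false
set_option linter.unusedVariables false

namespace Cfsg.Agent.Helper61

open Subgroup

universe u

variable {G : Type u} [Group G] [Finite G]

theorem bg14_not_central {E Q : Subgroup G} {q : ℕ} [Fact q.Prime] (hQE : Q ≤ E)
    (hQq : IsPGroup q Q) (hQi : ¬ q ∣ Q.relIndex E) (hQ1 : Q ≠ ⊥) (hQcomm : Q ≤ ⁅E, E⁆) :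
    ¬ E ≤ centralizer (Q : Set G) := by
  intro hEC
  apply hQ1
  have hQq' : IsPGroup q (Q.subgroupOf E) := hQq.comap_subtype
  obtain ⟨P, hPcoe⟩ : ∃ P : Sylow q ↥E, (P : Subgroup ↥E) = Q.subgroupOf E :=
    ⟨hQq'.toSylow hQi, rfl⟩
  have hcomm : ∀ a : ↥E, ∀ x ∈ (P : Subgroup ↥E), x * a = a * x := by
    intro a x hx
    rw [hPcoe] at hx
    have hxQ : (x : G) ∈ Q := Subgroup.mem_subgroupOf.mp hx
    exact Subtype.ext (Subgroup.mem_centralizer_iff.mp (hEC a.2) (x : G) hxQ)
  have hP : normalizer ((P : Subgroup ↥E) : Set ↥E) ≤ centralizer ((P : Subgroup ↥E) : Set ↥E) := by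
    intro a _
    rw [Subgroup.mem_centralizer_iff]
    intro x hx
    exact hcomm a x hx
  have hdisj := (MonoidHom.ker_transferSylow_isComplement' P hP).disjoint
  have hker : commutator ↥E ≤ (MonoidHom.transferSylow P hP).ker := by
    rw [commutator_eq_closure, Subgroup.closure_le]
    rintro g ⟨a, b, rfl⟩
    rw [SetLike.mem_coe, MonoidHom.mem_ker, commutatorElement_def]
    simp only [map_mul, map_inv]
    have hab : (MonoidHom.transferSylow P hP a) * (MonoidHom.transferSylow P hP b)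
        = (MonoidHom.transferSylow P hP b) * (MonoidHom.transferSylow P hP a) :=
      Subtype.ext (hcomm _ _ (MonoidHom.transferSylow P hP a).2)
    rw [hab]
    group
  rw [eq_bot_iff]
  intro x hx
  rw [Subgroup.mem_bot]
  have hxc : x ∈ ⁅E, E⁆ := hQcomm hx
  rw [← Subgroup.map_subtype_commutator] at hxc
  obtain ⟨y, hy, rfl⟩ := hxc
  have hyP : y ∈ (P : Subgroup ↥E) := by
    rw [hPcoe]
    exact Subgroup.mem_subgroupOf.mpr hx
  have h1 := Subgroup.disjoint_def.mp hdisj (hker hy) hyP
  rw [h1]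
  rfl

end Cfsg.Agent.Helper61
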