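import Mathlib

/-!
# CALL S1352 (helper22), piece NC

A Hall subgroup `K` of `M` of order coprime to `|M'|` has a normal complement `W` in `M`
containing every element of `M` of order coprime to `|K|`.
-/

set_option autoImplicit false
set_option linter.unusedSectionVars false

namespace Cfsg.Agent.Helper61

open Subgroup

universe u

variable {G : Type u} [Group G] [Finite G]

theorem bg14_nc {M K : Subgroup G} (hKM : K ≤ M)
    (h1 : (Nat.card K).Coprime (K.relIndex M)) (h2 : (Nat.card K).Coprime (Nat.card ↥⁅M, M⁆)) :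
    ∃ W : Subgroup G, W ≤ M ∧ M ≤ normalizer (W : Set G) ∧ K ⊓ W = ⊥ ∧
      (∀ m ∈ M, ∃ w ∈ W, ∃ k ∈ K, m = w * k) ∧
      ∀ x ∈ M, (orderOf x).Coprime (Nat.card K) → x ∈ W := by
  classical
  obtain ⟨K', hK'⟩ : ∃ K' : Subgroup ↥M, K' = K.subgroupOf M := ⟨_, rfl⟩
  have hK'card : Nat.card K' = Nat.card K := by
    rw [hK']
    exact Nat.card_congr (Subgroup.subgroupOfEquivOfLe hKM).toEquiv
  have hsurj : Function.Surjective (Abelianization.of : ↥M →* Abelianization ↥M) :=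
    QuotientGroup.mk_surjective
  obtain ⟨B, hB⟩ : ∃ B : Subgroup (Abelianization ↥M), B = K'.map Abelianization.of := ⟨_, rfl⟩
  obtain ⟨c, hc⟩ : ∃ c : ℕ, c = B.index := ⟨_, rfl⟩
  have hcdvd : c ∣ K.relIndex M := by
    rw [hc, hB]
    have h3 := Subgroup.index_map_dvd (H := K') hsurj
    rw [hK'] at h3 ⊢
    exact h3
  have hcop : (Nat.card K).Coprime c := Nat.Coprime.coprime_dvd_right hcdvd h1
  have hBcard : Nat.card B ∣ Nat.card K := by
    rw [← hK'card, hB]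
    exact Subgroup.card_map_dvd _ _
  have hpow : ∀ y : ↥M, (Abelianization.of y) ^ c ∈ B := by
    intro y
    rw [hc]
    exact Subgroup.pow_index_mem B _
  obtain ⟨φ, hφ⟩ : ∃ φ : ↥M →* Abelianization ↥M, ∀ y, φ y = (Abelianization.of y) ^ c :=
    ⟨(powMonoidHom c).comp Abelianization.of, fun y => rfl⟩
  refine ⟨φ.ker.map M.subtype, Subgroup.map_subtype_le _, ?_, ?_, ?_, ?_⟩
  · -- `M` normalizes `W`
    intro m hm
    rw [Subgroup.mem_normalizer_iff]
    intro x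
    constructor
    · rintro ⟨y, hy, rfl⟩
      exact ⟨⟨m, hm⟩ * y * ⟨m, hm⟩⁻¹, (MonoidHom.normal_ker φ).conj_mem y hy _, rfl⟩
    · rintro ⟨y, hy, hyx⟩
      refine ⟨⟨m, hm⟩⁻¹ * y * ⟨m, hm⟩, ?_, ?_⟩
      · have h3 := (MonoidHom.normal_ker φ).conj_mem y hy (⟨m, hm⟩⁻¹)
        rw [inv_inv] at h3
        exact h3
      · have h3 : (y : G) = m * x * m⁻¹ := hyx
        change m⁻¹ * (y : G) * m = x
        rw [h3]
        group
  · -- `K ⊓ W = ⊥`
    rw [eq_bot_iff]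
    rintro x ⟨hxK, y, hy, rfl⟩
    rw [Subgroup.mem_bot]
    have hxK' : (y : G) ∈ K := hxK
    have hy1 : φ y = 1 := MonoidHom.mem_ker.mp hy
    rw [hφ, ← map_pow] at hy1
    have hyc : y ^ c ∈ commutator ↥M := by
      rw [← Abelianization.ker_of]
      exact MonoidHom.mem_ker.mpr hy1
    have hxc : (y : G) ^ c ∈ ⁅M, M⁆ := by
      rw [← Subgroup.map_subtype_commutator]
      exact ⟨y ^ c, hyc, rfl⟩
    have hxcK : (y : G) ^ c ∈ K := pow_mem hxK' c
    have ho1 : orderOf ((y : G) ^ c) ∣ Nat.card K := Subgroup.orderOf_dvd_natCard K hxcK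
    have ho2 : orderOf ((y : G) ^ c) ∣ Nat.card ↥⁅M, M⁆ := Subgroup.orderOf_dvd_natCard _ hxc
    have hxc1 : (y : G) ^ c = 1 := orderOf_eq_one_iff.mp (Nat.eq_one_of_dvd_coprimes h2 ho1 ho2)
    have ho3 : orderOf (y : G) ∣ c := orderOf_dvd_of_pow_eq_one hxc1
    have ho4 : orderOf (y : G) ∣ Nat.card K := Subgroup.orderOf_dvd_natCard K hxK'
    exact orderOf_eq_one_iff.mp (Nat.eq_one_of_dvd_coprimes hcop ho4 ho3)
  · -- `M = W K`
    intro m hm
    have hmem := hpow ⟨m, hm⟩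
    rw [hB] at hmem
    obtain ⟨k₀, hk₀, hk₀e⟩ := hmem
    have hcop' : (Nat.card K').Coprime c := by rw [hK'card]; exact hcop
    obtain ⟨⟨k, hkK'⟩, hk⟩ := (powCoprime hcop').surjective ⟨k₀, hk₀⟩
    rw [powCoprime_apply] at hk
    have hk' : k ^ c = k₀ := congrArg Subtype.val hk
    have hkK : (k : G) ∈ K := by
      rw [hK'] at hkK'
      exact Subgroup.mem_subgroupOf.mp hkK'
    have hw : (⟨m, hm⟩ * k⁻¹ : ↥M) ∈ φ.ker := by
      rw [MonoidHom.mem_ker, hφ, map_mul, mul_pow, map_inv, inv_pow,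
        ← map_pow Abelianization.of k c, hk', hk₀e]
      exact mul_inv_cancel _
    exact ⟨m * (k : G)⁻¹, Subgroup.mem_map.mpr ⟨_, hw, rfl⟩, (k : G), hkK, by group⟩
  · -- elements of order coprime to `|K|`
    intro x hx hxcop
    refine Subgroup.mem_map.mpr ⟨⟨x, hx⟩, ?_, rfl⟩
    rw [MonoidHom.mem_ker]
    have hmem := hpow ⟨x, hx⟩
    rw [← hφ] at hmem
    have ho1 : orderOf (φ ⟨x, hx⟩) ∣ Nat.card K :=
      (Subgroup.orderOf_dvd_natCard B hmem).trans hBcard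
    have ho2 : orderOf (φ ⟨x, hx⟩) ∣ orderOf x := by
      have h3 := orderOf_map_dvd φ (⟨x, hx⟩ : ↥M)
      rwa [Subgroup.orderOf_mk] at h3
    exact orderOf_eq_one_iff.mp (Nat.eq_one_of_dvd_coprimes hxcop ho2 ho1)

end Cfsg.Agent.Helper61
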