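import Mathlib
import Cfsg.Agent.Helper23.Trans
import Cfsg.Agent.Helper23.FittingHall
import Cfsg.Agent.Helper22.Transitivity

/-!
# CALL BG36 (helper2), piece KC: `bg36_q_dvd_K` (helper61, double)
-/

set_option autoImplicit false

namespace Cfsg.Agent.Helper61

open Cfsg Subgroup

universe u

variable {G : Type u} [Group G] [Finite G]

/-- PIECE KC: with `U = 1`, `|M| = |K| |M_σ|`, and a prime outside `σ(M)` does not divide `|M_σ|`. -/
theorem bg36_q_dvd_K (hG : IsMinSimpleOddOrder G) {M K U : Subgroup G} (hM : IsCoatom M)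
    (hKU : IsSigmaDecomposition M K U) (hU : U = ⊥) {q : ℕ} (hq : q.Prime)
    (hqM : q ∣ Nat.card M) (hqσ : q ∉ sigma M) : q ∣ Nat.card K := by
  subst hU
  have hc := Cfsg.Agent.Helper23.card_of_isComplIn _ _ _ hKU.compl
  rw [Subgroup.card_bot, one_mul] at hc
  have hKM : K ≤ M := hKU.hall.1
  have hKn : K ≤ normalizer (sigmaCore M : Set G) :=
    hKM.trans (Cfsg.Agent.Helper23.le_normalizer_piCoreOf (sigma M) M)
  have hd : Nat.card ↥(K ⊔ sigmaCore M) ∣ Nat.card K * Nat.card ↥(sigmaCore M) :=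
    Cfsg.Agent.Helper22.card_sup_dvd_of_le_normalizer hKn
  rw [hc] at hqM
  rcases (Nat.Prime.dvd_mul hq).1 (hqM.trans hd) with h | h
  · exact h
  · exact absurd (Cfsg.Agent.Helper23.mem_of_dvd_card_piCoreOf (sigma M) M hq h) hqσ

end Cfsg.Agent.Helper61
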