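import Mathlib
import Cfsg.Prelude.Def_OddOrderLocal

/-!
CALL S1390 (helper24), piece TFE (helper61): in a group of Frobenius type, for a prime `r` dividing
`|H|` but not `|H_F|` there is an element of order `r` acting without fixed points on `H_F`.
-/

set_option autoImplicit false

namespace Cfsg.Agent.Helper61

open Cfsg Subgroup

universe u

/-- TFE (pure, Mathlib + `Cfsg.Prelude.Def_OddOrderLocal`). In a group of Frobenius type, for a
prime `r` dividing `|H|` but not `|H_F|` there is an element of order `r` acting without fixed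
points on `H_F`. -/
theorem bg90_typeF_elt {H : Type u} [Group H] [Finite H] (hF : IsOfTypeF H) {r : ℕ}
    (hr : r.Prime) (hrd : r ∣ Nat.card H) (hrF : ¬ r ∣ Nat.card (fittingHall H)) :
    ∃ u : H, orderOf u = r ∧ ∀ x ∈ fittingHall H, u * x = x * u → x = 1 := by
  obtain ⟨-, -, -, -, U, -, hcompl, -, U₀, hU₀U, hexp, hreg⟩ := hF
  have : Fact r.Prime := ⟨hr⟩
  -- `r ∣ |U|`
  have hcard : Nat.card (fittingHall H) * Nat.card U = Nat.card H := hcompl.card_mul_card
  have hrU : r ∣ Nat.card U := by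
    rw [← hcard] at hrd
    exact (hr.dvd_mul.mp hrd).resolve_left hrF
  -- `r ∣ exponent U = exponent U₀`
  obtain ⟨g, hg⟩ := exists_prime_orderOf_dvd_card' r hrU
  have hrexp : r ∣ Monoid.exponent U := by
    rw [← hg]
    exact Monoid.order_dvd_exponent g
  rw [← hexp] at hrexp
  -- an element of `U₀` of order `r`
  have hexp0 : Monoid.exponent U₀ ≠ 0 := Monoid.exponent_ne_zero_of_finite
  obtain ⟨w, hw⟩ := hr.exists_orderOf_eq_pow_factorization_exponent (G := U₀)
  have hk : 0 < (Monoid.exponent U₀).factorization r :=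
    hr.factorization_pos_of_dvd hexp0 hrexp
  obtain ⟨k, hk'⟩ : ∃ k, (Monoid.exponent U₀).factorization r = k + 1 :=
    ⟨(Monoid.exponent U₀).factorization r - 1, by omega⟩
  rw [hk'] at hw
  have hu : orderOf (w ^ r ^ k) = r := by
    have h1 : orderOf (w ^ r ^ k) = orderOf w / Nat.gcd (orderOf w) (r ^ k) :=
      orderOf_pow w
    rw [h1, hw]
    have h2 : Nat.gcd (r ^ (k + 1)) (r ^ k) = r ^ k :=
      Nat.gcd_eq_right (pow_dvd_pow r (Nat.le_succ k))
    rw [h2, pow_succ]
    exact Nat.mul_div_cancel_left r (pow_pos hr.pos k)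
  refine ⟨((w ^ r ^ k : U₀) : H), ?_, ?_⟩
  · rw [Subgroup.orderOf_coe]
    exact hu
  · have hne : ((w ^ r ^ k : U₀) : H) ≠ 1 := by
      intro h
      have h3 : (w ^ r ^ k : U₀) = 1 := Subtype.ext h
      rw [h3, orderOf_one] at hu
      exact hr.one_lt.ne hu
    exact hreg _ (w ^ r ^ k : U₀).2 hne
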