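import Mathlib
import Cfsg.Prelude.Def_OddOrderLocal

/-!
# CALL BGP (helper23), PIECE SY: the Sylow subgroups of a Hall `κ(M)`-subgroup are cyclic.
-/

set_option autoImplicit false

namespace Cfsg.Agent.Helper61

open Cfsg Subgroup

universe u

variable {G : Type u} [Group G] [Finite G]

/-- SY. The Sylow subgroups of a Hall `κ(M)`-subgroup are cyclic (definition of `κ`: every Sylow
`p`-subgroup of `M` is cyclic for `p ∈ κ(M)`; for `p ∤ |Ks|` the Sylow subgroup is trivial). -/
theorem bgp_sylow_cyclic {M Ks : Subgroup G} (hKsH : IsPiHallOf (kappa M) Ks M) :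
    ∀ (p : ℕ) [Fact p.Prime] (P : Sylow p Ks), IsCyclic P := by
  intro p hp P
  obtain ⟨hKsM, hπ, -⟩ := hKsH
  by_cases hdiv : p ∣ Nat.card Ks
  · have hpκ : p ∈ kappa M := hπ p hp.out hdiv
    obtain ⟨-, -, -, hcyc⟩ := hpκ
    have hinj : Function.Injective (Subgroup.inclusion hKsM) := Subgroup.inclusion_injective hKsM
    have hPG : IsPGroup p ↥((P : Subgroup Ks).map (Subgroup.inclusion hKsM)) := P.isPGroup'.map _
    obtain ⟨Q, hQ⟩ := hPG.exists_le_sylow
    haveI : IsCyclic ↥(Q : Subgroup M) := (hcyc Q).1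
    have h1 : IsCyclic ↥((P : Subgroup Ks).map (Subgroup.inclusion hKsM)) :=
      isCyclic_of_injective (Subgroup.inclusion hQ) (Subgroup.inclusion_injective hQ)
    exact ((P : Subgroup Ks).equivMapOfInjective _ hinj).isCyclic.mpr h1
  · have hcard : Nat.card (P : Subgroup Ks) = 1 := by
      rw [Sylow.card_eq_multiplicity, Nat.factorization_eq_zero_of_not_dvd hdiv, pow_zero]
    haveI : Subsingleton ↥(P : Subgroup Ks) := (Nat.card_eq_one_iff_unique.mp hcard).1
    exact isCyclic_of_subsingleton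

end Cfsg.Agent.Helper61
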