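import Mathlib
import Cfsg.Agent.Helper61.BRXNF1

/-!
# CALL S0996 (helper79), numerics pieces NX2, NNO, NY (consumers of NF1)
-/

set_option autoImplicit false

universe u

namespace Cfsg.Agent.Helper61

namespace BRXNumAux

/-- common core: a divisor `m ≡ 1 (mod p)` of `(1 + n p)(p - 1)`, with `p = P1 + 1` -/
theorem nonF' (P1 n m : ℕ) (hp : 1 ≤ P1)
    (hnF : ∀ h u : ℕ, 0 < h → 0 < u → n * (u + 1) ≠ h * u * (P1 + 1) + u ^ 2 + u + h)
    (e : ℤ) (he : 1 - (m : ℤ) = ((P1 : ℤ) + 1) * e) (d : ℕ) (hd : (1 + n * (P1 + 1)) * P1 = m * d) :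
    m = 1 ∨ m = 1 + n * (P1 + 1) := by
  apply brn_nonF (P1 + 1) n m (by omega) hnF
  · rw [Int.modEq_iff_dvd]
    exact ⟨e, by push_cast; exact he⟩
  · rw [Nat.add_sub_cancel]
    exact ⟨d, hd⟩

end BRXNumAux

theorem brn_num_X2 (p q n t d : ℕ) (hp : 2 ≤ p) (hq2 : 2 ≤ q) (hqt : q * t = p - 1)
    (hn : 1 ≤ n)
    (hnF : ∀ h u : ℕ, 0 < h → 0 < u → n * (u + 1) ≠ h * u * p + u ^ 2 + u + h)
    (hd1 : (d : ℤ) ≡ -1 [ZMOD p]) (hdvd : d ∣ q * (1 + n * p)) :
    d = p - 1 ∨ (t = 1 ∧ d = (p - 1) * (1 + n * p)) := by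
  obtain ⟨P1, rfl⟩ : ∃ P1, p = P1 + 1 := ⟨p - 1, by omega⟩
  simp only [Nat.add_sub_cancel] at hqt ⊢
  obtain ⟨c, hc⟩ := hdvd
  have hN : 0 < 1 + n * (P1 + 1) := by positivity
  have hmd : (1 + n * (P1 + 1)) * P1 = c * t * d := by
    calc (1 + n * (P1 + 1)) * P1 = (1 + n * (P1 + 1)) * (q * t) := by rw [hqt]
      _ = (q * (1 + n * (P1 + 1))) * t := by ring
      _ = d * c * t := by rw [hc]
      _ = c * t * d := by ring
  obtain ⟨e, he⟩ := Int.modEq_iff_dvd.mp hd1
  have hmdz : ((1 : ℤ) + n * ((P1 : ℤ) + 1)) * P1 = (c : ℤ) * t * d := by exact_mod_cast hmd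
  have he' : (-1 : ℤ) - d = ((P1 : ℤ) + 1) * e := by exact_mod_cast he
  have key := BRXNumAux.nonF' P1 n (c * t) (by omega) hnF
    (1 + n * (P1 : ℤ) + (c : ℤ) * t * e) (by push_cast; linear_combination -hmdz + (c : ℤ) * t * he')
    d hmd
  rcases key with h1 | h2
  · right
    have hc1 : c = 1 := Nat.eq_one_of_mul_eq_one_right h1
    have ht1 : t = 1 := Nat.eq_one_of_mul_eq_one_left h1
    refine ⟨ht1, ?_⟩
    rw [hc1, mul_one] at hc
    rw [ht1, mul_one] at hqt
    rw [← hc, hqt]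
  · left
    rw [h2] at hmd
    exact (Nat.eq_of_mul_eq_mul_left hN hmd).symm

theorem brn_num_noX2 (p q n t f : ℕ) (ε k : ℤ) (hp : 3 ≤ p) (hq2 : 2 ≤ q)
    (hqt : q * t = p - 1) (hn : 1 ≤ n)
    (hnF : ∀ h u : ℕ, 0 < h → 0 < u → n * (u + 1) ≠ h * u * p + u ^ 2 + u + h)
    (hε : ε = 1 ∨ ε = -1) (hf : 1 ≤ f) (hfmod : (f : ℤ) ≡ ε * (q : ℤ) [ZMOD p])
    (hdvd : f ∣ q * (1 + n * p)) (hrel : ε * (f : ℤ) = 1 + k * (1 + n * p)) : False := by
  obtain ⟨P1, rfl⟩ : ∃ P1, p = P1 + 1 := ⟨p - 1, by omega⟩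
  simp only [Nat.add_sub_cancel] at hqt
  obtain ⟨c, hc⟩ := hdvd
  have hN : 0 < 1 + n * (P1 + 1) := by positivity
  have hN4 : 4 ≤ 1 + n * (P1 + 1) := by nlinarith
  have ht0 : 0 < t := by
    rcases Nat.eq_zero_or_pos t with h0 | h0
    · rw [h0, mul_zero] at hqt
      omega
    · exact h0
  have hqle : q ≤ P1 := by
    rw [← hqt]
    exact Nat.le_mul_of_pos_right q ht0
  obtain ⟨e, he⟩ := Int.modEq_iff_dvd.mp hfmod
  have he' : ε * (q : ℤ) - f = ((P1 : ℤ) + 1) * e := by exact_mod_cast he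
  have hcz : (q : ℤ) * (1 + n * ((P1 : ℤ) + 1)) = f * c := by exact_mod_cast hc
  have hqtz : (q : ℤ) * t = P1 := by exact_mod_cast hqt
  have hrel' : ε * (f : ℤ) = 1 + k * (1 + n * ((P1 : ℤ) + 1)) := by exact_mod_cast hrel
  have hNz : (4 : ℤ) ≤ 1 + n * ((P1 : ℤ) + 1) := by exact_mod_cast hN4
  rcases hε with rfl | rfl
  · -- ε = 1 : c ≡ 1, c ∣ (p - 1) N
    have hmd : (1 + n * (P1 + 1)) * P1 = c * (f * t) := by
      calc (1 + n * (P1 + 1)) * P1 = (1 + n * (P1 + 1)) * (q * t) := by rw [hqt]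
        _ = (q * (1 + n * (P1 + 1))) * t := by ring
        _ = f * c * t := by rw [hc]
        _ = c * (f * t) := by ring
    -- 1 - c = p * (stuff): from q c ≡ q and q t = p - 1:  c ≡ -(p-1) c = - q t c ...
    -- q * c ≡ q (mod p) multiplied by t : (p-1) c ≡ (p-1), i.e. -c ≡ -1
    have key := BRXNumAux.nonF' P1 n c (by omega) hnF
      (1 - (c : ℤ) + t * (q * n + e * c))
      (by linear_combination -(t : ℤ) * hcz + (t : ℤ) * (c : ℤ) * he' + (1 - (c : ℤ)) * hqtz)
      (f * t) hmd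
    rcases key with h1 | h2
    · -- c = 1 : f = q N
      rw [h1] at hcz
      have h3 : (1 + n * ((P1 : ℤ) + 1)) * ((q : ℤ) - k) = 1 := by linear_combination hcz + hrel'
      have h4 : (1 + n * ((P1 : ℤ) + 1)) ∣ 1 := ⟨_, h3.symm⟩
      have := Int.le_of_dvd one_pos h4
      linarith
    · -- c = N : f = q
      have hfq : f = q := by
        rw [h2] at hc
        have : q * (1 + n * (P1 + 1)) = f * (1 + n * (P1 + 1)) := hc
        exact (Nat.eq_of_mul_eq_mul_right hN this).symm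
      rw [hfq] at hrel'
      have hqz : (2 : ℤ) ≤ q := by exact_mod_cast hq2
      have hqP : (q : ℤ) ≤ P1 := by exact_mod_cast hqle
      have hnP : (P1 : ℤ) + 1 ≤ n * ((P1 : ℤ) + 1) := by
        have : (1 : ℤ) ≤ n := by exact_mod_cast hn
        nlinarith
      rcases lt_trichotomy k 0 with hk | hk | hk
      · nlinarith
      · rw [hk] at hrel'
        linarith
      · have : (1 : ℤ) ≤ k := hk
        nlinarith
  · -- ε = -1 : m := f t ≡ 1, m ∣ (p - 1) N
    have hmd : (1 + n * (P1 + 1)) * P1 = f * t * c := by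
      calc (1 + n * (P1 + 1)) * P1 = (1 + n * (P1 + 1)) * (q * t) := by rw [hqt]
        _ = (q * (1 + n * (P1 + 1))) * t := by ring
        _ = f * c * t := by rw [hc]
        _ = f * t * c := by ring
    have key := BRXNumAux.nonF' P1 n (f * t) (by omega) hnF
      (1 + (t : ℤ) * e)
      (by push_cast; linear_combination (t : ℤ) * he' + hqtz)
      c hmd
    rcases key with h1 | h2
    · -- f t = 1 : f = 1, k N = -2
      have hf1 : f = 1 := Nat.eq_one_of_mul_eq_one_right h1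
      rw [hf1] at hrel'
      have h3 : (1 + n * ((P1 : ℤ) + 1)) * (-k) = 2 := by push_cast at hrel'; linear_combination hrel'
      have h4 : (1 + n * ((P1 : ℤ) + 1)) ∣ 2 := ⟨_, h3.symm⟩
      have := Int.le_of_dvd two_pos h4
      linarith
    · -- f t = N
      have hfz : (1 : ℤ) ≤ f := by exact_mod_cast hf
      have hftz : (f : ℤ) * t = 1 + n * ((P1 : ℤ) + 1) := by exact_mod_cast h2
      have htz : (1 : ℤ) ≤ t := by exact_mod_cast ht0
      have hfN : (f : ℤ) ≤ 1 + n * ((P1 : ℤ) + 1) := by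
        have h20 : (f : ℤ) * 1 ≤ f * t := mul_le_mul_of_nonneg_left htz (by linarith)
        linarith
      -- f = -1 - k N, so k = -1 and f = N - 1
      have hk : k = -1 := by
        rcases lt_trichotomy k (-1) with hk | hk | hk
        · have hk2 : k ≤ -2 := by omega
          have h21 : k * (1 + n * ((P1 : ℤ) + 1)) ≤ -2 * (1 + n * ((P1 : ℤ) + 1)) :=
            mul_le_mul_of_nonneg_right hk2 (by linarith)
          linarith
        · exact hk
        · have hk0 : 0 ≤ k := by omega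
          have h21 : 0 ≤ k * (1 + n * ((P1 : ℤ) + 1)) := mul_nonneg hk0 (by linarith)
          linarith
      rw [hk] at hrel'
      have hfN1 : (f : ℤ) = n * ((P1 : ℤ) + 1) := by linarith
      -- (N - 1) t = N
      have h5 : (n * ((P1 : ℤ) + 1)) * ((t : ℤ) - 1) = 1 := by
        rw [hfN1] at hftz
        linear_combination hftz
      have h6 : (n * ((P1 : ℤ) + 1)) ∣ 1 := ⟨_, h5.symm⟩
      have := Int.le_of_dvd one_pos h6
      linarith

theorem brn_num_Y (p q n t a b f : ℕ) (ε : ℤ) (hp : 3 ≤ p) (hq2 : 2 ≤ q)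
    (hqt : q * t = p - 1) (hn : 1 ≤ n)
    (hnF : ∀ h u : ℕ, 0 < h → 0 < u → n * (u + 1) ≠ h * u * p + u ^ 2 + u + h)
    (hab : 1 + a + b = q) (hb : 1 ≤ b) (hf : 2 ≤ f) (hε : ε = 1 ∨ ε = -1)
    (hfmod : (f : ℤ) ≡ ε * (q : ℤ) [ZMOD p]) (hdvd : f ∣ q * (1 + n * p))
    (hsq : f ^ 2 < p * q * (1 + n * p))
    (hrel : ε * (f : ℤ) = 1 + (a : ℤ) * (1 + n * p) - (b : ℤ) * ((p : ℤ) - 1)) :
    (ε = 1 ∧ f = q ∧ q = 1 + a * (n + 1) ∧ 1 ≤ a) ∨
    (ε = -1 ∧ ∃ w : ℕ, 1 ≤ w ∧ w * t = n + 1 ∧ q = 1 + w + a * (n + 1) ∧ f = w * p - q) := by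
  obtain ⟨P1, rfl⟩ : ∃ P1, p = P1 + 1 := ⟨p - 1, by omega⟩
  simp only [Nat.add_sub_cancel] at hqt
  obtain ⟨c, hc⟩ := hdvd
  have hN : 0 < 1 + n * (P1 + 1) := by positivity
  have ht0 : 0 < t := by
    rcases Nat.eq_zero_or_pos t with h0 | h0
    · rw [h0, mul_zero] at hqt
      omega
    · exact h0
  obtain ⟨e, he⟩ := Int.modEq_iff_dvd.mp hfmod
  have he' : ε * (q : ℤ) - f = ((P1 : ℤ) + 1) * e := by exact_mod_cast he
  have hcz : (q : ℤ) * (1 + n * ((P1 : ℤ) + 1)) = f * c := by exact_mod_cast hc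
  have hqtz : (q : ℤ) * t = P1 := by exact_mod_cast hqt
  have hrel' : ε * (f : ℤ) = 1 + (a : ℤ) * (1 + n * ((P1 : ℤ) + 1)) - (b : ℤ) * P1 := by
    have := hrel
    push_cast at this
    linear_combination this
  have habz : (1 : ℤ) + a + b = q := by exact_mod_cast hab
  have hP1z : (2 : ℤ) ≤ P1 := by
    have : 2 ≤ P1 := by omega
    exact_mod_cast this
  rcases hε with rfl | rfl
  · left
    have hmd : (1 + n * (P1 + 1)) * P1 = c * (f * t) := by
      calc (1 + n * (P1 + 1)) * P1 = (1 + n * (P1 + 1)) * (q * t) := by rw [hqt]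
        _ = (q * (1 + n * (P1 + 1))) * t := by ring
        _ = f * c * t := by rw [hc]
        _ = c * (f * t) := by ring
    have key := BRXNumAux.nonF' P1 n c (by omega) hnF
      (1 - (c : ℤ) + t * (q * n + e * c))
      (by linear_combination -(t : ℤ) * hcz + (t : ℤ) * (c : ℤ) * he' + (1 - (c : ℤ)) * hqtz)
      (f * t) hmd
    rcases key with h1 | h2
    · -- c = 1 : f = q N, contradicting f² < p q N
      exfalso
      rw [h1, mul_one] at hc
      rw [← hc] at hsq
      have h7 : P1 + 1 ≤ q * (1 + n * (P1 + 1)) := by nlinarith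
      have h8 : (P1 + 1) * (q * (1 + n * (P1 + 1))) ≤ (q * (1 + n * (P1 + 1))) ^ 2 := by
        rw [sq]
        exact Nat.mul_le_mul_right _ h7
      have h9 : (P1 + 1) * q * (1 + n * (P1 + 1)) = (P1 + 1) * (q * (1 + n * (P1 + 1))) := by ring
      omega
    · have hfq : f = q := by
        rw [h2] at hc
        have : q * (1 + n * (P1 + 1)) = f * (1 + n * (P1 + 1)) := hc
        exact (Nat.eq_of_mul_eq_mul_right hN this).symm
      rw [hfq] at hrel'
      have hq1 : (q : ℤ) = 1 + a * (n + 1) := by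
        have h10 : ((P1 : ℤ) + 1) * ((q : ℤ) - 1 - a * (n + 1)) = 0 := by
          linear_combination hrel' - (P1 : ℤ) * habz
        rcases mul_eq_zero.mp h10 with h | h
        · linarith
        · linarith
      have hq1' : q = 1 + a * (n + 1) := by exact_mod_cast hq1
      refine ⟨rfl, hfq, hq1', ?_⟩
      rcases Nat.eq_zero_or_pos a with h0 | h0
      · rw [h0] at hq1'
        omega
      · exact h0
  · right
    have hmd : (1 + n * (P1 + 1)) * P1 = f * t * c := by
      calc (1 + n * (P1 + 1)) * P1 = (1 + n * (P1 + 1)) * (q * t) := by rw [hqt]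
        _ = (q * (1 + n * (P1 + 1))) * t := by ring
        _ = f * c * t := by rw [hc]
        _ = f * t * c := by ring
    have key := BRXNumAux.nonF' P1 n (f * t) (by omega) hnF
      (1 + (t : ℤ) * e)
      (by push_cast; linear_combination (t : ℤ) * he' + hqtz)
      c hmd
    rcases key with h1 | h2
    · exfalso
      have hf1 : f = 1 := Nat.eq_one_of_mul_eq_one_right h1
      omega
    · -- f t = N ; f + q = w p
      have hftz : (f : ℤ) * t = 1 + n * ((P1 : ℤ) + 1) := by exact_mod_cast h2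
      -- w := -e
      have hw : (f : ℤ) + q = ((P1 : ℤ) + 1) * (-e) := by linear_combination -he'
      have hwpos : 0 < -e := by
        have h11 : (0 : ℤ) < (f : ℤ) + q := by positivity
        rw [hw] at h11
        have h12 : (0 : ℤ) < (P1 : ℤ) + 1 := by positivity
        by_contra hcon
        push Not at hcon
        have : ((P1 : ℤ) + 1) * (-e) ≤ 0 := mul_nonpos_of_nonneg_of_nonpos h12.le hcon
        linarith
      obtain ⟨w, hw'⟩ : ∃ w : ℕ, (w : ℤ) = -e := ⟨(-e).toNat, Int.toNat_of_nonneg hwpos.le⟩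
      have hwz : (f : ℤ) + q = ((P1 : ℤ) + 1) * w := by rw [hw']; exact hw
      have hP0 : ((P1 : ℤ) + 1) ≠ 0 := by positivity
      have hw1 : 1 ≤ w := by
        have : (0 : ℤ) < (w : ℤ) := by rw [hw']; exact hwpos
        exact_mod_cast this
      have hwt : w * t = n + 1 := by
        have h13 : ((P1 : ℤ) + 1) * ((w : ℤ) * t - (n + 1)) = 0 := by
          linear_combination -(t : ℤ) * hwz + hftz + hqtz
        rcases mul_eq_zero.mp h13 with h | h
        · exact absurd h hP0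
        · have : (w : ℤ) * t = n + 1 := by linarith
          exact_mod_cast this
      have hq1 : q = 1 + w + a * (n + 1) := by
        have h14 : ((P1 : ℤ) + 1) * ((q : ℤ) - 1 - w - a * (n + 1)) = 0 := by
          linear_combination hrel' + hwz - (P1 : ℤ) * habz
        rcases mul_eq_zero.mp h14 with h | h
        · exact absurd h hP0
        · have : (q : ℤ) = 1 + w + a * (n + 1) := by linarith
          exact_mod_cast this
      have hfw : f + q = (P1 + 1) * w := by exact_mod_cast hwz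
      refine ⟨rfl, w, hw1, hwt, hq1, ?_⟩
      rw [mul_comm w (P1 + 1), ← hfw]
      omega

end Cfsg.Agent.Helper61
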