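import Mathlib
import Cfsg.Prelude.Def_GeometricClasses
import Cfsg.Prelude.Def_LieClassical
import Cfsg.Agent.Helper69.E4Def
import Cfsg.Agent.Helper69.E5Def

set_option autoImplicit false

namespace Cfsg.Agent.Helper61
open Cfsg.Agent.Helper69
open scoped Matrix

universe u

section lk

variable {K : Type*} [Field K]

/-- the intertwiner `T = (a + ι) + b I` -/
def lkT (a b ι : K) : Matrix (Fin 4) (Fin 4) K := (a + ι) • 1 + b • e5I K

/-- the conjugate `(a + ι) - b I` -/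
def lkT' (a b ι : K) : Matrix (Fin 4) (Fin 4) K := (a + ι) • 1 - b • e5I K

/-- the inverse of `lkT` -/
noncomputable def lkTi (a b ι : K) : Matrix (Fin 4) (Fin 4) K :=
  (2 * (a * ι - 1))⁻¹ • lkT' a b ι

theorem lk_I_sq : e5I K * e5I K = -1 := by
  ext i j
  fin_cases i <;> fin_cases j <;> simp [e5I, Matrix.mul_apply, Fin.sum_univ_four]

theorem lk_I_eq : e5I K = e4X1 K * e4Z1 K := by
  ext i j
  fin_cases i <;> fin_cases j <;> simp [e5I, e4X1, e4Z1, Matrix.mul_apply, Fin.sum_univ_four]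

theorem lk_X1_sq : e4X1 K * e4X1 K = 1 := by
  ext i j
  fin_cases i <;> fin_cases j <;> simp [e4X1, Matrix.mul_apply, Fin.sum_univ_four]

theorem lk_Z1_sq : e4Z1 K * e4Z1 K = 1 := by
  ext i j
  fin_cases i <;> fin_cases j <;> simp [e4Z1, Matrix.mul_apply, Fin.sum_univ_four]

theorem lk_T_mul_T' (a b ι : K) (hab : a ^ 2 + b ^ 2 = -1) (hι : ι ^ 2 = -1) :
    lkT a b ι * lkT' a b ι = (2 * (a * ι - 1)) • (1 : Matrix (Fin 4) (Fin 4) K) := by
  have h : (2 * (a * ι - 1)) = (a + ι) * (a + ι) + b * b := by linear_combination -hab - hι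
  rw [h]
  ext i j
  fin_cases i <;> fin_cases j <;>
    simp [lkT, lkT', e5I, Matrix.mul_apply, Fin.sum_univ_four] <;> ring

theorem lk_T'_mul_T (a b ι : K) (hab : a ^ 2 + b ^ 2 = -1) (hι : ι ^ 2 = -1) :
    lkT' a b ι * lkT a b ι = (2 * (a * ι - 1)) • (1 : Matrix (Fin 4) (Fin 4) K) := by
  have h : (2 * (a * ι - 1)) = (a + ι) * (a + ι) + b * b := by linear_combination -hab - hι
  rw [h]
  ext i j
  fin_cases i <;> fin_cases j <;>
    simp [lkT, lkT', e5I, Matrix.mul_apply, Fin.sum_univ_four] <;> ring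

theorem lk_T_mul_Ti (a b ι : K) (hab : a ^ 2 + b ^ 2 = -1) (hι : ι ^ 2 = -1)
    (h2 : (2 : K) ≠ 0) (haι : a * ι ≠ 1) : lkT a b ι * lkTi a b ι = 1 := by
  have hc : (2 * (a * ι - 1)) ≠ 0 := mul_ne_zero h2 (sub_ne_zero.mpr haι)
  rw [lkTi, Matrix.mul_smul, lk_T_mul_T' a b ι hab hι, smul_smul, inv_mul_cancel₀ hc, one_smul]

theorem lk_Ti_mul_T (a b ι : K) (hab : a ^ 2 + b ^ 2 = -1) (hι : ι ^ 2 = -1)
    (h2 : (2 : K) ≠ 0) (haι : a * ι ≠ 1) : lkTi a b ι * lkT a b ι = 1 := by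
  have hc : (2 * (a * ι - 1)) ≠ 0 := mul_ne_zero h2 (sub_ne_zero.mpr haι)
  rw [lkTi, Matrix.smul_mul, lk_T'_mul_T a b ι hab hι, smul_smul, inv_mul_cancel₀ hc, one_smul]

theorem lk_T_comm_I (a b ι : K) : lkT a b ι * e5I K = e5I K * lkT a b ι := by
  ext i j
  fin_cases i <;> fin_cases j <;>
    simp [lkT, e5I, Matrix.mul_apply, Fin.sum_univ_four]

theorem lk_T_comm_X2 (a b ι : K) : lkT a b ι * e4X2 K = e4X2 K * lkT a b ι := by
  ext i j
  fin_cases i <;> fin_cases j <;>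
    simp [lkT, e5I, e4X2, Matrix.mul_apply, Fin.sum_univ_four]

theorem lk_T_comm_Z2 (a b ι : K) : lkT a b ι * e4Z2 K = e4Z2 K * lkT a b ι := by
  ext i j
  fin_cases i <;> fin_cases j <;>
    simp [lkT, e5I, e4Z2, Matrix.mul_apply, Fin.sum_univ_four]

theorem lk_J_T (a b ι : K) (hab : a ^ 2 + b ^ 2 = -1) (hι : ι ^ 2 = -1) :
    lkT a b ι * (ι • e4Z1 K) = e5J a b * lkT a b ι := by
  ext i j
  fin_cases i <;> fin_cases j <;>
    simp [lkT, e5I, e5J, e4Z1, Matrix.mul_apply, Fin.sum_univ_four] <;>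
    first
      | ring1
      | linear_combination hι - hab
      | linear_combination hab - hι

theorem lk_I_pow (ι : K) (hι : ι ^ 2 = -1) (n : ℕ) :
    ∃ m : ℕ, e5I K ^ n = ι ^ m • (e4X1 K ^ n * e4Z1 K ^ n) := by
  have hI2 : e5I K ^ 2 = -1 := by rw [pow_two, lk_I_sq]
  have hI4 : e5I K ^ 4 = 1 := by
    rw [pow_mul (e5I K) 2 2, hI2, neg_one_sq]
  have hX2 : e4X1 K ^ 2 = 1 := by rw [pow_two, lk_X1_sq]
  have hZ2 : e4Z1 K ^ 2 = 1 := by rw [pow_two, lk_Z1_sq]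
  obtain ⟨t, r, hr, rfl⟩ : ∃ t r, r < 4 ∧ n = 4 * t + r :=
    ⟨n / 4, n % 4, Nat.mod_lt _ (by norm_num), (Nat.div_add_mod n 4).symm⟩
  have e1 : e5I K ^ (4 * t + r) = e5I K ^ r := by
    rw [pow_add, pow_mul, hI4, one_pow, one_mul]
  have e2 : e4X1 K ^ (4 * t + r) = e4X1 K ^ r := by
    rw [pow_add, show 4 * t = 2 * (2 * t) by ring, pow_mul, hX2, one_pow, one_mul]
  have e3 : e4Z1 K ^ (4 * t + r) = e4Z1 K ^ r := by
    rw [pow_add, show 4 * t = 2 * (2 * t) by ring, pow_mul, hZ2, one_pow, one_mul]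
  rw [e1, e2, e3]
  interval_cases r
  · exact ⟨0, by simp⟩
  · exact ⟨0, by rw [pow_one, pow_one, pow_one, pow_zero, one_smul, lk_I_eq]⟩
  · refine ⟨2, ?_⟩
    rw [hI2, hX2, hZ2, hι, mul_one, neg_one_smul]
  · refine ⟨2, ?_⟩
    rw [show 3 = 2 + 1 from rfl, pow_add, pow_add, pow_add, hI2, hX2, hZ2, hι, pow_one, pow_one,
      pow_one, one_mul, one_mul, neg_one_smul, neg_one_mul, lk_I_eq]

theorem lk_conj_word (a b ι : K) (hab : a ^ 2 + b ^ 2 = -1) (hι : ι ^ 2 = -1)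
    (h2 : (2 : K) ≠ 0) (haι : a * ι ≠ 1) (α β γ δ : ℕ) :
    lkTi a b ι * e5W a b α β γ δ * lkT a b ι =
      e5I K ^ α * (ι • e4Z1 K) ^ β * e4X2 K ^ γ * e4Z2 K ^ δ := by
  have h1 : Commute (lkT a b ι) (e5I K ^ α) := (show Commute (lkT a b ι) (e5I K) from
    lk_T_comm_I a b ι).pow_right α
  have h2' : Commute (lkT a b ι) (e4X2 K ^ γ) := (show Commute (lkT a b ι) (e4X2 K) from
    lk_T_comm_X2 a b ι).pow_right γ
  have h3 : Commute (lkT a b ι) (e4Z2 K ^ δ) := (show Commute (lkT a b ι) (e4Z2 K) from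
    lk_T_comm_Z2 a b ι).pow_right δ
  have h4 : lkT a b ι * (ι • e4Z1 K) ^ β = e5J a b ^ β * lkT a b ι :=
    (show SemiconjBy (lkT a b ι) (ι • e4Z1 K) (e5J a b) from lk_J_T a b ι hab hι).pow_right β
  have key : e5W a b α β γ δ * lkT a b ι =
      lkT a b ι * (e5I K ^ α * (ι • e4Z1 K) ^ β * e4X2 K ^ γ * e4Z2 K ^ δ) := by
    unfold e5W
    rw [mul_assoc _ (e4Z2 K ^ δ) (lkT a b ι), ← h3.eq, ← mul_assoc,
      mul_assoc _ (e4X2 K ^ γ) (lkT a b ι), ← h2'.eq, ← mul_assoc,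
      mul_assoc (e5I K ^ α) (e5J a b ^ β) (lkT a b ι), ← h4, ← mul_assoc, ← h1.eq]
    simp only [mul_assoc]
  rw [mul_assoc, key, ← mul_assoc, lk_Ti_mul_T a b ι hab hι h2 haι, one_mul]

theorem lk_word_pauli (ι : K) (hι : ι ^ 2 = -1) (α β γ δ : ℕ) :
    ∃ m : ℕ, e5I K ^ α * (ι • e4Z1 K) ^ β * e4X2 K ^ γ * e4Z2 K ^ δ =
      ι ^ m • e4Pauli K α (α + β) γ δ := by
  obtain ⟨m, hm⟩ := lk_I_pow ι hι α
  refine ⟨m + β, ?_⟩
  rw [hm, smul_pow, e4Pauli, pow_add (e4Z1 K) α β, pow_add ι m β]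
  simp only [Matrix.smul_mul, Matrix.mul_smul, smul_smul, mul_assoc]
  rw [mul_comm (ι ^ β) (ι ^ m)]

theorem lk_pauli_red (b c d e : ℕ) : e4Pauli K b (b + (b + c)) d e = e4Pauli K b c d e := by
  have hZ2 : e4Z1 K ^ 2 = 1 := by rw [pow_two, lk_Z1_sq]
  unfold e4Pauli
  rw [show b + (b + c) = 2 * b + c by ring, pow_add, pow_mul, hZ2, one_pow, one_mul]

end lk

section lkmap

variable {F : Type*} [Field F] {K : Type*} [Field K]

theorem lk_map_pow (f : F →+* K) (M : Matrix (Fin 4) (Fin 4) F) (n : ℕ) :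
    (M ^ n).map f = (M.map f) ^ n := by
  rw [← RingHom.mapMatrix_apply, map_pow, RingHom.mapMatrix_apply]

theorem lk_map_I (f : F →+* K) : (e5I F).map f = e5I K := by
  ext i j
  fin_cases i <;> fin_cases j <;> simp [e5I]

theorem lk_map_J (f : F →+* K) (a b : F) : (e5J a b).map f = e5J (f a) (f b) := by
  ext i j
  fin_cases i <;> fin_cases j <;> simp [e5J]

theorem lk_map_X2 (f : F →+* K) : (e4X2 F).map f = e4X2 K := by
  ext i j
  fin_cases i <;> fin_cases j <;> simp [e4X2]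

theorem lk_map_Z2 (f : F →+* K) : (e4Z2 F).map f = e4Z2 K := by
  ext i j
  fin_cases i <;> fin_cases j <;> simp [e4Z2]

theorem lk_map_W (f : F →+* K) (a b : F) (α β γ δ : ℕ) :
    (e5W a b α β γ δ).map f = e5W (f a) (f b) α β γ δ := by
  unfold e5W
  rw [Matrix.map_mul, Matrix.map_mul, Matrix.map_mul, lk_map_pow, lk_map_pow, lk_map_pow,
    lk_map_pow, lk_map_I, lk_map_J, lk_map_X2, lk_map_Z2]

end lkmap

theorem lk_J_sq {F : Type*} [Field F] (a b : F) (hab : a ^ 2 + b ^ 2 = -1) :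
    e5J a b * e5J a b = -1 := by
  ext i j
  fin_cases i <;> fin_cases j <;>
    simp [e5J, Matrix.mul_apply, Fin.sum_univ_four] <;>
    first
      | ring1
      | linear_combination hab

theorem lk_X2_sq {F : Type*} [Field F] : e4X2 F * e4X2 F = 1 := by
  ext i j
  fin_cases i <;> fin_cases j <;> simp [e4X2, Matrix.mul_apply, Fin.sum_univ_four]

theorem lk_Z2_sq {F : Type*} [Field F] : e4Z2 F * e4Z2 F = 1 := by
  ext i j
  fin_cases i <;> fin_cases j <;> simp [e4Z2, Matrix.mul_apply, Fin.sum_univ_four]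

theorem lk_conj_unit {F : Type*} [Field F] (C : Matrix (Fin 2 ⊕ Fin 2) (Fin 4) F)
    (Ci : Matrix (Fin 4) (Fin 2 ⊕ Fin 2) F) (hC1 : C * Ci = 1) (hC2 : Ci * C = 1)
    (W W' : Matrix (Fin 4) (Fin 4) F) (h : W * W' = 1) :
    (C * W * Ci) * (C * W' * Ci) = 1 := by
  simp only [Matrix.mul_assoc]
  rw [← Matrix.mul_assoc Ci C, hC2, Matrix.one_mul, ← Matrix.mul_assoc W W', h, Matrix.one_mul,
    hC1]

theorem e5_link {F : Type u} [Field F] (h2 : (2 : F) ≠ 0)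
    (R : Subgroup (GL (Fin 2 ⊕ Fin 2) F)) (a b : F) (hab : a ^ 2 + b ^ 2 = -1)
    (C : Matrix (Fin 2 ⊕ Fin 2) (Fin 4) F) (Ci : Matrix (Fin 4) (Fin 2 ⊕ Fin 2) F)
    (hC1 : C * Ci = 1) (hC2 : Ci * C = 1)
    (hRmem : ∀ g : GL (Fin 2 ⊕ Fin 2) F, g ∈ R ↔
        ∃ s α β γ δ : ℕ, Ci * (g : Matrix (Fin 2 ⊕ Fin 2) (Fin 2 ⊕ Fin 2) F) * C =
          (-1 : F) ^ s • e5W a b α β γ δ) :
    ∃ (K : Type u) (_ : Field K) (_ : Algebra F K) (ι : K)
      (D : Matrix (Fin 2 ⊕ Fin 2) (Fin 4) K) (Di : Matrix (Fin 4) (Fin 2 ⊕ Fin 2) K),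
      ι ^ 2 = -1 ∧ D * Di = 1 ∧ Di * D = 1 ∧
      (∀ g ∈ R, ∃ k b c d e : ℕ,
        Di * (g : Matrix (Fin 2 ⊕ Fin 2) (Fin 2 ⊕ Fin 2) F).map (algebraMap F K) * D =
          ι ^ k • e4Pauli K b c d e) ∧
      (∀ k b c d e : ℕ, ∃ g ∈ R, ∃ k' : ℕ, ι ^ k • e4Pauli K b c d e =
        ι ^ k' • (Di * (g : Matrix (Fin 2 ⊕ Fin 2) (Fin 2 ⊕ Fin 2) F).map (algebraMap F K) * D)) := by
  classical
  obtain ⟨ι₀, hι₀⟩ : ∃ ι₀ : AlgebraicClosure F, ι₀ ^ 2 = -1 :=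
    IsAlgClosed.exists_pow_nat_eq (-1) (by norm_num)
  obtain ⟨f, hf⟩ : ∃ f : F →+* AlgebraicClosure F, f = algebraMap F (AlgebraicClosure F) :=
    ⟨_, rfl⟩
  have h2K : (2 : AlgebraicClosure F) ≠ 0 := by
    intro h
    apply h2
    apply f.injective
    rw [map_ofNat, map_zero]
    exact h
  have hab' : f a ^ 2 + f b ^ 2 = -1 := by
    rw [← map_pow, ← map_pow, ← map_add, hab, map_neg, map_one]
  obtain ⟨ι, hι, haι⟩ : ∃ ι : AlgebraicClosure F, ι ^ 2 = -1 ∧ f a * ι ≠ 1 := by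
    by_cases h : f a * ι₀ = 1
    · refine ⟨-ι₀, by rw [neg_sq, hι₀], ?_⟩
      intro h'
      apply h2K
      linear_combination -h - h'
    · exact ⟨ι₀, hι₀, h⟩
  have hTTi := lk_T_mul_Ti (f a) (f b) ι hab' hι h2K haι
  have hTiT := lk_Ti_mul_T (f a) (f b) ι hab' hι h2K haι
  have key : ∀ (M : Matrix (Fin 2 ⊕ Fin 2) (Fin 2 ⊕ Fin 2) F) (s α β γ δ : ℕ),
      Ci * M * C = (-1 : F) ^ s • e5W a b α β γ δ →
      (lkTi (f a) (f b) ι * Ci.map f) * M.map f * (C.map f * lkT (f a) (f b) ι) =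
        (-1 : AlgebraicClosure F) ^ s •
          (e5I (AlgebraicClosure F) ^ α * (ι • e4Z1 (AlgebraicClosure F)) ^ β *
            e4X2 (AlgebraicClosure F) ^ γ * e4Z2 (AlgebraicClosure F) ^ δ) := by
    intro M s α β γ δ hM
    have h1 : Ci.map f * M.map f * C.map f =
        (-1 : AlgebraicClosure F) ^ s • e5W (f a) (f b) α β γ δ := by
      rw [← Matrix.map_mul, ← Matrix.map_mul, hM, Matrix.map_smul' (⇑f) _ _ (map_mul f), lk_map_W,
        map_pow, map_neg, map_one]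
    calc (lkTi (f a) (f b) ι * Ci.map f) * M.map f * (C.map f * lkT (f a) (f b) ι)
        = lkTi (f a) (f b) ι * (Ci.map f * M.map f * C.map f) * lkT (f a) (f b) ι := by
          simp only [Matrix.mul_assoc]
      _ = _ := by
          rw [h1, Matrix.mul_smul, Matrix.smul_mul,
            lk_conj_word (f a) (f b) ι hab' hι h2K haι]
  refine ⟨AlgebraicClosure F, inferInstance, inferInstance, ι, C.map f * lkT (f a) (f b) ι,
    lkTi (f a) (f b) ι * Ci.map f, hι, ?_, ?_, ?_, ?_⟩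
  · rw [Matrix.mul_assoc, ← Matrix.mul_assoc (lkT (f a) (f b) ι), hTTi, Matrix.one_mul,
      ← Matrix.map_mul, hC1, Matrix.map_one _ (map_zero f) (map_one f)]
  · rw [Matrix.mul_assoc, ← Matrix.mul_assoc (Ci.map f), ← Matrix.map_mul, hC2,
      Matrix.map_one _ (map_zero f) (map_one f), Matrix.one_mul, hTiT]
  · intro g hg
    obtain ⟨s, α, β, γ, δ, hM⟩ := (hRmem g).mp hg
    obtain ⟨m, hm⟩ := lk_word_pauli ι hι α β γ δ
    refine ⟨2 * s + m, α, α + β, γ, δ, ?_⟩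
    rw [← hf, key _ s α β γ δ hM, hm, smul_smul, pow_add, pow_mul, hι]
  · intro k b' c d e
    have hI4 : e5I F ^ 4 = 1 := by
      rw [pow_mul (e5I F) 2 2, pow_two (e5I F), lk_I_sq, neg_one_sq]
    have hJ4 : e5J a b ^ 4 = 1 := by
      rw [pow_mul (e5J a b) 2 2, pow_two (e5J a b), lk_J_sq a b hab, neg_one_sq]
    have hX2 : e4X2 F ^ 2 = 1 := by rw [pow_two, lk_X2_sq]
    have hZ2 : e4Z2 F ^ 2 = 1 := by rw [pow_two, lk_Z2_sq]
    have hWu : IsUnit (e5W a b b' (b' + c) d e) := by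
      unfold e5W
      exact ((((IsUnit.of_pow_eq_one hI4 (by norm_num)).pow _).mul
        ((IsUnit.of_pow_eq_one hJ4 (by norm_num)).pow _)).mul
        ((IsUnit.of_pow_eq_one hX2 (by norm_num)).pow _)).mul
        ((IsUnit.of_pow_eq_one hZ2 (by norm_num)).pow _)
    obtain ⟨w, hw⟩ := hWu
    have hw1 : e5W a b b' (b' + c) d e * (↑w⁻¹ : Matrix (Fin 4) (Fin 4) F) = 1 := by
      rw [← hw]
      exact w.mul_inv
    have hw2 : (↑w⁻¹ : Matrix (Fin 4) (Fin 4) F) * e5W a b b' (b' + c) d e = 1 := by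
      rw [← hw]
      exact w.inv_mul
    obtain ⟨g, hg⟩ : ∃ g : GL (Fin 2 ⊕ Fin 2) F,
        (g : Matrix (Fin 2 ⊕ Fin 2) (Fin 2 ⊕ Fin 2) F) = C * e5W a b b' (b' + c) d e * Ci :=
      ⟨⟨C * e5W a b b' (b' + c) d e * Ci, C * (↑w⁻¹ : Matrix (Fin 4) (Fin 4) F) * Ci,
        lk_conj_unit C Ci hC1 hC2 _ _ hw1, lk_conj_unit C Ci hC1 hC2 _ _ hw2⟩, rfl⟩
    have hM : Ci * (g : Matrix (Fin 2 ⊕ Fin 2) (Fin 2 ⊕ Fin 2) F) * C =
        (-1 : F) ^ 0 • e5W a b b' (b' + c) d e := by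
      rw [hg, pow_zero, one_smul]
      simp only [Matrix.mul_assoc]
      rw [hC2, Matrix.mul_one, ← Matrix.mul_assoc, hC2, Matrix.one_mul]
    have hgR : g ∈ R := (hRmem g).mpr ⟨0, b', b' + c, d, e, hM⟩
    obtain ⟨m, hm⟩ := lk_word_pauli ι hι b' (b' + c) d e
    refine ⟨g, hgR, k + 3 * m, ?_⟩
    rw [← hf, key _ 0 b' (b' + c) d e hM, hm, pow_zero, one_smul, lk_pauli_red, smul_smul]
    congr 1
    have hι4 : ι ^ 4 = 1 := by rw [pow_mul ι 2 2, hι, neg_one_sq]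
    rw [← pow_add, show k + 3 * m + m = k + 4 * m by ring, pow_add, pow_mul, hι4, one_pow,
      mul_one]

end Cfsg.Agent.Helper61
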