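import Cfsg.Agent.Helper63.Gross2Defs

/-!
# CALL S3795 (helper63), piece FIT: a criterion for membership in the Fitting subgroup
-/

set_option autoImplicit false

namespace Cfsg.Agent.Helper61

open Cfsg.Agent.Helper63.Gross2

universe u

theorem fit_stmt : FitStmt.{u} := by
  intro H _ _ r hr W hW hWr k hkW hk
  classical
  have : Fact r.Prime := ⟨hr⟩
  -- the r'-part of the Fitting subgroup
  set A : Subgroup H := ⨆ q : {q : Nat.Primes // (q : ℕ) ≠ r}, Cfsg.pCore ((q : Nat.Primes) : ℕ) H
    with hA
  have hAn : A.Normal := by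
    rw [hA]
    infer_instance
  -- every element of F(H) has an r-power in A
  have hFA : ∀ f ∈ Cfsg.fittingSubgroup H, ∃ m : ℕ, f ^ r ^ m ∈ A := by
    intro f hf
    have hle : Cfsg.fittingSubgroup H ≤ Cfsg.pCore r H ⊔ A := by
      rw [Cfsg.Agent.Helper22.fittingSubgroup_eq_iSup_pCore]
      apply iSup_le
      intro p
      by_cases hp : (p : ℕ) = r
      · rw [hp]
        exact le_sup_left
      · exact le_trans (le_iSup (fun q : {q : Nat.Primes // (q : ℕ) ≠ r} =>
          Cfsg.pCore ((q : Nat.Primes) : ℕ) H) ⟨p, hp⟩) le_sup_right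
    have hf' : f ∈ ((Cfsg.pCore r H ⊔ A : Subgroup H) : Set H) := hle hf
    rw [Subgroup.mul_normal] at hf'
    obtain ⟨b, hb, a, ha, rfl⟩ := Set.mem_mul.mp hf'
    obtain ⟨m, hm⟩ := (Cfsg.Agent.Helper22.pCore_isPGroup r H) ⟨b, hb⟩
    refine ⟨m, ?_⟩
    have hbm : b ^ r ^ m = 1 := by
      have := congrArg Subtype.val hm
      simpa using this
    rw [← QuotientGroup.eq_one_iff, QuotientGroup.mk_pow, QuotientGroup.mk_mul,
      (QuotientGroup.eq_one_iff a).mpr ha, mul_one, ← QuotientGroup.mk_pow, hbm]
    rfl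
  set D : Subgroup H := W ⊓ Subgroup.centralizer (A : Set H) with hD
  have hDn : D.Normal := by
    rw [hD]
    infer_instance
  have hkA : k ∈ Subgroup.centralizer (A : Set H) := by
    have hle : A ≤ Subgroup.centralizer ({k} : Set H) := by
      rw [hA]
      apply iSup_le
      intro q t ht
      rw [Subgroup.mem_centralizer_iff]
      intro h hh
      rw [Set.mem_singleton_iff] at hh
      subst hh
      exact hk _ (q : Nat.Primes).2 q.2 t ht
    rw [Subgroup.mem_centralizer_iff]
    intro h hh
    have := hle hh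
    rw [Subgroup.mem_centralizer_iff] at this
    exact (this k rfl).symm
  have hkD : k ∈ D := ⟨hkW, hkA⟩
  -- D is nilpotent
  set Z : Subgroup D := A.subgroupOf D with hZ
  have hZc : Z ≤ Subgroup.center D := by
    intro z hz
    rw [Subgroup.mem_center_iff]
    intro d
    have hd : (d : H) ∈ Subgroup.centralizer (A : Set H) := d.2.2
    rw [Subgroup.mem_centralizer_iff] at hd
    have hz' : (z : H) ∈ A := hz
    apply Subtype.ext
    show (d : H) * (z : H) = (z : H) * (d : H)
    exact (hd _ hz').symm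
  have hQ : IsPGroup r (D ⧸ Z) := by
    intro x
    induction x using QuotientGroup.induction_on with
    | H d =>
      obtain ⟨a, ha⟩ := hWr d d.2.1
      obtain ⟨m, hm⟩ := hFA _ ha
      refine ⟨a + m, ?_⟩
      rw [← QuotientGroup.mk_pow, QuotientGroup.eq_one_iff]
      show ((d ^ r ^ (a + m) : D) : H) ∈ A
      rw [Subgroup.coe_pow, pow_add, pow_mul]
      exact hm
  have : Group.IsNilpotent (D ⧸ Z) := hQ.isNilpotent
  have hDnil : Group.IsNilpotent D := by
    apply Subgroup.isNilpotent_of_ker_le_center (QuotientGroup.mk' Z)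
    rw [QuotientGroup.ker_mk']
    exact hZc
  exact (le_sSup (show D ∈ {N : Subgroup H | N.Normal ∧ Group.IsNilpotent N} from
    ⟨hDn, hDnil⟩)) hkD

end Cfsg.Agent.Helper61
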