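import Cfsg.Agent.Helper63.Gross2Defs

/-!
# CALL S3795 (helper63), piece NT: `2 ^ j - 1 = q ^ m` with `q` an odd prime forces `m = 1`
-/

set_option autoImplicit false

namespace Cfsg.Agent.Helper61

open Cfsg.Agent.Helper63.Gross2

universe u

theorem mersenne_exponent {q m j : ℕ} (hq : q.Prime) (hq2 : q ≠ 2) (hm : 0 < m)
    (h : 2 ^ j - 1 = q ^ m) : m = 1 ∧ 2 ≤ j := by
  have hq3 : 3 ≤ q := by
    have := hq.two_le
    omega
  have hqodd : Odd q := hq.odd_of_ne_two hq2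
  have hqm3 : 3 ≤ q ^ m := le_trans hq3 (Nat.le_self_pow hm.ne' q)
  have hj2 : 2 ≤ j := by
    by_contra hj
    have hj1 : j ≤ 1 := by omega
    have : 2 ^ j ≤ 2 ^ 1 := Nat.pow_le_pow_right (by norm_num) hj1
    omega
  have hpow : 2 ^ j = q ^ m + 1 := by
    have : 0 < 2 ^ j := Nat.pos_of_ne_zero (by positivity)
    omega
  have h4 : 4 ∣ 2 ^ j := by
    obtain ⟨t, rfl⟩ := Nat.exists_eq_add_of_le hj2
    exact ⟨2 ^ t, by rw [pow_add]; norm_num⟩
  -- m is odd
  have hmodd : Odd m := by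
    by_contra hcon
    rw [Nat.not_odd_iff_even] at hcon
    obtain ⟨t, rfl⟩ := hcon
    have hx : Odd (q ^ t) := hqodd.pow
    have hsq : q ^ (t + t) = q ^ t * q ^ t := pow_add q t t
    have hmod : (q ^ t * q ^ t) % 4 = 1 := by
      have h13 : q ^ t % 4 = 1 ∨ q ^ t % 4 = 3 := by
        rcases hx with ⟨s, hs⟩
        omega
      rw [Nat.mul_mod]
      rcases h13 with h1 | h1 <;> rw [h1]
    rw [hsq] at hpow
    omega
  -- the cofactor
  obtain ⟨c, hc⟩ : q + 1 ∣ q ^ m + 1 := by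
    have := Odd.nat_add_dvd_pow_add_pow q 1 hmodd
    simpa using this
  have hcodd : Odd c := by
    have hgeom : ((q : ℤ) - (-1)) * ∑ i ∈ Finset.range m, (q : ℤ) ^ i * (-1) ^ (m - 1 - i)
        = (q : ℤ) ^ m - (-1) ^ m := (Commute.all (q : ℤ) (-1)).mul_geom_sum₂ m
    rw [hmodd.neg_one_pow] at hgeom
    have hcz : ((q : ℤ) + 1) * (c : ℤ) = (q : ℤ) ^ m + 1 := by exact_mod_cast hc.symm
    have hne : ((q : ℤ) + 1) ≠ 0 := by positivity
    have hceq : (c : ℤ) = ∑ i ∈ Finset.range m, (q : ℤ) ^ i * (-1) ^ (m - 1 - i) := by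
      apply mul_left_cancel₀ hne
      rw [hcz]
      have : (q : ℤ) + 1 = (q : ℤ) - (-1) := by ring
      rw [this, hgeom]
      ring
    have hq2' : ((q : ℕ) : ZMod 2) = 1 := by
      rw [ZMod.natCast_eq_one_iff_odd]
      exact hqodd
    have hm2 : ((m : ℕ) : ZMod 2) = 1 := by
      rw [ZMod.natCast_eq_one_iff_odd]
      exact hmodd
    have hcast : ((c : ℤ) : ZMod 2) = 1 := by
      rw [hceq]
      push_cast
      have hneg : (-1 : ZMod 2) = 1 := by decide
      simp only [hq2', hneg, one_pow, mul_one, Finset.sum_const, Finset.card_range, nsmul_eq_mul]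
      exact hm2
    have : ((c : ℕ) : ZMod 2) = 1 := by exact_mod_cast hcast
    rwa [ZMod.natCast_eq_one_iff_odd] at this
  have hcdvd : c ∣ 2 ^ j := ⟨q + 1, by rw [hpow, hc, mul_comm]⟩
  obtain ⟨s, -, hs⟩ := (Nat.dvd_prime_pow Nat.prime_two).mp hcdvd
  have hs0 : s = 0 := by
    by_contra hs0
    have : Even c := by
      rw [hs]
      exact (Nat.even_pow' hs0).mpr even_two
    exact (Nat.not_odd_iff_even.mpr this) hcodd
  have hc1 : c = 1 := by rw [hs, hs0, pow_zero]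
  have hqm : q ^ m = q ^ 1 := by
    rw [hc1, mul_one] at hc
    rw [pow_one]
    omega
  exact ⟨Nat.pow_right_injective hq.two_le hqm, hj2⟩

end Cfsg.Agent.Helper61
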