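import Mathlib
import Cfsg.Prelude.Def_GeometricClasses
set_option autoImplicit false
open Cfsg Cfsg.Geo Matrix
open scoped Kronecker

namespace Cfsg.Agent.Helper61
variable {F : Type*} [Field F]

theorem o12pR_rank_one (a b c d : F) (h : a * d - b * c = 0) :
    ∃ x0 x1 y0 y1 : F, a = x0 * y0 ∧ b = x0 * y1 ∧ c = x1 * y0 ∧ d = x1 * y1 := by
  by_cases ha : a = 0
  · subst ha
    by_cases hb : b = 0
    · subst hb
      exact ⟨0, 1, c, d, by ring, by ring, by ring, by ring⟩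
    · have hc : c = 0 := by
        have : b * c = 0 := by linear_combination -h
        rcases mul_eq_zero.mp this with h1 | h1
        · exact absurd h1 hb
        · exact h1
      subst hc
      refine ⟨1, d / b, 0, b, by ring, by ring, by ring, ?_⟩
      field_simp
  · refine ⟨1, c / a, a, b, by ring, by ring, ?_, ?_⟩
    · field_simp
    · field_simp
      linear_combination h

theorem o12pR_entries (B : Matrix (Fin 2 × Fin 2) (Fin 2 × Fin 2) F) (μ : F)
    (hB : Bᵀ * ((!![0, 1; -1, 0] : Matrix (Fin 2) (Fin 2) F) ⊗ₖ (!![0, 1; -1, 0] : Matrix (Fin 2) (Fin 2) F)) * B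
      = μ • ((!![0, 1; -1, 0] : Matrix (Fin 2) (Fin 2) F) ⊗ₖ (!![0, 1; -1, 0] : Matrix (Fin 2) (Fin 2) F)))
    (a c a' c' : Fin 2) :
    B (0,0) (a,c) * B (1,1) (a',c') - B (0,1) (a,c) * B (1,0) (a',c')
      - B (1,0) (a,c) * B (0,1) (a',c') + B (1,1) (a,c) * B (0,0) (a',c')
      = μ * ((!![0, 1; -1, 0] : Matrix (Fin 2) (Fin 2) F) a a' * (!![0, 1; -1, 0] : Matrix (Fin 2) (Fin 2) F) c c') := by
  have h := congrFun (congrFun hB (a,c)) (a',c')
  simp only [Matrix.mul_apply, Fintype.sum_prod_type, Fin.sum_univ_two, kroneckerMap_apply,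
    Matrix.transpose_apply, Matrix.smul_apply, smul_eq_mul] at h
  fin_cases a <;> fin_cases c <;> fin_cases a' <;> fin_cases c' <;> simp at h ⊢ <;>
    linear_combination h


theorem o12pR_core (x0 x1 y0 y1 u0 u1 v0 v1 Y00 Y01 Y10 Y11 Z00 Z01 Z10 Z11 μ : F) (hμ : μ ≠ 0)
    (hXW : x0*y0*(u1*v1) - x0*y1*(u1*v0) - x1*y0*(u0*v1) + x1*y1*(u0*v0) = μ)
    (hXY : x0*y0*Y11 - x0*y1*Y10 - x1*y0*Y01 + x1*y1*Y00 = 0)
    (hWY : u0*v0*Y11 - u0*v1*Y10 - u1*v0*Y01 + u1*v1*Y00 = 0)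
    (hXZ : x0*y0*Z11 - x0*y1*Z10 - x1*y0*Z01 + x1*y1*Z00 = 0)
    (hWZ : u0*v0*Z11 - u0*v1*Z10 - u1*v0*Z01 + u1*v1*Z00 = 0)
    (hYY : Y00*Y11 - Y01*Y10 = 0) (hZZ : Z00*Z11 - Z01*Z10 = 0)
    (hYZ : Y00*Z11 - Y01*Z10 - Y10*Z01 + Y11*Z00 = -μ) :
    (∃ a d : F, a * d = 1 ∧ Y00 = a*(x0*v0) ∧ Y01 = a*(x0*v1) ∧ Y10 = a*(x1*v0) ∧ Y11 = a*(x1*v1) ∧
        Z00 = d*(u0*y0) ∧ Z01 = d*(u0*y1) ∧ Z10 = d*(u1*y0) ∧ Z11 = d*(u1*y1)) ∨
    (∃ b c : F, b * c = 1 ∧ Y00 = b*(u0*y0) ∧ Y01 = b*(u0*y1) ∧ Y10 = b*(u1*y0) ∧ Y11 = b*(u1*y1) ∧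
        Z00 = c*(x0*v0) ∧ Z01 = c*(x0*v1) ∧ Z10 = c*(x1*v0) ∧ Z11 = c*(x1*v1)) := by
  obtain ⟨n01, hn01⟩ : ∃ n : F, n * μ = -(Y00*(u1*y1) - Y01*(u1*y0) - Y10*(u0*y1) + Y11*(u0*y0)) :=
    ⟨-(Y00*(u1*y1) - Y01*(u1*y0) - Y10*(u0*y1) + Y11*(u0*y0)) / μ, by field_simp⟩
  obtain ⟨n10, hn10⟩ : ∃ n : F, n * μ = -(Y00*(x1*v1) - Y01*(x1*v0) - Y10*(x0*v1) + Y11*(x0*v0)) :=
    ⟨-(Y00*(x1*v1) - Y01*(x1*v0) - Y10*(x0*v1) + Y11*(x0*v0)) / μ, by field_simp⟩
  obtain ⟨m01, hm01⟩ : ∃ n : F, n * μ = -(Z00*(u1*y1) - Z01*(u1*y0) - Z10*(u0*y1) + Z11*(u0*y0)) :=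
    ⟨-(Z00*(u1*y1) - Z01*(u1*y0) - Z10*(u0*y1) + Z11*(u0*y0)) / μ, by field_simp⟩
  obtain ⟨m10, hm10⟩ : ∃ n : F, n * μ = -(Z00*(x1*v1) - Z01*(x1*v0) - Z10*(x0*v1) + Z11*(x0*v0)) :=
    ⟨-(Z00*(x1*v1) - Z01*(x1*v0) - Z10*(x0*v1) + Z11*(x0*v0)) / μ, by field_simp⟩
  have hY00 : Y00 = n01*(x0*v0) + n10*(u0*y0) := by
    apply mul_right_cancel₀ hμ
    linear_combination (-(x0*v0)) * hn01 - (u0*y0) * hn10 - Y00 * hXW + (x0*y0) * hWY + (u0*v0) * hXY
  have hY01 : Y01 = n01*(x0*v1) + n10*(u0*y1) := by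
    apply mul_right_cancel₀ hμ
    linear_combination (-(x0*v1)) * hn01 - (u0*y1) * hn10 - Y01 * hXW + (x0*y1) * hWY + (u0*v1) * hXY
  have hY10 : Y10 = n01*(x1*v0) + n10*(u1*y0) := by
    apply mul_right_cancel₀ hμ
    linear_combination (-(x1*v0)) * hn01 - (u1*y0) * hn10 - Y10 * hXW + (x1*y0) * hWY + (u1*v0) * hXY
  have hY11 : Y11 = n01*(x1*v1) + n10*(u1*y1) := by
    apply mul_right_cancel₀ hμ
    linear_combination (-(x1*v1)) * hn01 - (u1*y1) * hn10 - Y11 * hXW + (x1*y1) * hWY + (u1*v1) * hXY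
  have hZ00 : Z00 = m01*(x0*v0) + m10*(u0*y0) := by
    apply mul_right_cancel₀ hμ
    linear_combination (-(x0*v0)) * hm01 - (u0*y0) * hm10 - Z00 * hXW + (x0*y0) * hWZ + (u0*v0) * hXZ
  have hZ01 : Z01 = m01*(x0*v1) + m10*(u0*y1) := by
    apply mul_right_cancel₀ hμ
    linear_combination (-(x0*v1)) * hm01 - (u0*y1) * hm10 - Z01 * hXW + (x0*y1) * hWZ + (u0*v1) * hXZ
  have hZ10 : Z10 = m01*(x1*v0) + m10*(u1*y0) := by
    apply mul_right_cancel₀ hμ
    linear_combination (-(x1*v0)) * hm01 - (u1*y0) * hm10 - Z10 * hXW + (x1*y0) * hWZ + (u1*v0) * hXZ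
  have hZ11 : Z11 = m01*(x1*v1) + m10*(u1*y1) := by
    apply mul_right_cancel₀ hμ
    linear_combination (-(x1*v1)) * hm01 - (u1*y1) * hm10 - Z11 * hXW + (x1*y1) * hWZ + (u1*v1) * hXZ
  subst hY00 hY01 hY10 hY11 hZ00 hZ01 hZ10 hZ11
  have hn : n01 * n10 = 0 := by
    apply mul_right_cancel₀ hμ
    linear_combination (-(n01*n10)) * hXW - hYY
  have hm : m01 * m10 = 0 := by
    apply mul_right_cancel₀ hμ
    linear_combination (-(m01*m10)) * hXW - hZZ
  have hnm : n01 * m10 + n10 * m01 = 1 := by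
    apply mul_right_cancel₀ hμ
    linear_combination (-(n01*m10 + n10*m01)) * hXW - hYZ
  by_cases h10 : n10 = 0
  · left
    subst h10
    have h1 : n01 * m10 = 1 := by linear_combination hnm
    have hm10 : m10 ≠ 0 := by
      rintro rfl
      simp at h1
    have hm01 : m01 = 0 := by
      rcases mul_eq_zero.mp hm with h | h
      · exact h
      · exact absurd h hm10
    subst hm01
    exact ⟨n01, m10, h1, by ring, by ring, by ring, by ring, by ring, by ring, by ring, by ring⟩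
  · right
    have h01 : n01 = 0 := by
      rcases mul_eq_zero.mp hn with h | h
      · exact h
      · exact absurd h h10
    subst h01
    have h1 : n10 * m01 = 1 := by linear_combination hnm
    have hm01' : m01 ≠ 0 := by
      rintro rfl
      simp at h1
    have hm10' : m10 = 0 := by
      rcases mul_eq_zero.mp hm with h | h
      · exact absurd h hm01'
      · exact h
    subst hm10'
    exact ⟨n10, m01, h1, by ring, by ring, by ring, by ring, by ring, by ring, by ring, by ring⟩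


theorem o12p_ruling (h2 : (2 : F) ≠ 0) (B : Matrix (Fin 2 × Fin 2) (Fin 2 × Fin 2) F) (μ : F)
    (hμ : μ ≠ 0)
    (hB : Bᵀ * ((!![0, 1; -1, 0] : Matrix (Fin 2) (Fin 2) F) ⊗ₖ (!![0, 1; -1, 0] : Matrix (Fin 2) (Fin 2) F)) * B
      = μ • ((!![0, 1; -1, 0] : Matrix (Fin 2) (Fin 2) F) ⊗ₖ (!![0, 1; -1, 0] : Matrix (Fin 2) (Fin 2) F))) :
    (∃ B₁ B₂ : Matrix (Fin 2) (Fin 2) F, B = B₁ ⊗ₖ B₂) ∨ B.det = -(μ ^ 2) := by
  have E := o12pR_entries B μ hB
  have hX : B (0,0) (0,0) * B (1,1) (0,0) - B (0,1) (0,0) * B (1,0) (0,0) = 0 := by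
    have h := E 0 0 0 0
    simp at h
    apply mul_left_cancel₀ h2
    linear_combination h
  have hW : B (0,0) (1,1) * B (1,1) (1,1) - B (0,1) (1,1) * B (1,0) (1,1) = 0 := by
    have h := E 1 1 1 1
    simp at h
    apply mul_left_cancel₀ h2
    linear_combination h
  have hYY : B (0,0) (0,1) * B (1,1) (0,1) - B (0,1) (0,1) * B (1,0) (0,1) = 0 := by
    have h := E 0 1 0 1
    simp at h
    apply mul_left_cancel₀ h2
    linear_combination h
  have hZZ : B (0,0) (1,0) * B (1,1) (1,0) - B (0,1) (1,0) * B (1,0) (1,0) = 0 := by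
    have h := E 1 0 1 0
    simp at h
    apply mul_left_cancel₀ h2
    linear_combination h
  have hXW := E 0 0 1 1
  have hXY := E 0 0 0 1
  have hWY := E 1 1 0 1
  have hXZ := E 0 0 1 0
  have hWZ := E 1 1 1 0
  have hYZ := E 0 1 1 0
  simp at hXW hXY hWY hXZ hWZ hYZ
  obtain ⟨x0, x1, y0, y1, hx00, hx01, hx10, hx11⟩ := o12pR_rank_one _ _ _ _ hX
  obtain ⟨u0, u1, v0, v1, hw00, hw01, hw10, hw11⟩ := o12pR_rank_one _ _ _ _ hW
  rw [hx00, hx01, hx10, hx11] at hXY hXZ hXW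
  rw [hw00, hw01, hw10, hw11] at hWY hWZ hXW
  have hcore := o12pR_core x0 x1 y0 y1 u0 u1 v0 v1 (B (0,0) (0,1)) (B (0,1) (0,1)) (B (1,0) (0,1))
    (B (1,1) (0,1)) (B (0,0) (1,0)) (B (0,1) (1,0)) (B (1,0) (1,0)) (B (1,1) (1,0)) μ hμ
    (by linear_combination hXW) (by linear_combination hXY) (by linear_combination hWY)
    (by linear_combination hXZ) (by linear_combination hWZ) hYY hZZ (by linear_combination hYZ)
  rcases hcore with ⟨a, d, had, hy00, hy01, hy10, hy11, hz00, hz01, hz10, hz11⟩ |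
    ⟨b, c, hbc, hy00, hy01, hy10, hy11, hz00, hz01, hz10, hz11⟩
  · left
    refine ⟨!![x0, d*u0; x1, d*u1], !![y0, a*v0; y1, a*v1], ?_⟩
    ext ⟨i, j⟩ ⟨a₀, c₀⟩
    fin_cases i <;> fin_cases j <;> fin_cases a₀ <;> fin_cases c₀ <;>
      simp [kroneckerMap_apply] <;>
      first
        | linear_combination hx00 | linear_combination hx01 | linear_combination hx10
        | linear_combination hx11 | linear_combination hy00 | linear_combination hy01
        | linear_combination hy10 | linear_combination hy11 | linear_combination hz00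
        | linear_combination hz01 | linear_combination hz10 | linear_combination hz11
        | linear_combination hw00 - (u0*v0) * had | linear_combination hw01 - (u0*v1) * had
        | linear_combination hw10 - (u1*v0) * had | linear_combination hw11 - (u1*v1) * had
  · right
    have hBeq : B = ((!![x0, b*u0; x1, b*u1] : Matrix (Fin 2) (Fin 2) F) ⊗ₖ
        (!![y0, c*v0; y1, c*v1] : Matrix (Fin 2) (Fin 2) F)).submatrix id
          (Equiv.prodComm (Fin 2) (Fin 2)) := by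
      ext ⟨i, j⟩ ⟨a₀, c₀⟩
      fin_cases i <;> fin_cases j <;> fin_cases a₀ <;> fin_cases c₀ <;>
        simp [kroneckerMap_apply] <;>
        first
          | linear_combination hx00 | linear_combination hx01 | linear_combination hx10
          | linear_combination hx11 | linear_combination hy00 | linear_combination hy01
          | linear_combination hy10 | linear_combination hy11 | linear_combination hz00
          | linear_combination hz01 | linear_combination hz10 | linear_combination hz11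
          | linear_combination hw00 - (u0*v0) * hbc | linear_combination hw01 - (u0*v1) * hbc
          | linear_combination hw10 - (u1*v0) * hbc | linear_combination hw11 - (u1*v1) * hbc
    have hsign : Equiv.Perm.sign (Equiv.prodComm (Fin 2) (Fin 2)) = -1 := by decide
    rw [hBeq, Matrix.det_permute', hsign, Matrix.det_kronecker, Matrix.det_fin_two_of,
      Matrix.det_fin_two_of]
    simp only [Fintype.card_fin]
    push_cast
    have hμ' : μ = (x0 * (b*u1) - b*u0 * x1) * (y0 * (c*v1) - c*v0 * y1) := by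
      linear_combination (-1 : F) * hXW + (-(x0*u1 - u0*x1) * (y0*v1 - v0*y1)) * hbc
    rw [hμ']
    ring

end Cfsg.Agent.Helper61
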