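import Mathlib
import Cfsg.Agent.Helper79.S4705Defs
import Cfsg.Agent.Helper5.SLCard
import Cfsg.Agent.S0996

/-!
helper61: piece IDENT of CALL S4705 (helper79) - a perfect group `H` of order `p (p - 1) (p - 2)`, `p > 5`,
with trivial centre and a self-centralising inverted element of order `p` is `SL(2, 2^a)` with `p = 2^a + 1`
(via S0996 = Brauer's theorem on groups with few Sylow `p`-subgroups).
-/

set_option autoImplicit false
open Cfsg

universe u

namespace Cfsg.Agent.Helper61

/-- The number of Sylow `p`-subgroups is at most `(p - 1) (p - 2) / 2`. -/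
theorem s4705_ident_syl {H : Type u} [Group H] [Finite H] (p : ℕ) [Fact p.Prime] (hp : 5 < p)
    (x : H) (hx : orderOf x = p) (hinv : ∃ t : H, t * x * t⁻¹ = x⁻¹)
    (hcard : Nat.card H = p * (p - 1) * (p - 2)) :
    2 * Nat.card (Sylow p H) < (p + 1) * (p + 2) := by
  have hpp : p.Prime := Fact.out
  obtain ⟨t, ht⟩ := hinv
  have hPcard : Nat.card (Subgroup.zpowers x) = p := by rw [Nat.card_zpowers, hx]
  have hPgrp : IsPGroup p (Subgroup.zpowers x) :=
    IsPGroup.of_card (n := 1) (by rw [hPcard, pow_one])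
  obtain ⟨Q, hQ⟩ := hPgrp.exists_le_sylow
  obtain ⟨n, hn⟩ := IsPGroup.iff_card.mp Q.isPGroup'
  have hQdvd : Nat.card (Q : Subgroup H) ∣ Nat.card H := Subgroup.card_subgroup_dvd_card _
  have hPQ : Nat.card (Subgroup.zpowers x) ∣ Nat.card (Q : Subgroup H) :=
    Subgroup.card_dvd_of_le hQ
  have hn1 : n = 1 := by
    rw [hn] at hQdvd hPQ
    rw [hPcard] at hPQ
    have h1 : n ≠ 0 := by
      rintro rfl
      rw [pow_zero, Nat.dvd_one] at hPQ
      omega
    by_contra h2
    have h3 : p ^ 2 ∣ p ^ n := pow_dvd_pow p (by omega)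
    have h4 : p ^ 2 ∣ p * (p - 1) * (p - 2) := by
      rw [← hcard]
      exact h3.trans hQdvd
    have h5 : p ∣ (p - 1) * (p - 2) := by
      rw [sq, mul_assoc] at h4
      exact Nat.dvd_of_mul_dvd_mul_left hpp.pos h4
    rcases (Nat.Prime.dvd_mul hpp).mp h5 with h6 | h6
    · exact absurd (Nat.le_of_dvd (by omega) h6) (by omega)
    · exact absurd (Nat.le_of_dvd (by omega) h6) (by omega)
  have hQP : Subgroup.zpowers x = (Q : Subgroup H) := by
    apply Subgroup.eq_of_le_of_card_ge hQ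
    rw [hn, hn1, pow_one, hPcard]
  have hx' : x = t * x⁻¹ * t⁻¹ := by
    have h1 := congrArg (·⁻¹) ht
    simp only [mul_inv_rev, inv_inv] at h1
    rw [← mul_assoc] at h1
    exact h1.symm
  have ht' : t⁻¹ * x * t = x⁻¹ := by
    conv_lhs => rw [hx']
    group
  have htN : t ∈ Subgroup.normalizer ((Subgroup.zpowers x : Subgroup H) : Set H) := by
    rw [Subgroup.mem_normalizer_iff]
    intro h
    constructor
    · rintro ⟨k, rfl⟩
      refine ⟨-k, ?_⟩
      show x ^ (-k) = t * x ^ k * t⁻¹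
      rw [← conj_zpow, ht, inv_zpow, zpow_neg]
    · rintro ⟨k, hk⟩
      refine ⟨-k, ?_⟩
      show x ^ (-k) = h
      have hk' : x ^ k = t * h * t⁻¹ := hk
      have h1 : h = t⁻¹ * x ^ k * t := by
        rw [hk']
        group
      have e : t⁻¹ * x ^ k * t = (t⁻¹ * x * t) ^ k := by
        have h2 := conj_zpow (a := t⁻¹) (b := x) (i := k)
        rw [inv_inv] at h2
        exact h2.symm
      rw [h1, e, ht', inv_zpow, zpow_neg]
  have hidx : Nat.card (Sylow p H) = (Subgroup.normalizer ((Q : Subgroup H) : Set H)).index :=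
    Sylow.card_eq_index_normalizer Q
  rw [← hQP] at hidx
  obtain ⟨N, hNdef⟩ : ∃ N, N = Subgroup.normalizer ((Subgroup.zpowers x : Subgroup H) : Set H) :=
    ⟨_, rfl⟩
  rw [← hNdef] at hidx htN
  have hPN : Subgroup.zpowers x ≤ N := by
    rw [hNdef]
    exact Subgroup.le_normalizer
  have hmul := Subgroup.index_mul_card N
  obtain ⟨k, hk⟩ := Subgroup.card_dvd_of_le hPN
  rw [hPcard] at hk
  have hk0 : k ≠ 0 := by
    rintro rfl
    rw [mul_zero] at hk
    exact (Nat.card_pos (α := N)).ne' hk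
  have hk1 : k ≠ 1 := by
    rintro rfl
    rw [mul_one] at hk
    have hEq : Subgroup.zpowers x = N :=
      Subgroup.eq_of_le_of_card_ge hPN (by rw [hk, hPcard])
    have htP : t ∈ Subgroup.zpowers x := by
      rw [hEq]
      exact htN
    obtain ⟨j, rfl⟩ := htP
    have h1 : x ^ j * x * (x ^ j)⁻¹ = x := by
      rw [(Commute.zpow_left (Commute.refl x) j).eq, mul_inv_cancel_right]
    have ht2 : x = x⁻¹ := h1.symm.trans ht
    have h2 : x ^ 2 = 1 := by
      rw [sq]
      nth_rewrite 2 [ht2]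
      exact mul_inv_cancel x
    have h3 := orderOf_dvd_of_pow_eq_one h2
    rw [hx] at h3
    have h4 := Nat.le_of_dvd (by norm_num) h3
    omega
  rw [hk, hcard, ← hidx] at hmul
  have h7 : Nat.card (Sylow p H) * k = (p - 1) * (p - 2) := by
    apply Nat.eq_of_mul_eq_mul_left hpp.pos
    rw [← mul_assoc p (p - 1), ← hmul]
    ring
  have h8 : 2 * Nat.card (Sylow p H) ≤ (p - 1) * (p - 2) := by
    rw [← h7, mul_comm 2]
    exact Nat.mul_le_mul_left _ (by omega)
  have h9 : (p - 1) * (p - 2) < (p + 1) * (p + 2) :=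
    Nat.mul_lt_mul'' (by omega) (by omega)
  omega

/-- PIECE IDENT. -/
theorem s4705_ident {H : Type u} [Group H] [Finite H] (p : ℕ) [Fact p.Prime] (hp : 5 < p)
    (x : H) (hx : orderOf x = p) (hperf : commutator H = ⊤)
    (hZ : Subgroup.center H = ⊥)
    (hcent : ∀ g : H, g * x = x * g → ∃ i : ℕ, ∃ z ∈ Subgroup.center H, g = x ^ i * z)
    (hinv : ∃ t : H, t * x * t⁻¹ = x⁻¹)
    (hcard : Nat.card H = p * (p - 1) * (p - 2)) :
    ∃ (a : ℕ) (F : Type) (_ : Field F) (_ : Fintype F), p = 2 ^ a + 1 ∧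
      Fintype.card F = 2 ^ a ∧ Nonempty (H ≃* Matrix.SpecialLinearGroup (Fin 2) F) := by
  have hpp : p.Prime := Fact.out
  have hC : Subgroup.centralizer ({x} : Set H) = Subgroup.zpowers x := by
    apply le_antisymm
    · intro g hg
      rw [Subgroup.mem_centralizer_singleton_iff] at hg
      obtain ⟨i, z, hz, rfl⟩ := hcent g hg
      rw [hZ, Subgroup.mem_bot] at hz
      rw [hz, mul_one]
      exact Subgroup.pow_mem _ (Subgroup.mem_zpowers x) i
    · rw [Subgroup.zpowers_le, Subgroup.mem_centralizer_singleton_iff]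
  have hn := s4705_ident_syl p hp x hx hinv hcard
  rcases Cfsg.Agent.S0996.result hperf p x hx hC hn with
    ⟨F, iF, iFt, hcF, -, ⟨e⟩⟩ | ⟨m, F, iF, iFt, hcF, hpm, -, ⟨e⟩⟩
  · exfalso
    have h1 := Cfsg.Agent.Helper5.card_PSL2_mul (F := F)
    rw [← Nat.card_congr e.toEquiv, hcard, hcF] at h1
    obtain ⟨k, rfl⟩ : ∃ k, p = k + 6 := ⟨p - 6, by omega⟩
    have e1 : k + 6 - 1 = k + 5 := by omega
    have e2 : k + 6 - 2 = k + 4 := by omega
    have e3 : (k + 6) ^ 2 - 1 = (k + 5) * (k + 7) := by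
      have h2 : (k + 6) ^ 2 = (k + 5) * (k + 7) + 1 := by ring
      omega
    rw [e1, e2, e3] at h1
    generalize Nat.card (Subgroup.center (Matrix.SpecialLinearGroup (Fin 2) F)) = z at h1
    have h2 : (k + 4) * z = k + 7 := by
      have h3 : (k + 6) * (k + 5) * ((k + 4) * z) = (k + 6) * (k + 5) * (k + 7) := by
        calc (k + 6) * (k + 5) * ((k + 4) * z) = (k + 6) * (k + 5) * (k + 4) * z := by ring
          _ = (k + 6) * ((k + 5) * (k + 7)) := h1
          _ = (k + 6) * (k + 5) * (k + 7) := by ring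
      exact Nat.eq_of_mul_eq_mul_left (by positivity) h3
    rcases z with _ | _ | z
    · omega
    · omega
    · nlinarith
  · have hm0 : m ≠ 0 := by
      rintro rfl
      rw [pow_zero] at hpm
      omega
    have h2 : (2 : F) = 0 := by
      have h3 : ((Fintype.card F : ℕ) : F) = 0 := Nat.cast_card_eq_zero F
      rw [hcF, Nat.cast_pow, Nat.cast_ofNat] at h3
      exact pow_eq_zero_iff hm0 |>.mp h3
    have hZF := Cfsg.Agent.Helper5.center_SL2_eq_bot h2
    exact ⟨m, F, iF, iFt, hpm, hcF,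
      ⟨e.trans ((QuotientGroup.quotientMulEquivOfEq hZF).trans QuotientGroup.quotientBot)⟩⟩

end Cfsg.Agent.Helper61
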