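import Cfsg.Agent.Helper67.S77Defs

/-!
helper61: piece F14a of CALL S0429 (helper67) - two lines `L ≠ L'` through `x`, `v ∈ L`, `w ∈ L'` with
`t3 x v w = 1`: then `w` is adjacent to no member of `L`.
-/

set_option autoImplicit false

namespace Cfsg.Agent.Helper61.S77F14a

open Cfsg.Agent.Helper67.S77

variable {V : Type*} [Fintype V] [DecidableEq V] {G : SimpleGraph V} [DecidableRel G.Adj]

theorem p_F14a (hG : G.IsSRGWith 77 16 0 4) (h4 : F4 G) (h11 : F11 G) (h12 : F12 G) :
    F14a G := by
  intro L L' hL hL' hne x hxL hxL' v hv w hw hvx hwx ht u hu hadj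
  have hwL : w ∉ L := by
    intro h
    exact hne ((h11 L hL x hxL w h (Ne.symm hwx)).trans
      (h11 L' hL' x hxL' w hw (Ne.symm hwx)).symm)
  have hxw : ¬ G.Adj x w := hL'.2.1 x hxL' w hw
  have hNA : NA G x w := ⟨Ne.symm hwx, hxw⟩
  have hM : (G.neighborFinset x ∩ G.neighborFinset w).card = 4 := card_common hG hNA
  have hwv : ¬ G.Adj w v := by
    intro h
    have h1 : 0 < t3 G x v w := by
      rw [ht]
      exact Nat.one_pos
    unfold t3 at h1
    obtain ⟨a, ha⟩ := Finset.card_pos.mp h1
    simp only [Finset.mem_inter, SimpleGraph.mem_neighborFinset] at ha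
    exact tri_free hG ha.1.2.symm ha.2.symm h.symm
  have hNw : (L.filter (fun z => G.Adj w z)).card = 2 := h12 L hL u hu w hadj
  have hsum : ∑ z ∈ L, t3 G x w z = 8 := by
    have e1 : ∀ c, t3 G x w c =
        ∑ a ∈ G.neighborFinset x ∩ G.neighborFinset w, if G.Adj a c then 1 else 0 := by
      intro c
      rw [← Finset.card_filter]
      unfold t3
      congr 1
      ext a
      simp only [Finset.mem_inter, Finset.mem_filter, SimpleGraph.mem_neighborFinset]
      constructor
      · rintro ⟨h1, h2⟩
        exact ⟨h1, h2.symm⟩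
      · rintro ⟨h1, h2⟩
        exact ⟨h1, h2.symm⟩
    simp_rw [e1]
    rw [Finset.sum_comm]
    simp_rw [← Finset.card_filter]
    have e2 : ∀ a ∈ G.neighborFinset x ∩ G.neighborFinset w,
        (L.filter (fun c => G.Adj a c)).card = 2 := by
      intro a ha
      rw [Finset.mem_inter, SimpleGraph.mem_neighborFinset, SimpleGraph.mem_neighborFinset] at ha
      exact h12 L hL x hxL a ha.1.symm
    rw [Finset.sum_congr rfl e2]
    simp [hM]
  have hbound : ∀ z ∈ L, t3 G x w z ≤ (if z = x then 4 else 0) + (if z = v then 1 else 0) +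
      2 * (if (z ≠ x ∧ z ≠ v ∧ ¬ G.Adj w z) then 1 else 0) := by
    intro z hz
    by_cases h1 : z = x
    · subst h1
      have h5 : t3 G z w z ≤ 4 := by
        rw [← hM]
        unfold t3
        exact Finset.card_le_card Finset.inter_subset_left
      rw [if_pos rfl]
      omega
    · by_cases h2 : z = v
      · subst h2
        rw [t3_comm23, ht, if_neg h1, if_pos rfl]
        omega
      · by_cases h3 : G.Adj w z
        · have h5 : t3 G x w z = 0 := by
            unfold t3
            rw [Finset.card_eq_zero, Finset.eq_empty_iff_forall_notMem]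
            intro a ha
            simp only [Finset.mem_inter, SimpleGraph.mem_neighborFinset] at ha
            exact tri_free hG ha.1.2 h3 ha.2.symm
          rw [h5]
          exact Nat.zero_le _
        · have hzR : z ∈ Rs G x w :=
            mem_Rs.mpr ⟨h1, fun e => hwL (e ▸ hz), hL.2.1 x hxL z hz, h3⟩
          have h5 := h4 x w hNA z hzR
          rw [if_neg h1, if_neg h2, if_pos ⟨h1, h2, h3⟩]
          omega
  have hcnt : (L.filter (fun z => z ≠ x ∧ z ≠ v ∧ ¬ G.Adj w z)).card = 1 := by
    have e : L.filter (fun z => z ≠ x ∧ z ≠ v ∧ ¬ G.Adj w z) =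
        ((L.filter (fun z => ¬ G.Adj w z)).erase x).erase v := by
      ext z
      simp only [Finset.mem_filter, Finset.mem_erase]
      tauto
    have h3 : (L.filter (fun z => ¬ G.Adj w z)).card = 3 := by
      have h5 := Finset.card_filter_add_card_filter_not (s := L) (fun z => G.Adj w z)
      rw [hNw, hL.1] at h5
      omega
    rw [e, Finset.card_erase_of_mem, Finset.card_erase_of_mem, h3]
    · exact Finset.mem_filter.mpr ⟨hxL, fun h => hxw h.symm⟩
    · exact Finset.mem_erase.mpr ⟨hvx, Finset.mem_filter.mpr ⟨hv, hwv⟩⟩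
  have hfin : ∑ z ∈ L, t3 G x w z ≤ 7 := by
    refine (Finset.sum_le_sum hbound).trans ?_
    rw [Finset.sum_add_distrib, Finset.sum_add_distrib, Finset.sum_ite_eq', Finset.sum_ite_eq',
      if_pos hxL, if_pos hv, ← Finset.mul_sum, ← Finset.card_filter, hcnt]
    norm_num
  omega

end Cfsg.Agent.Helper61.S77F14a
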