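import Cfsg.Agent.Helper67.S77Defs

/-!
helper61: piece F15 of CALL S0429 (helper67) - the Hoffman count for a coclique with 21 vertices in a strongly
regular graph with parameters (77, 16, 0, 4): every vertex outside has exactly 6 neighbours in it.
-/

set_option autoImplicit false

namespace Cfsg.Agent.Helper61.S77F15

open Cfsg.Agent.Helper67.S77

variable {V : Type*} [Fintype V] [DecidableEq V] {G : SimpleGraph V} [DecidableRel G.Adj]

theorem p_F15 (hG : G.IsSRGWith 77 16 0 4) : F15 G := by
  intro C hC v hv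
  obtain ⟨hcard, hco⟩ := hC
  have hD : (Cᶜ).card = 56 := by rw [Finset.card_compl, card_V hG, hcard]
  have key1 : ∀ c ∈ C, (Cᶜ.filter (fun w => G.Adj w c)) = G.neighborFinset c := by
    intro c hc
    ext w
    simp only [Finset.mem_filter, Finset.mem_compl, SimpleGraph.mem_neighborFinset]
    constructor
    · rintro ⟨_, h⟩
      exact h.symm
    · intro h
      exact ⟨fun hw => hco c hc w hw h, h.symm⟩
  have S1 : ∑ w ∈ Cᶜ, ((C.filter (fun c => G.Adj w c)).card : ℤ) = 336 := by
    have h1 : ∑ w ∈ Cᶜ, (C.filter (fun c => G.Adj w c)).card = 336 := by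
      simp_rw [Finset.card_filter]
      rw [Finset.sum_comm]
      simp_rw [← Finset.card_filter]
      rw [Finset.sum_congr rfl (fun c hc => by rw [key1 c hc, card_nbr hG])]
      simp [hcard]
    exact_mod_cast h1
  have key2 : ∀ c ∈ C, ∀ c' ∈ C,
      (Cᶜ.filter (fun w => G.Adj w c ∧ G.Adj w c')).card = if c = c' then 16 else 4 := by
    intro c hc c' hc'
    have e : Cᶜ.filter (fun w => G.Adj w c ∧ G.Adj w c') =
        G.neighborFinset c ∩ G.neighborFinset c' := by
      ext w
      simp only [Finset.mem_filter, Finset.mem_compl, Finset.mem_inter,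
        SimpleGraph.mem_neighborFinset]
      constructor
      · rintro ⟨_, h1, h2⟩
        exact ⟨h1.symm, h2.symm⟩
      · rintro ⟨h1, h2⟩
        exact ⟨fun hw => hco c hc w hw h1, h1.symm, h2.symm⟩
    rw [e]
    split_ifs with h
    · subst h
      rw [Finset.inter_self, card_nbr hG]
    · exact card_common hG ⟨h, hco c hc c' hc'⟩
  have e2 : ∀ c ∈ C, ∑ c' ∈ C, (if c = c' then 16 else 4) = 96 := by
    intro c hc
    have h1 : ∀ c' ∈ C, (if c = c' then (16 : ℕ) else 4) = 4 + (if c = c' then 12 else 0) := by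
      intro c' _
      split_ifs <;> rfl
    rw [Finset.sum_congr rfl h1, Finset.sum_add_distrib, Finset.sum_ite_eq, if_pos hc]
    simp [hcard]
  have S2 : ∑ w ∈ Cᶜ, ((C.filter (fun c => G.Adj w c)).card : ℤ) ^ 2 = 2016 := by
    have h1 : ∑ w ∈ Cᶜ, (C.filter (fun c => G.Adj w c)).card ^ 2 = 2016 := by
      have e1 : ∀ w, (C.filter (fun c => G.Adj w c)).card ^ 2 =
          ∑ c ∈ C, ∑ c' ∈ C, if (G.Adj w c ∧ G.Adj w c') then 1 else 0 := by
        intro w
        rw [sq, Finset.card_filter, Finset.sum_mul_sum]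
        refine Finset.sum_congr rfl fun c _ => Finset.sum_congr rfl fun c' _ => ?_
        by_cases h1 : G.Adj w c <;> by_cases h2 : G.Adj w c' <;> simp [h1, h2]
      simp_rw [e1]
      rw [Finset.sum_comm]
      rw [Finset.sum_congr rfl (fun c hc => Finset.sum_comm)]
      simp_rw [← Finset.card_filter]
      rw [Finset.sum_congr rfl (fun c hc => Finset.sum_congr rfl (fun c' hc' => key2 c hc c' hc'))]
      rw [Finset.sum_congr rfl e2]
      simp [hcard]
    exact_mod_cast h1
  have S3 : ∑ w ∈ Cᶜ, (((C.filter (fun c => G.Adj w c)).card : ℤ) - 6) ^ 2 = 0 := by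
    have h1 : ∀ w, (((C.filter (fun c => G.Adj w c)).card : ℤ) - 6) ^ 2 =
        ((C.filter (fun c => G.Adj w c)).card : ℤ) ^ 2 -
          12 * ((C.filter (fun c => G.Adj w c)).card : ℤ) + 36 := by
      intro w
      ring
    simp_rw [h1]
    rw [Finset.sum_add_distrib, Finset.sum_sub_distrib, ← Finset.mul_sum, S1, S2]
    simp [hD]
  have S4 := (Finset.sum_eq_zero_iff_of_nonneg (fun w _ => sq_nonneg _)).mp S3 v
    (Finset.mem_compl.mpr hv)
  have S5 : ((C.filter (fun c => G.Adj v c)).card : ℤ) - 6 = 0 := by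
    exact pow_eq_zero_iff (two_ne_zero) |>.mp S4
  omega

end Cfsg.Agent.Helper61.S77F15
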