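import Cfsg.Agent.Helper67.S77Defs

/-!
helper61: piece F16 of CALL S0429 (helper67) - a coclique with 21 vertices through two vertices `x, y` contains
the three vertices parallel to `x, y` and exactly 16 of the vertices with one common neighbour with `x, y`.
-/

set_option autoImplicit false

namespace Cfsg.Agent.Helper61.S77F16

open Cfsg.Agent.Helper67.S77

variable {V : Type*} [Fintype V] [DecidableEq V] {G : SimpleGraph V} [DecidableRel G.Adj]

theorem p_F16 (hG : G.IsSRGWith 77 16 0 4) (h4 : F4 G) (h5 : F5 G) (h15 : F15 G) : F16 G := by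
  intro C hC x hx y hy hxy
  have hC' := hC
  obtain ⟨hcard, hco⟩ := hC
  have hNA : NA G x y := ⟨hxy, hco x hx y hy⟩
  obtain ⟨C', hC'def⟩ : ∃ C', C' = (C.erase x).erase y := ⟨_, rfl⟩
  have hmemC' : ∀ z, z ∈ C' ↔ z ≠ y ∧ z ≠ x ∧ z ∈ C := by
    intro z
    rw [hC'def]
    simp [Finset.mem_erase]
  have hcardC' : C'.card = 19 := by
    rw [hC'def, Finset.card_erase_of_mem (Finset.mem_erase.mpr ⟨hxy.symm, hy⟩),
      Finset.card_erase_of_mem hx, hcard]
  have hsub : C' ⊆ Rs G x y := by
    intro z hz
    obtain ⟨h1, h2, h3⟩ := (hmemC' z).mp hz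
    exact mem_Rs.mpr ⟨h2, h1, hco x hx z h3, hco y hy z h3⟩
  have ht2 : ∀ z ∈ C', t3 G x y z ≤ 2 := fun z hz => h4 x y hNA z (hsub hz)
  have hM : (G.neighborFinset x ∩ G.neighborFinset y).card = 4 := card_common hG hNA
  have hsum : ∑ c ∈ C', t3 G x y c = 16 := by
    have e1 : ∀ c, t3 G x y c =
        ∑ a ∈ G.neighborFinset x ∩ G.neighborFinset y, if G.Adj a c then 1 else 0 := by
      intro c
      rw [← Finset.card_filter]
      unfold t3
      congr 1
      ext a
      simp only [Finset.mem_inter, Finset.mem_filter, SimpleGraph.mem_neighborFinset]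
      constructor
      · rintro ⟨h1, h2⟩
        exact ⟨h1, h2.symm⟩
      · rintro ⟨h1, h2⟩
        exact ⟨h1, h2.symm⟩
    simp_rw [e1]
    rw [Finset.sum_comm]
    simp_rw [← Finset.card_filter]
    have e2 : ∀ a ∈ G.neighborFinset x ∩ G.neighborFinset y,
        (C'.filter (fun c => G.Adj a c)).card = 4 := by
      intro a ha
      rw [Finset.mem_inter, SimpleGraph.mem_neighborFinset, SimpleGraph.mem_neighborFinset] at ha
      have haC : a ∉ C := fun h => hco x hx a h ha.1
      have h6 := h15 C hC' a haC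
      have e3 : C'.filter (fun c => G.Adj a c) =
          ((C.filter (fun c => G.Adj a c)).erase x).erase y := by
        ext z
        simp only [Finset.mem_filter, Finset.mem_erase, hmemC']
        tauto
      rw [e3, Finset.card_erase_of_mem, Finset.card_erase_of_mem, h6]
      · exact Finset.mem_filter.mpr ⟨hx, ha.1.symm⟩
      · exact Finset.mem_erase.mpr ⟨hxy.symm, Finset.mem_filter.mpr ⟨hy, ha.2.symm⟩⟩
    rw [Finset.sum_congr rfl e2]
    simp [hM]
  have hcnt1 : (C'.filter (fun z => t3 G x y z = 0)).card +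
      (C'.filter (fun z => t3 G x y z = 1)).card + (C'.filter (fun z => t3 G x y z = 2)).card = 19 := by
    rw [← hcardC', Finset.card_filter, Finset.card_filter, Finset.card_filter,
      ← Finset.sum_add_distrib, ← Finset.sum_add_distrib, Finset.card_eq_sum_ones]
    refine Finset.sum_congr rfl fun z hz => ?_
    have h2 := ht2 z hz
    have h3 : t3 G x y z = 0 ∨ t3 G x y z = 1 ∨ t3 G x y z = 2 := by omega
    rcases h3 with h | h | h <;> simp [h]
  have hcnt2 : (C'.filter (fun z => t3 G x y z = 1)).card +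
      2 * (C'.filter (fun z => t3 G x y z = 2)).card = 16 := by
    rw [← hsum, Finset.card_filter, Finset.card_filter, Finset.mul_sum, ← Finset.sum_add_distrib]
    refine Finset.sum_congr rfl fun z hz => ?_
    have h2 := ht2 z hz
    have h3 : t3 G x y z = 0 ∨ t3 G x y z = 1 ∨ t3 G x y z = 2 := by omega
    rcases h3 with h | h | h <;> simp [h]
  have hA0 : C'.filter (fun z => t3 G x y z = 0) ⊆ Par G x y := by
    intro z hz
    rw [Finset.mem_filter] at hz
    exact mem_Par.mpr ⟨hsub hz.1, hz.2⟩
  have hP := h5 x y hNA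
  have hle := Finset.card_le_card hA0
  have hA0eq : C'.filter (fun z => t3 G x y z = 0) = Par G x y :=
    Finset.eq_of_subset_of_card_le hA0 (by omega)
  constructor
  · intro z hz
    rw [← hA0eq, Finset.mem_filter] at hz
    exact ((hmemC' z).mp hz.1).2.2
  · have e : ((Rs G x y).filter (fun z => t3 G x y z = 1)).filter (fun z => z ∈ C) =
        C'.filter (fun z => t3 G x y z = 1) := by
      ext z
      simp only [Finset.mem_filter, hmemC']
      constructor
      · rintro ⟨⟨h1, h2⟩, h3⟩
        obtain ⟨q1, q2, -, -⟩ := mem_Rs.mp h1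
        exact ⟨⟨q2, q1, h3⟩, h2⟩
      · rintro ⟨⟨q2, q1, h3⟩, h2⟩
        exact ⟨⟨hsub ((hmemC' z).mpr ⟨q2, q1, h3⟩), h2⟩, h3⟩
    rw [e]
    omega

end Cfsg.Agent.Helper61.S77F16
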