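import Mathlib
import Cfsg.Agent.Helper21.SMDefs

set_option autoImplicit false

namespace Cfsg.Agent.Helper61.SMH3

open Cfsg.Agent.Helper83 Cfsg.Agent.Helper21.SP Cfsg.Agent.Helper21.SM

variable {F : Type*} [Field F] {n : ℕ} {E : Type*} [Group E] {G : Type*} [Group G]

/-- PIECE H3: a unit which is not a cube root of unity. -/
theorem sm_h3 [Finite F] (h2 : Nat.card F ≠ 2) (h4 : Nat.card F ≠ 4) :
    ∃ c : F, c ≠ 0 ∧ c ^ 3 ≠ 1 := by
  classical
  haveI : Fintype F := Fintype.ofFinite F
  have hcF : Nat.card F = Fintype.card F := Nat.card_eq_fintype_card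
  rw [hcF] at h2 h4
  have hgt : 1 < Fintype.card F := Fintype.one_lt_card
  by_cases h3 : Fintype.card F = 3
  · -- c = -1
    have h3' : ((3 : ℕ) : F) = 0 := by
      rw [← h3]; exact Nat.cast_card_eq_zero F
    have h30 : (1 : F) + 1 + 1 = 0 := by
      have : ((3 : ℕ) : F) = 1 + 1 + 1 := by push_cast; ring
      rw [← this]; exact h3'
    refine ⟨-1, neg_ne_zero.mpr one_ne_zero, ?_⟩
    intro h'
    have hm : (-1 : F) = 1 := by
      have : (-1 : F) ^ 3 = -1 := by ring
      rw [this] at h'; exact h'
    have h20 : (1 : F) + 1 = 0 := by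
      calc (1 : F) + 1 = 1 + (-1) := by rw [hm]
        _ = 0 := by ring
    have : (1 : F) = 0 := by
      have h5 := h30
      rw [h20] at h5
      simpa using h5
    exact one_ne_zero this
  · have h5 : 5 ≤ Fintype.card F := by omega
    by_contra hcon
    push Not at hcon
    have hall : ∀ c : F, c ∈ insert (0 : F) (Polynomial.nthRoots 3 (1 : F)).toFinset := by
      intro c
      rw [Finset.mem_insert, Multiset.mem_toFinset, Polynomial.mem_nthRoots (by norm_num)]
      by_cases hc0 : c = 0
      · exact Or.inl hc0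
      · exact Or.inr (hcon c hc0)
    have huniv : (Finset.univ : Finset F) ⊆ insert (0 : F) (Polynomial.nthRoots 3 (1 : F)).toFinset :=
      fun c _ => hall c
    have h1 := Finset.card_le_card huniv
    have h2' : (insert (0 : F) (Polynomial.nthRoots 3 (1 : F)).toFinset).card ≤ 3 + 1 := by
      refine (Finset.card_insert_le _ _).trans ?_
      have := (Multiset.toFinset_card_le (Polynomial.nthRoots 3 (1 : F))).trans
        (Polynomial.card_nthRoots 3 (1 : F))
      omega
    rw [Finset.card_univ] at h1
    omega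

end Cfsg.Agent.Helper61.SMH3
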