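import Mathlib
import Cfsg.Agent.Helper21.SMDefs

set_option autoImplicit false

namespace Cfsg.Agent.Helper61.SMH4

open Cfsg.Agent.Helper83 Cfsg.Agent.Helper21.SP Cfsg.Agent.Helper21.SM

variable {F : Type*} [Field F] {n : ℕ} {E : Type*} [Group E] {G : Type*} [Group G]

/-- PIECE H4: a unit which is not a square root of unity. -/
theorem sm_h4 [Finite F] (h : 4 ≤ Nat.card F) : ∃ c : F, c ≠ 0 ∧ c ^ 2 ≠ 1 := by
  classical
  haveI : Fintype F := Fintype.ofFinite F
  have hc : 4 ≤ Fintype.card F := by rw [← Nat.card_eq_fintype_card]; exact h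
  by_contra hcon
  push Not at hcon
  -- every element is 0, 1 or -1
  have hall : ∀ c : F, c ∈ ({0, 1, -1} : Finset F) := by
    intro c
    simp only [Finset.mem_insert, Finset.mem_singleton]
    by_cases hc0 : c = 0
    · exact Or.inl hc0
    · have h2 := hcon c hc0
      have : (c - 1) * (c + 1) = 0 := by ring_nf; rw [h2]; ring
      rcases mul_eq_zero.mp this with h' | h'
      · exact Or.inr (Or.inl (sub_eq_zero.mp h'))
      · exact Or.inr (Or.inr (eq_neg_of_add_eq_zero_left h'))
  have huniv : (Finset.univ : Finset F) ⊆ {0, 1, -1} := fun c _ => hall c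
  have h1 := Finset.card_le_card huniv
  have h2 : ({0, 1, -1} : Finset F).card ≤ 3 := Finset.card_le_three
  rw [Finset.card_univ] at h1
  omega

end Cfsg.Agent.Helper61.SMH4
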