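-- helper61: in SU_4(3) the stabiliser of an orthonormal frame is not maximal: it preserves the 480
-- root vectors of 4 o 2^(1+4) (CALL S5784 piece FR, after helper64's SU6Frame).
import Cfsg.Agent.Helper64.SU3Base
import Cfsg.Agent.Helper97.UForm

set_option autoImplicit false
open Cfsg Cfsg.Geo Matrix

namespace Cfsg.Agent.Helper61

open Cfsg.Agent.Helper97 Cfsg.Agent.Helper64.SU3

variable {F : Type*} [Field F]

section roots

variable [DecidableEq F]

/-- two scalars have equal fourth powers, unless one of them vanishes. -/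
def su4Eq4 (a b : F) : Prop := a = 0 ∨ b = 0 ∨ a ^ 4 = b ^ 4

/-- the weight of a vector of length four, given by its coordinates. -/
def su4WtC (a b c d : F) : ℕ :=
  (if a = 0 then 0 else 1) + (if b = 0 then 0 else 1) + (if c = 0 then 0 else 1) +
    (if d = 0 then 0 else 1)

/-- the root predicate (the 480 root vectors of `4 ∘ 2^(1+4)` when `F` has nine elements). -/
def su4RootC (a b c d : F) : Prop :=
  su4Eq4 a b ∧ su4Eq4 a c ∧ su4Eq4 a d ∧ su4Eq4 b c ∧ su4Eq4 b d ∧ su4Eq4 c d ∧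
    (su4WtC a b c d = 1 ∨ su4WtC a b c d = 2 ∨
      (su4WtC a b c d = 4 ∧ (a * b * c * d) ^ 2 = 1))

instance su4Eq4_dec (a b : F) : Decidable (su4Eq4 a b) := by
  unfold su4Eq4
  infer_instance

instance su4RootC_dec (a b c d : F) : Decidable (su4RootC a b c d) := by
  unfold su4RootC
  infer_instance

/-- the root predicate on vectors. -/
def su4Root (v : Fin 4 → F) : Prop := su4RootC (v 0) (v 1) (v 2) (v 3)

instance su4Root_dec (v : Fin 4 → F) : Decidable (su4Root v) := by
  unfold su4Root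
  infer_instance

theorem su4Root_iff (x : Fin 4 → F) : su4Root x ↔
    (∀ i j, x i ≠ 0 → x j ≠ 0 → x i ^ 4 = x j ^ 4) ∧
      ((∑ i, if x i = 0 then 0 else 1) = 1 ∨ (∑ i, if x i = 0 then 0 else 1) = 2 ∨
        ((∑ i, if x i = 0 then 0 else 1) = 4 ∧ (∏ i, x i) ^ 2 = 1)) := by
  have hw : su4WtC (x 0) (x 1) (x 2) (x 3) = ∑ i, if x i = 0 then 0 else 1 := by
    rw [Fin.sum_univ_four]
    rfl
  have hp : x 0 * x 1 * x 2 * x 3 = ∏ i, x i := by rw [Fin.prod_univ_four]
  unfold su4Root su4RootC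
  rw [hw, hp]
  constructor
  · rintro ⟨h01, h02, h03, h12, h13, h23, hrest⟩
    refine ⟨?_, hrest⟩
    have key : ∀ a b : F, su4Eq4 a b → a ≠ 0 → b ≠ 0 → a ^ 4 = b ^ 4 := by
      intro a b h ha hb
      rcases h with h | h | h
      · exact absurd h ha
      · exact absurd h hb
      · exact h
    intro i j hi hj
    fin_cases i <;> fin_cases j <;>
      first
        | rfl
        | exact key _ _ h01 hi hj
        | exact key _ _ h02 hi hj
        | exact key _ _ h03 hi hj
        | exact key _ _ h12 hi hj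
        | exact key _ _ h13 hi hj
        | exact key _ _ h23 hi hj
        | exact (key _ _ h01 hj hi).symm
        | exact (key _ _ h02 hj hi).symm
        | exact (key _ _ h03 hj hi).symm
        | exact (key _ _ h12 hj hi).symm
        | exact (key _ _ h13 hj hi).symm
        | exact (key _ _ h23 hj hi).symm
  · rintro ⟨hall, hrest⟩
    have key : ∀ i j, su4Eq4 (x i) (x j) := by
      intro i j
      by_cases hi : x i = 0
      · exact Or.inl hi
      · by_cases hj : x j = 0
        · exact Or.inr (Or.inl hj)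
        · exact Or.inr (Or.inr (hall i j hi hj))
    exact ⟨key 0 1, key 0 2, key 0 3, key 1 2, key 1 3, key 2 3, hrest⟩

/-- Transfer of the root predicate along a homomorphism from the concrete field. -/
theorem su4Root_map (ψ : K9 →+* F) (u : Fin 4 → K9) :
    su4Root (fun i => ψ (u i)) ↔ su4Root u := by
  have hz : ∀ a : K9, ψ a = 0 ↔ a = 0 := fun a => map_eq_zero ψ
  have hp : ∀ a : K9, ψ a = 1 ↔ a = 1 := fun a => map_eq_one_iff ψ ψ.injective
  unfold su4Root su4RootC su4Eq4 su4WtC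
  simp only [hz, ← map_mul, ← map_pow, hp, ψ.injective.eq_iff]

/-- Monomial matrices with entries of norm one and determinant one preserve the roots. -/
theorem su4_monomial_root (M : Matrix (Fin 4) (Fin 4) F)
    (π : Equiv.Perm (Fin 4)) (d : Fin 4 → F) (hd : ∀ i, d i ^ 4 = 1)
    (hM : ∀ i, M *ᵥ Pi.single i 1 = d i • Pi.single (π i) 1) (hdet : M.det = 1)
    (x : Fin 4 → F) (hx : su4Root x) : su4Root (M *ᵥ x) := by
  have hd0 : ∀ i, d i ≠ 0 := by
    intro i h0
    have := hd i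
    rw [h0] at this
    simp at this
  have hent : ∀ j i, M j i = if j = π i then d i else 0 := by
    intro j i
    have h1 := congrFun (hM i) j
    rw [Matrix.mulVec_single_one] at h1
    rw [Matrix.col_apply] at h1
    rw [h1, Pi.smul_apply, Pi.single_apply, smul_eq_mul]
    split_ifs <;> simp
  have hval : ∀ i, (M *ᵥ x) (π i) = d i * x i := by
    intro i
    rw [Matrix.mulVec, dotProduct, Finset.sum_eq_single i]
    · rw [hent, if_pos rfl]
    · intro b _ hb
      rw [hent, if_neg (fun h => hb (π.injective h).symm), zero_mul]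
    · intro h
      exact absurd (Finset.mem_univ i) h
  have hprod : (∏ i, d i) ^ 2 = 1 := by
    have h1 : M.submatrix π id = Matrix.diagonal d := by
      ext i k
      rw [Matrix.submatrix_apply, id, hent, Matrix.diagonal_apply]
      by_cases hik : i = k
      · subst hik
        rw [if_pos rfl, if_pos rfl]
      · rw [if_neg (fun h => hik (π.injective h)), if_neg hik]
    have h3 := Matrix.det_permute π M
    rw [h1, Matrix.det_diagonal, hdet, mul_one] at h3
    rw [h3]
    rcases Int.units_eq_one_or (Equiv.Perm.sign π) with h | h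
    · rw [h]
      simp
    · rw [h]
      simp
  rw [su4Root_iff] at hx ⊢
  obtain ⟨hall, hrest⟩ := hx
  have hw : (∑ i, if (M *ᵥ x) i = 0 then 0 else 1) = ∑ i, if x i = 0 then 0 else 1 := by
    rw [← Equiv.sum_comp π]
    refine Finset.sum_congr rfl fun i _ => ?_
    rw [hval]
    simp only [mul_eq_zero, hd0 i, false_or]
  have hp : (∏ i, (M *ᵥ x) i) ^ 2 = (∏ i, x i) ^ 2 := by
    rw [← Equiv.prod_comp π]
    simp only [hval]
    rw [Finset.prod_mul_distrib, mul_pow, hprod, one_mul]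
  refine ⟨?_, ?_⟩
  · intro i' j' hi' hj'
    obtain ⟨i, rfl⟩ := π.surjective i'
    obtain ⟨j, rfl⟩ := π.surjective j'
    rw [hval] at hi' hj'
    rw [hval, hval, mul_pow, mul_pow, hd, hd, one_mul, one_mul]
    exact hall i j (right_ne_zero_of_mul hi') (right_ne_zero_of_mul hj')
  · rw [hw, hp]
    exact hrest

end roots

/-! ### Concrete data over the field with nine elements -/

/-- `c = 1 + i`, a primitive eighth root of unity of `K9`. -/
def su4c : K9 := ⟨1, 1⟩

/-- `c ^ 3 = 1 - i`. -/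
def su4c3 : K9 := ⟨1, 2⟩

/-- `i`. -/
def su4i : K9 := ⟨0, 1⟩

/-- the element `t1 = c H ⊕ c³ H` of `SU_4(3)`. -/
def su4T1 : Matrix (Fin 4) (Fin 4) K9 :=
  !![su4c, su4c, 0, 0; su4c, -su4c, 0, 0; 0, 0, su4c3, su4c3; 0, 0, su4c3, -su4c3]

/-- its inverse. -/
def su4T1i : Matrix (Fin 4) (Fin 4) K9 :=
  !![su4c3, su4c3, 0, 0; su4c3, -su4c3, 0, 0; 0, 0, su4c, su4c; 0, 0, su4c, -su4c]

set_option maxRecDepth 100000 in
theorem su4T1_inv : su4T1i * su4T1 = 1 := by decide +kernel

set_option maxRecDepth 100000 in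
theorem su4T1_unitary : su4T1.transpose * su4T1.map (fun x => x ^ 3) = 1 := by decide +kernel

set_option maxRecDepth 100000 in
theorem su4T1_det : su4T1.det = 1 := by decide +kernel

theorem su4T1_mulVec (a b c d : K9) : su4T1 *ᵥ ![a, b, c, d] =
    ![su4c * (a + b), su4c * (a - b), su4c3 * (c + d), su4c3 * (c - d)] := by
  funext i
  fin_cases i <;>
    simp [su4T1, Matrix.mulVec, dotProduct, Fin.sum_univ_four] <;> ring

theorem su4_K9_three : (1 + 1 + 1 : K9) = 0 := by decide +kernel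

theorem su4_K9_i : su4i ^ 3 = -su4i := by decide +kernel

theorem su4_K9_c_ne : su4c ≠ 0 := by decide +kernel

set_option maxRecDepth 100000 in
/-- `t1` preserves the roots and the non-roots (all 6561 vectors, checked by the kernel). -/
theorem su4_t1_root9 : ∀ a b c d : K9, su4RootC a b c d ↔
    su4RootC (su4c * (a + b)) (su4c * (a - b)) (su4c3 * (c + d)) (su4c3 * (c - d)) := by
  decide +kernel

theorem su4_not_root9 : ¬ su4Root ![1 + su4i, su4i, su4i, (0 : K9)] := by
  decide +kernel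

theorem su4_root9_example : su4Root ![(1 : K9), 0, 0, 0] := by
  decide +kernel

/-! ### Stabilisers -/

/-- The stabiliser in `GL` of a set of vectors. -/
def su4Stab (S : Set (Fin 4 → F)) : Subgroup (GL (Fin 4) F) where
  carrier := {g | ∀ v, v ∈ S ↔ (g : Matrix (Fin 4) (Fin 4) F) *ᵥ v ∈ S}
  mul_mem' := by
    intro a b ha hb v
    rw [Units.val_mul, ← Matrix.mulVec_mulVec, ← ha, ← hb]
  one_mem' := by
    intro v
    simp
  inv_mem' := by
    intro a ha v
    rw [ha (((a⁻¹ : GL (Fin 4) F) : Matrix (Fin 4) (Fin 4) F) *ᵥ v), Matrix.mulVec_mulVec,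
      ← Units.val_mul, mul_inv_cancel, Units.val_one, Matrix.one_mulVec]

theorem su4_inv_mulVec (g : GL (Fin 4) F) (v : Fin 4 → F) :
    ((g⁻¹ : GL (Fin 4) F) : Matrix (Fin 4) (Fin 4) F) *ᵥ
      ((g : Matrix (Fin 4) (Fin 4) F) *ᵥ v) = v := by
  rw [Matrix.mulVec_mulVec, ← Units.val_mul, inv_mul_cancel, Units.val_one, Matrix.one_mulVec]

theorem su4_mulVec_inv (g : GL (Fin 4) F) (v : Fin 4 → F) :
    (g : Matrix (Fin 4) (Fin 4) F) *ᵥ
      (((g⁻¹ : GL (Fin 4) F) : Matrix (Fin 4) (Fin 4) F) *ᵥ v) = v := by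
  rw [Matrix.mulVec_mulVec, ← Units.val_mul, mul_inv_cancel, Units.val_one, Matrix.one_mulVec]

theorem su4_conj_mem_SL (g t : GL (Fin 4) F) (ht : t ∈ specialLinear (Fin 4) F) :
    g * t * g⁻¹ ∈ specialLinear (Fin 4) F := by
  rw [specialLinear, MonoidHom.mem_ker] at ht ⊢
  rw [map_mul, map_mul, ht, mul_one, map_inv, mul_inv_cancel]

/-- PIECE FR of CALL S5784: in `SU_4(3)` a maximal subgroup does not stabilise an orthogonal frame
of four non-degenerate lines. -/
theorem su4_three_frame_false {F : Type*} [Field F] [Fintype F] (hF : Fintype.card F = 3 ^ 2)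
    (H : Subgroup (GL (Fin 4) F)) (hH : IsMaximalIn (GU 4 F 3 ⊓ specialLinear (Fin 4) F) H)
    (D : Fin 4 → Submodule F (Fin 4 → F))
    (hD : IsNondegenerateMDecomposition (hermForm 4 F 3) 1 D)
    (hle : H ≤ decompositionStabilizer D) : False := by
  classical
  obtain ⟨σ, hσ⟩ := exists_sigma hF
  have hS := hσ.isSesq (n := 4)
  have hc : Fintype.card K9 = Fintype.card F := by rw [hF]; exact su3_card_K9
  let ψ : K9 →+* F := (FiniteField.ringEquivOfCardEq hc).toRingHom
  have hψ : Function.Surjective ψ := (FiniteField.ringEquivOfCardEq hc).surjective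
  have h3 : (1 + 1 + 1 : F) = 0 := by
    have h1 := congrArg ψ su4_K9_three
    rwa [map_add, map_add, map_one, map_zero] at h1
  -- frame vectors of norm one
  have hex : ∀ i, ∃ w : Fin 4 → F, w ∈ D i ∧ hermForm 4 F 3 w w = 1 ∧
      ∀ x ∈ D i, ∃ c : F, c • w = x := by
    intro i
    obtain ⟨v, hv0, hv⟩ := finrank_eq_one_iff'.mp (hD.decomp.finrank_eq i)
    have hvne : (v : Fin 4 → F) ≠ 0 := fun h => hv0 (Subtype.ext h)
    have hspan : ∀ x ∈ D i, ∃ c : F, c • (v : Fin 4 → F) = x := by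
      intro x hx
      obtain ⟨c, hc⟩ := hv ⟨x, hx⟩
      exact ⟨c, congrArg Subtype.val hc⟩
    have hnv : hermForm 4 F 3 (v : Fin 4 → F) v ≠ 0 := by
      obtain ⟨⟨x, hx, hfx⟩, -⟩ := hD.nondegenerate i v v.2 hvne
      obtain ⟨c, rfl⟩ := hspan x hx
      intro h0
      apply hfx
      rw [hS.smul_left, h0, mul_zero]
    obtain ⟨l, hl⟩ := hσ.exists_norm_eq hF (hermForm 4 F 3 (v : Fin 4 → F) v)⁻¹
      (by rw [map_inv₀, hσ.herm_self_fixed]) (inv_ne_zero hnv)
    have hl0 : l ≠ 0 := by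
      rintro rfl
      rw [zero_mul] at hl
      exact inv_ne_zero hnv hl.symm
    refine ⟨l • (v : Fin 4 → F), (D i).smul_mem l v.2, ?_, ?_⟩
    · rw [hS.smul_left, hS.smul_right, ← mul_assoc, hl, inv_mul_cancel₀ hnv]
    · intro x hx
      obtain ⟨c, rfl⟩ := hspan x hx
      exact ⟨c * l⁻¹, by rw [smul_smul, mul_assoc, inv_mul_cancel₀ hl0, mul_one]⟩
  choose w hwD hnorm hwspan using hex
  have hw0 : ∀ i, w i ≠ 0 := by
    intro i h0
    have := hnorm i
    rw [h0, hS.zero_left] at this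
    exact zero_ne_one this
  have horth : ∀ i j, i ≠ j → hermForm 4 F 3 (w i) (w j) = 0 := fun i j hij =>
    hD.orthogonal i j hij (w i) (hwD i) (w j) (hwD j)
  -- the matrix of the frame
  set g0 : Matrix (Fin 4) (Fin 4) F := Matrix.of (fun k i => w i k) with hg0
  have key : g0ᵀ * g0.map σ = 1 := by
    ext i j
    rw [Matrix.mul_apply]
    have h1 : ∑ k, g0ᵀ i k * (g0.map σ) k j = hermForm 4 F 3 (w i) (w j) := by
      rw [hσ.herm_eq]
      rfl
    rw [h1, Matrix.one_apply]
    split_ifs with hij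
    · subst hij
      exact hnorm i
    · exact horth i j hij
  have key' : (g0.map σ)ᵀ * g0 = 1 := by
    have h1 := congrArg Matrix.transpose key
    rwa [Matrix.transpose_mul, Matrix.transpose_transpose, Matrix.transpose_one] at h1
  let g : GL (Fin 4) F := ⟨g0, (g0.map σ)ᵀ, mul_eq_one_comm.mp key', key'⟩
  have hgGU : g ∈ GU 4 F 3 := by
    intro a b
    have h1 := hσ.isSesq.similar_of_gram g0 1
      (by rw [hσ.gram_herm, mul_one, one_smul]; exact key) a b
    rw [one_mul] at h1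
    exact h1
  have hge : ∀ i, (g : Matrix (Fin 4) (Fin 4) F) *ᵥ Pi.single i 1 = w i := by
    intro i
    rw [Matrix.mulVec_single_one]
    rfl
  -- elements of the frame stabiliser act monomially
  have hmono : ∀ h : GL (Fin 4) F, h ∈ decompositionStabilizer D → h ∈ GU 4 F 3 →
      h ∈ specialLinear (Fin 4) F → ∀ x, su4Root x →
      su4Root (((g⁻¹ * h * g : GL (Fin 4) F) : Matrix (Fin 4) (Fin 4) F) *ᵥ x) := by
    intro h hh hhU hhS x hx
    obtain ⟨π, hπ⟩ := hh
    have hex : ∀ i, ∃ c : F, c • w (π i) = (h : Matrix (Fin 4) (Fin 4) F) *ᵥ w i := by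
      intro i
      have h1 : (h : Matrix (Fin 4) (Fin 4) F) *ᵥ w i ∈ D (π i) := by
        rw [← hπ i]
        exact Submodule.mem_map_of_mem (hwD i)
      exact hwspan (π i) _ h1
    choose d hd using hex
    have hd4 : ∀ i, d i ^ 4 = 1 := by
      intro i
      have h1 : hermForm 4 F 3 ((h : Matrix (Fin 4) (Fin 4) F) *ᵥ w i)
          ((h : Matrix (Fin 4) (Fin 4) F) *ᵥ w i) = hermForm 4 F 3 (w i) (w i) := hhU (w i) (w i)
      rw [← hd i, hS.smul_left, hS.smul_right, hnorm, hnorm, mul_one, hσ.pow] at h1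
      rw [← h1]
      ring
    refine su4_monomial_root _ π d hd4 ?_ ?_ x hx
    · intro i
      rw [Units.val_mul, Units.val_mul, ← Matrix.mulVec_mulVec, ← Matrix.mulVec_mulVec, hge,
        ← hd i, Matrix.mulVec_smul, ← hge (π i), su4_inv_mulVec]
    · have h3 : (h : Matrix (Fin 4) (Fin 4) F).det = 1 := by
        have h1 := hhS
        rw [specialLinear, MonoidHom.mem_ker] at h1
        simpa using congrArg Units.val h1
      rw [Units.val_mul, Units.val_mul, Matrix.det_mul, Matrix.det_mul, h3, mul_one,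
        ← Matrix.det_mul, ← Units.val_mul, inv_mul_cancel, Units.val_one, Matrix.det_one]
  set S : Set (Fin 4 → F) :=
    {v | su4Root (((g⁻¹ : GL (Fin 4) F) : Matrix (Fin 4) (Fin 4) F) *ᵥ v)} with hSdef
  have key1 : ∀ h ∈ H, ∀ v ∈ S, (h : Matrix (Fin 4) (Fin 4) F) *ᵥ v ∈ S := by
    intro h hh v hv
    have h3 := hmono h (hle hh) (hH.1.le hh).1 (hH.1.le hh).2 _ hv
    rw [Units.val_mul, Units.val_mul, ← Matrix.mulVec_mulVec, ← Matrix.mulVec_mulVec,
      su4_mulVec_inv] at h3
    exact h3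
  have hHL : H ≤ su4Stab S ⊓ (GU 4 F 3 ⊓ specialLinear (Fin 4) F) := by
    intro h hh
    refine ⟨fun v => ⟨key1 h hh v, fun hv => ?_⟩, hH.1.le hh⟩
    have h1 := key1 h⁻¹ (H.inv_mem hh) _ hv
    rwa [su4_inv_mulVec] at h1
  -- the element `t1`
  have hmap1 : (1 : Matrix (Fin 4) (Fin 4) K9).map ψ = 1 :=
    Matrix.map_one ψ (map_zero ψ) (map_one ψ)
  have hT1inv : su4T1i.map ψ * su4T1.map ψ = 1 := by
    rw [← Matrix.map_mul, su4T1_inv, hmap1]
  let tt : GL (Fin 4) F := ⟨su4T1.map ψ, su4T1i.map ψ, mul_eq_one_comm.mp hT1inv, hT1inv⟩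
  have httU : tt ∈ GU 4 F 3 := by
    have e1 : (su4T1.map ψ).map σ = (su4T1.map (fun x => x ^ 3)).map ψ := by
      ext i j
      simp only [Matrix.map_apply, hσ.pow, map_pow]
    have key2 : (su4T1.map ψ)ᵀ * (su4T1.map ψ).map σ = 1 := by
      rw [e1, ← Matrix.transpose_map, ← Matrix.map_mul, su4T1_unitary, hmap1]
    intro a b
    have h1 := hσ.isSesq.similar_of_gram (su4T1.map ψ) 1
      (by rw [hσ.gram_herm, mul_one, one_smul]; exact key2) a b
    rw [one_mul] at h1
    exact h1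
  have httS : tt ∈ specialLinear (Fin 4) F := by
    rw [specialLinear, MonoidHom.mem_ker]
    apply Units.ext
    rw [Matrix.GeneralLinearGroup.val_det_apply, Units.val_one]
    have h1 := RingHom.map_det ψ su4T1
    rw [su4T1_det, map_one] at h1
    exact h1.symm
  have httv : ∀ y : Fin 4 → F,
      su4Root ((tt : Matrix (Fin 4) (Fin 4) F) *ᵥ y) ↔ su4Root y := by
    intro y
    choose u hu using fun i => hψ (y i)
    have hy' : y = fun i => ψ (u i) := by
      funext i
      exact (hu i).symm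
    have hmv : (su4T1.map ψ) *ᵥ (fun i => ψ (u i)) = fun i => ψ ((su4T1 *ᵥ u) i) := by
      funext i
      exact (RingHom.map_mulVec ψ su4T1 u i).symm
    show su4Root ((su4T1.map ψ) *ᵥ y) ↔ su4Root y
    rw [hy', hmv, su4Root_map, su4Root_map]
    have hu4 : u = ![u 0, u 1, u 2, u 3] := by
      funext i
      fin_cases i <;> rfl
    rw [hu4, su4T1_mulVec]
    exact (su4_t1_root9 (u 0) (u 1) (u 2) (u 3)).symm
  set t1 : GL (Fin 4) F := g * tt * g⁻¹ with ht1
  have ht1G : t1 ∈ GU 4 F 3 ⊓ specialLinear (Fin 4) F :=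
    ⟨(GU 4 F 3).mul_mem ((GU 4 F 3).mul_mem hgGU httU) ((GU 4 F 3).inv_mem hgGU),
      su4_conj_mem_SL g tt httS⟩
  have ht1v : ∀ v, ((g⁻¹ : GL (Fin 4) F) : Matrix (Fin 4) (Fin 4) F) *ᵥ
      ((t1 : Matrix (Fin 4) (Fin 4) F) *ᵥ v)
      = (tt : Matrix (Fin 4) (Fin 4) F) *ᵥ
        (((g⁻¹ : GL (Fin 4) F) : Matrix (Fin 4) (Fin 4) F) *ᵥ v) := by
    intro v
    rw [ht1, Units.val_mul, Units.val_mul, ← Matrix.mulVec_mulVec, ← Matrix.mulVec_mulVec,
      su4_inv_mulVec]
  have ht1S : t1 ∈ su4Stab S := by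
    intro v
    show su4Root _ ↔ su4Root _
    rw [ht1v]
    exact (httv _).symm
  rcases hH.2 _ hHL inf_le_right with hL | hL
  · -- `t1` would lie in the frame stabiliser
    have ht1H : t1 ∈ H := by
      rw [← hL]
      exact ⟨ht1S, ht1G⟩
    obtain ⟨π, hπ⟩ := hle ht1H
    have h5 : (t1 : Matrix (Fin 4) (Fin 4) F) *ᵥ w 0 ∈ D (π 0) := by
      rw [← hπ 0]
      exact Submodule.mem_map_of_mem (hwD 0)
    obtain ⟨c, hc⟩ := hwspan (π 0) _ h5
    have h4 : ((g⁻¹ : GL (Fin 4) F) : Matrix (Fin 4) (Fin 4) F) *ᵥ (c • w (π 0))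
        = ((g⁻¹ : GL (Fin 4) F) : Matrix (Fin 4) (Fin 4) F) *ᵥ
          ((t1 : Matrix (Fin 4) (Fin 4) F) *ᵥ w 0) := by
      rw [hc]
    rw [Matrix.mulVec_smul, ← hge (π 0), su4_inv_mulVec, ht1v, ← hge 0, su4_inv_mulVec] at h4
    have hcol : ∀ k, ((tt : Matrix (Fin 4) (Fin 4) F) *ᵥ Pi.single 0 1) k = ψ (su4T1 k 0) := by
      intro k
      rw [Matrix.mulVec_single_one]
      rfl
    have e00 : su4T1 0 0 = su4c := rfl
    have e10 : su4T1 1 0 = su4c := rfl
    have hcne : ψ su4c ≠ 0 := (map_ne_zero ψ).mpr su4_K9_c_ne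
    by_cases hp : π 0 = 0
    · have h6 := congrFun h4 1
      rw [hp, hcol, e10, Pi.smul_apply, Pi.single_eq_of_ne (by decide), smul_zero] at h6
      exact hcne h6.symm
    · have h6 := congrFun h4 0
      rw [hcol, e00, Pi.smul_apply, Pi.single_eq_of_ne (Ne.symm hp), smul_zero] at h6
      exact hcne h6.symm
  · -- a transvection of `SU_4(3)` moving a root to a non-root
    obtain ⟨u2, hu2def⟩ : ∃ u2 : Fin 4 → F,
        u2 = fun i => ψ ((![1, 1, 1, 0] : Fin 4 → K9) i) := ⟨_, rfl⟩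
    have hu2 : hermForm 4 F 3 u2 u2 = 0 := by
      rw [hu2def]
      simp only [hermForm, Fin.sum_univ_four]
      simp only [Matrix.cons_val_zero, Matrix.cons_val_one, Matrix.cons_val, map_one, map_zero]
      simp only [one_pow, mul_one, zero_mul, add_zero]
      exact h3
    have hci : σ (ψ su4i) = -ψ su4i := by
      rw [hσ.pow, ← map_pow, su4_K9_i, map_neg]
    obtain ⟨t', ht'G, ht'v, -⟩ := hσ.exists_utv u2 hu2 (ψ su4i) hci
    set t2 : GL (Fin 4) F := g * t' * g⁻¹ with ht2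
    have ht2G : t2 ∈ GU 4 F 3 ⊓ specialLinear (Fin 4) F :=
      ⟨(GU 4 F 3).mul_mem ((GU 4 F 3).mul_mem hgGU ht'G.1) ((GU 4 F 3).inv_mem hgGU),
        su4_conj_mem_SL g t' ht'G.2⟩
    have ht2L : t2 ∈ su4Stab S ⊓ (GU 4 F 3 ⊓ specialLinear (Fin 4) F) := by
      rw [hL]
      exact ht2G
    obtain ⟨x0, hx0⟩ : ∃ x0 : Fin 4 → F,
        x0 = fun i => ψ ((![1, 0, 0, 0] : Fin 4 → K9) i) := ⟨_, rfl⟩
    have hx0r : su4Root x0 := by
      rw [hx0]
      exact (su4Root_map ψ _).mpr su4_root9_example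
    have hv : (g : Matrix (Fin 4) (Fin 4) F) *ᵥ x0 ∈ S := by
      show su4Root _
      rw [su4_inv_mulVec]
      exact hx0r
    have h6 := (ht2L.1 _).mp hv
    change su4Root _ at h6
    rw [ht2, Units.val_mul, Units.val_mul, ← Matrix.mulVec_mulVec, ← Matrix.mulVec_mulVec,
      su4_inv_mulVec, su4_inv_mulVec, ht'v] at h6
    have h5 : hermForm 4 F 3 x0 u2 = 1 := by
      rw [hx0, hu2def]
      simp [hermForm, Fin.sum_univ_four]
    have h4 : x0 + (ψ su4i * hermForm 4 F 3 x0 u2) • u2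
        = fun i => ψ ((![1 + su4i, su4i, su4i, 0] : Fin 4 → K9) i) := by
      rw [h5, mul_one, hx0, hu2def]
      funext i
      fin_cases i <;> simp
    rw [h4, su4Root_map] at h6
    exact su4_not_root9 h6

end Cfsg.Agent.Helper61
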