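import Mathlib
import Cfsg.Prelude.Def_Local
import Cfsg.Agent.Helper55.TwoClosed

set_option autoImplicit false
set_option linter.unusedSectionVars false
set_option linter.unusedVariables false
set_option linter.unusedSimpArgs false
set_option linter.style.haveILetI false

namespace Cfsg.Agent.Helper61

open Subgroup

universe u

variable {G : Type u} [Group G] [Finite G]

/-- involutions of `G / O(G)` lift to elements of `G` with square one -/
theorem shaw_red_lift (xb : G ⧸ Cfsg.pPrimeCore 2 G) (h1 : xb * xb = 1) :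
    ∃ x : G, (QuotientGroup.mk' (Cfsg.pPrimeCore 2 G)) x = xb ∧ x * x = 1 := by
  obtain ⟨x, rfl⟩ := QuotientGroup.mk'_surjective _ xb
  have hx2 : x * x ∈ Cfsg.pPrimeCore 2 G := by
    rw [← QuotientGroup.eq_one_iff]
    exact h1
  have hodd : Odd (orderOf (x * x)) := by
    have hcop := Cfsg.Agent.Helper55.card_pPrimeCore_coprime 2 G
    have hdvd : orderOf (x * x) ∣ Nat.card (Cfsg.pPrimeCore 2 G) := by
      have := orderOf_dvd_natCard (⟨x * x, hx2⟩ : Cfsg.pPrimeCore 2 G)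
      rwa [Subgroup.orderOf_mk] at this
    exact Odd.of_dvd_nat (Nat.Coprime.odd_of_right hcop) hdvd
  obtain ⟨k, hk⟩ := hodd
  refine ⟨x ^ (orderOf (x * x)), ?_, ?_⟩
  · rw [map_pow, hk, pow_succ, pow_mul, pow_two, h1, one_pow, one_mul]
  · rw [← pow_add, ← two_mul, pow_mul, pow_two, pow_orderOf_eq_one]

/-- PIECE P11 of CALL S3797 -/
theorem shaw_red (hsol : Group.IsSolvable G) (S : Sylow 2 G)
    (htwo : ∃ x y : G, x ∈ (S : Subgroup G) ∧ y ∈ (S : Subgroup G) ∧ x ≠ y ∧ x ≠ 1 ∧ x ^ 2 = 1 ∧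
      y ≠ 1 ∧ y ^ 2 = 1)
    (hconj : ∀ x y : G, x ≠ 1 → x ^ 2 = 1 → y ≠ 1 → y ^ 2 = 1 → IsConj x y) :
    ∃ Z : Subgroup (G ⧸ Cfsg.pPrimeCore 2 G), Z.Normal ∧ (∀ z ∈ Z, z * z = 1) ∧
      (∀ x : G ⧸ Cfsg.pPrimeCore 2 G, x * x = 1 → x ∈ Z) ∧
      (∀ x ∈ Z, ∀ y ∈ Z, x ≠ 1 → y ≠ 1 → ∃ g : G ⧸ Cfsg.pPrimeCore 2 G, g * x * g⁻¹ = y) ∧
      ∃ x ∈ Z, ∃ y ∈ Z, x ≠ 1 ∧ y ≠ 1 ∧ x ≠ y := by
  classical
  obtain ⟨x, y, hxS, hyS, hxy, hx1, hx2, hy1, hy2⟩ := htwo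
  have hcop := Cfsg.Agent.Helper55.card_pPrimeCore_coprime 2 G
  haveI : Fact (Nat.Prime 2) := ⟨Nat.prime_two⟩
  -- `S ⊓ O(G) = 1`
  have hSO : ∀ g : G, g ∈ (S : Subgroup G) → g ∈ Cfsg.pPrimeCore 2 G → g = 1 := by
    intro g hgS hgO
    obtain ⟨k, hk⟩ := S.2 ⟨g, hgS⟩
    have h1 : orderOf g ∣ 2 ^ k := by
      apply orderOf_dvd_of_pow_eq_one
      have := congrArg Subtype.val hk
      simpa using this
    have h2 : orderOf g ∣ Nat.card (Cfsg.pPrimeCore 2 G) := by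
      have := orderOf_dvd_natCard (⟨g, hgO⟩ : Cfsg.pPrimeCore 2 G)
      rwa [Subgroup.orderOf_mk] at this
    have h3 : orderOf g = 1 :=
      Nat.Coprime.eq_one_of_dvd (Nat.Coprime.coprime_dvd_left h2 (hcop.pow_right k)) h1
    exact orderOf_eq_one_iff.mp h3
  have hπ1 : ∀ g ∈ (S : Subgroup G), g ≠ 1 →
      (QuotientGroup.mk' (Cfsg.pPrimeCore 2 G)) g ≠ 1 := fun g hg hg1 h =>
    hg1 (hSO g hg ((QuotientGroup.eq_one_iff g).mp h))
  -- all involutions of the quotient are conjugate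
  have hconjb : ∀ a b : G ⧸ Cfsg.pPrimeCore 2 G, a ≠ 1 → a * a = 1 → b ≠ 1 → b * b = 1 →
      ∃ g, g * a * g⁻¹ = b := by
    intro a b ha1 ha2 hb1 hb2
    obtain ⟨a', rfl, ha'⟩ := shaw_red_lift a ha2
    obtain ⟨b', rfl, hb'⟩ := shaw_red_lift b hb2
    have ha'1 : a' ≠ 1 := by
      rintro rfl
      exact ha1 (map_one _)
    have hb'1 : b' ≠ 1 := by
      rintro rfl
      exact hb1 (map_one _)
    obtain ⟨c, hc⟩ := isConj_iff.mp (hconj a' b' ha'1 (by rw [pow_two]; exact ha') hb'1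
      (by rw [pow_two]; exact hb'))
    exact ⟨(QuotientGroup.mk' (Cfsg.pPrimeCore 2 G)) c, by
      rw [← map_mul, ← map_inv, ← map_mul, hc]⟩
  -- `O_2` of the quotient
  have hsolb : Group.IsSolvable (G ⧸ Cfsg.pPrimeCore 2 G) := inferInstance
  have hOb := Cfsg.Agent.Helper55.pPrimeCore_quotient_eq_bot 2 G
  obtain ⟨P⟩ : Nonempty (Sylow 2 (G ⧸ Cfsg.pPrimeCore 2 G)) := Sylow.nonempty
  have hcent := Cfsg.Agent.Helper55.centralizer_normalCore_le hsolb hOb P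
  obtain ⟨Q, hQ⟩ : ∃ Q : Subgroup (G ⧸ Cfsg.pPrimeCore 2 G),
      Q = (P : Subgroup (G ⧸ Cfsg.pPrimeCore 2 G)).normalCore := ⟨_, rfl⟩
  rw [← hQ] at hcent
  haveI hQn : Q.Normal := by rw [hQ]; exact Subgroup.normalCore_normal _
  have hQ2 : IsPGroup 2 Q := by
    rw [hQ]; exact P.2.to_le (Subgroup.normalCore_le _)
  have hQne : Q ≠ ⊥ := by
    intro h
    rw [h] at hcent
    have hmem : (QuotientGroup.mk' (Cfsg.pPrimeCore 2 G)) x ∈
        (⊥ : Subgroup (G ⧸ Cfsg.pPrimeCore 2 G)) := by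
      apply hcent
      rw [Subgroup.mem_centralizer_iff]
      intro q hq
      have : q = 1 := Subgroup.mem_bot.mp hq
      rw [this, one_mul, mul_one]
    exact hπ1 x hxS hx1 (Subgroup.mem_bot.mp hmem)
  -- an involution in the centre of `Q`
  obtain ⟨z₀, hz₀Q, hz₀c, hz₀1, hz₀2⟩ : ∃ z : G ⧸ Cfsg.pPrimeCore 2 G, z ∈ Q ∧
      (∀ q ∈ Q, q * z = z * q) ∧ z ≠ 1 ∧ z * z = 1 := by
    haveI : Nontrivial Q := (Subgroup.nontrivial_iff_ne_bot _).mpr hQne
    haveI hcn : Nontrivial (Subgroup.center Q) := hQ2.center_nontrivial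
    have hZ2 : IsPGroup 2 (Subgroup.center Q) := hQ2.to_subgroup _
    obtain ⟨k, hk⟩ := IsPGroup.iff_card.mp hZ2
    have hk0 : k ≠ 0 := by
      rintro rfl
      have := Finite.one_lt_card (α := Subgroup.center Q)
      rw [hk] at this
      simp at this
    have hdvd : 2 ∣ Nat.card (Subgroup.center Q) := by
      rw [hk]; exact dvd_pow_self 2 hk0
    obtain ⟨z, hz⟩ := exists_prime_orderOf_dvd_card' 2 hdvd
    refine ⟨((z : Q) : G ⧸ Cfsg.pPrimeCore 2 G), (z : Q).2, ?_, ?_, ?_⟩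
    · intro q hq
      have := Subgroup.mem_center_iff.mp z.2 ⟨q, hq⟩
      exact congrArg Subtype.val this
    · intro h
      have hz1 : z = 1 := by
        apply Subtype.ext
        apply Subtype.ext
        exact h
      rw [hz1, orderOf_one] at hz
      omega
    · have := pow_orderOf_eq_one z
      rw [hz, pow_two] at this
      have h' := congrArg (fun w : Subgroup.center Q => ((w : Q) : G ⧸ Cfsg.pPrimeCore 2 G)) this
      simpa using h'
  -- the subgroup `Z = Ω₁(Z(Q))`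
  let Z : Subgroup (G ⧸ Cfsg.pPrimeCore 2 G) :=
    { carrier := {a | a ∈ Q ∧ (∀ q ∈ Q, q * a = a * q) ∧ a * a = 1}
      one_mem' := ⟨one_mem _, fun q _ => by simp, by simp⟩
      mul_mem' := by
        rintro a b ⟨ha, hac, ha2⟩ ⟨hb, hbc, hb2⟩
        refine ⟨mul_mem ha hb, fun q hq => ?_, ?_⟩
        · rw [← mul_assoc, hac q hq, mul_assoc, hbc q hq, mul_assoc]
        · calc a * b * (a * b) = a * (b * a) * b := by group
            _ = a * (a * b) * b := by rw [hac b hb]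
            _ = (a * a) * (b * b) := by group
            _ = 1 := by rw [ha2, hb2, one_mul]
      inv_mem' := by
        rintro a ⟨ha, hac, ha2⟩
        have hinv : a⁻¹ = a := inv_eq_of_mul_eq_one_left ha2
        rw [hinv]
        exact ⟨ha, hac, ha2⟩ }
  have hZmem : ∀ a, a ∈ Z ↔ a ∈ Q ∧ (∀ q ∈ Q, q * a = a * q) ∧ a * a = 1 := fun a => Iff.rfl
  have hZn : Z.Normal := by
    constructor
    intro a ha g
    rw [hZmem] at ha ⊢
    obtain ⟨haQ, hac, ha2⟩ := ha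
    refine ⟨hQn.conj_mem a haQ g, fun q hq => ?_, ?_⟩
    · have hq' : g⁻¹ * q * g ∈ Q := by
        have := hQn.conj_mem q hq g⁻¹
        simpa using this
      have e := hac _ hq'
      calc q * (g * a * g⁻¹) = g * ((g⁻¹ * q * g) * a) * g⁻¹ := by group
        _ = g * (a * (g⁻¹ * q * g)) * g⁻¹ := by rw [e]
        _ = g * a * g⁻¹ * q := by group
    · calc g * a * g⁻¹ * (g * a * g⁻¹) = g * (a * a) * g⁻¹ := by group
        _ = 1 := by rw [ha2]; group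
  have hz₀Z : z₀ ∈ Z := ⟨hz₀Q, hz₀c, hz₀2⟩
  have hall : ∀ b : G ⧸ Cfsg.pPrimeCore 2 G, b * b = 1 → b ∈ Z := by
    intro b hb
    by_cases hb1 : b = 1
    · rw [hb1]; exact one_mem Z
    · obtain ⟨g, hg⟩ := hconjb z₀ b hz₀1 hz₀2 hb1 hb
      rw [← hg]
      exact hZn.conj_mem z₀ hz₀Z g
  have hxb : (QuotientGroup.mk' (Cfsg.pPrimeCore 2 G)) x * (QuotientGroup.mk' (Cfsg.pPrimeCore 2 G)) x = 1 := by
    rw [← map_mul, ← pow_two, hx2, map_one]
  have hyb : (QuotientGroup.mk' (Cfsg.pPrimeCore 2 G)) y * (QuotientGroup.mk' (Cfsg.pPrimeCore 2 G)) y = 1 := by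
    rw [← map_mul, ← pow_two, hy2, map_one]
  refine ⟨Z, hZn, fun z hz => hz.2.2, hall,
    fun a ha b hb ha1 hb1 => hconjb a b ha1 ha.2.2 hb1 hb.2.2,
    (QuotientGroup.mk' (Cfsg.pPrimeCore 2 G)) x, hall _ hxb,
    (QuotientGroup.mk' (Cfsg.pPrimeCore 2 G)) y, hall _ hyb, hπ1 x hxS hx1, hπ1 y hyS hy1, ?_⟩
  intro h
  have h' : x⁻¹ * y ∈ Cfsg.pPrimeCore 2 G := QuotientGroup.eq.mp h
  have h'' := hSO (x⁻¹ * y) (mul_mem (inv_mem hxS) hyS) h'
  exact hxy (inv_mul_eq_one.mp h'')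

end Cfsg.Agent.Helper61
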