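import Mathlib

set_option autoImplicit false

namespace Cfsg.Agent.Helper61.TENT1

open Matrix Polynomial
open scoped Kronecker

/-! ## Piece NT1 -/
theorem prime_dvd_card_GL {F : Type*} [Field F] [Fintype F] (n : ℕ) (r : ℕ) (hr : r.Prime)
    (h : r ∣ Nat.card (GL (Fin n) F)) :
    (r : F) = 0 ∨ ∃ j : ℕ, 0 < j ∧ j ≤ n ∧ r ∣ Fintype.card F ^ j - 1 := by
  classical
  rw [Matrix.card_GL_field] at h
  obtain ⟨i, -, hi⟩ := (Prime.dvd_finsetProd_iff hr.prime _).mp h
  have hin : (i : ℕ) < n := i.2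
  have hq1 : 1 ≤ Fintype.card F := Fintype.card_pos
  have hfac : Fintype.card F ^ n - Fintype.card F ^ (i : ℕ)
      = Fintype.card F ^ (i : ℕ) * (Fintype.card F ^ (n - (i : ℕ)) - 1) := by
    rw [Nat.mul_sub, mul_one, ← pow_add]
    congr 2
    omega
  rw [hfac] at hi
  rcases (Nat.Prime.dvd_mul hr).mp hi with h1 | h1
  · left
    have h2 : r ∣ Fintype.card F := hr.dvd_of_dvd_pow h1
    obtain ⟨c, hc⟩ := h2
    have h3 : ((Fintype.card F : ℕ) : F) = 0 := Nat.cast_card_eq_zero F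
    rw [hc, Nat.cast_mul] at h3
    rcases mul_eq_zero.mp h3 with h4 | h4
    · exact h4
    · -- c ∣ card F, c < card F, and (c : F) = 0 ⇒ char ∣ c; use the prime power structure
      obtain ⟨p, hp⟩ := CharP.exists F
      obtain ⟨k, hpk, hk⟩ := FiniteField.card F p
      have hrp : r ∣ p ^ (k : ℕ) := ⟨c, by rw [← hk, hc]⟩
      have hrp2 : r = p := (Nat.prime_dvd_prime_iff_eq hr hpk).mp (hr.dvd_of_dvd_pow hrp)
      rw [hrp2]
      exact CharP.cast_eq_zero F p
  · right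
    exact ⟨n - (i : ℕ), by omega, by omega, h1⟩

end Cfsg.Agent.Helper61.TENT1
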