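import Mathlib

set_option autoImplicit false

namespace Cfsg.Agent.Helper61.TENT2

open Matrix Polynomial
open scoped Kronecker

/-! ## Piece NT2 -/
theorem exists_pow_eq_neg_one_iff {F : Type*} [Field F] [Fintype F] (h2 : (2 : F) ≠ 0) (n : ℕ)
    (hn : 0 < n) :
    (∃ w : F, w ^ n = -1) ↔ padicValNat 2 n < padicValNat 2 (Fintype.card F - 1) := by
  classical
  have hne : (-1 : F) ≠ 1 := by
    intro h
    apply h2
    have : (1 : F) + 1 = 0 := by
      nth_rewrite 1 [← h]
      ring
    rw [← this]; norm_num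
  have hq2 : 2 ≤ Fintype.card F := Fintype.one_lt_card
  have hq0 : Fintype.card F - 1 ≠ 0 := by omega
  set e := padicValNat 2 (Fintype.card F - 1) with he
  obtain ⟨c, hc⟩ : 2 ^ e ∣ Fintype.card F - 1 := pow_padicValNat_dvd
  have hcodd : Odd c := by
    rw [← Nat.not_even_iff_odd]
    intro hev
    obtain ⟨c', hc'⟩ := hev
    have : 2 ^ (e + 1) ∣ Fintype.card F - 1 := ⟨c', by rw [hc, hc', pow_succ]; ring⟩
    have := (padicValNat_dvd_iff_le hq0).mp this
    omega
  constructor
  · rintro ⟨w, hw⟩
    by_contra hlt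
    push Not at hlt
    have hw0 : w ≠ 0 := by
      rintro rfl
      rw [zero_pow (by omega)] at hw
      have : (1 : F) = 0 := by
        have := congrArg (fun x : F => -x) hw
        simpa using this.symm
      exact one_ne_zero this
    have hdvd : 2 ^ e ∣ n := (padicValNat_dvd_iff_le (by omega)).mpr hlt
    obtain ⟨n1, hn1⟩ := hdvd
    have h1 : w ^ (Fintype.card F - 1) = 1 := FiniteField.pow_card_sub_one_eq_one w hw0
    have h3 : (w ^ n) ^ c = 1 := by
      rw [← pow_mul, hn1, show 2 ^ e * n1 * c = (2 ^ e * c) * n1 by ring, ← hc, pow_mul, h1,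
        one_pow]
    rw [hw, hcodd.neg_one_pow] at h3
    exact hne h3
  · intro hlt
    set m := padicValNat 2 n with hm
    obtain ⟨n', hn'⟩ : 2 ^ m ∣ n := pow_padicValNat_dvd
    have hn'odd : Odd n' := by
      rw [← Nat.not_even_iff_odd]
      intro hev
      obtain ⟨c', hc'⟩ := hev
      have : 2 ^ (m + 1) ∣ n := ⟨c', by rw [hn', hc', pow_succ]; ring⟩
      have := (padicValNat_dvd_iff_le (by omega : n ≠ 0)).mp this
      omega
    obtain ⟨g, hg⟩ := IsCyclic.exists_generator (α := Fˣ)
    have hord : orderOf g = Fintype.card F - 1 := by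
      rw [orderOf_eq_card_of_forall_mem_zpowers hg, Nat.card_eq_fintype_card, Fintype.card_units]
    -- q - 1 = 2^(m+1) * (2^(e-m-1) * c)
    set k := 2 ^ (e - m - 1) * c with hk
    have hqk : Fintype.card F - 1 = 2 ^ (m + 1) * k := by
      rw [hc, hk, ← mul_assoc, ← pow_add]
      congr 2
      omega
    have hkpos : 0 < k := by
      rcases Nat.eq_zero_or_pos k with h0 | h0
      · rw [h0, mul_zero] at hqk; omega
      · exact h0
    set t : Fˣ := g ^ (2 ^ m * k) with ht
    have ht2 : t ^ 2 = 1 := by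
      rw [ht, ← pow_mul, show 2 ^ m * k * 2 = 2 ^ (m + 1) * k by rw [pow_succ]; ring, ← hqk,
        ← hord, pow_orderOf_eq_one]
    have ht1 : t ≠ 1 := by
      rw [ht]
      apply pow_ne_one_of_lt_orderOf
      · have : 0 < 2 ^ m := by positivity
        positivity
      · rw [hord, hqk, pow_succ]
        have : 0 < 2 ^ m * k := by positivity
        nlinarith
    have htF : (t : F) = -1 := by
      have h5 : (t : F) ^ 2 = 1 := by
        rw [← Units.val_pow_eq_pow_val, ht2, Units.val_one]
      have h6 : ((t : F) - 1) * ((t : F) + 1) = 0 := by ring_nf; rw [h5]; ring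
      rcases mul_eq_zero.mp h6 with h7 | h7
      · exfalso
        apply ht1
        ext
        rw [Units.val_one]
        linear_combination h7
      · linear_combination h7
    refine ⟨((g ^ k : Fˣ) : F), ?_⟩
    rw [hn', ← Units.val_pow_eq_pow_val, ← pow_mul, show k * (2 ^ m * n') = (2 ^ m * k) * n' by ring,
      pow_mul, ← ht, Units.val_pow_eq_pow_val, htF, hn'odd.neg_one_pow]

end Cfsg.Agent.Helper61.TENT2
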