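import Mathlib
import Cfsg.Agent.Helper61.TENT1

set_option autoImplicit false

namespace Cfsg.Agent.Helper61.TEORD

open Matrix Polynomial
open scoped Kronecker

/-! ## Piece ORD -/
theorem pow_card_sub_one_eq_one {F : Type*} [Field F] [Fintype F] {m : ℕ} (r : ℕ)
    (hr : r.Prime) (hrF : (r : F) ≠ 0)
    (hnd : ∀ j : ℕ, 0 < j → j ≤ m → ¬ r ∣ Fintype.card F ^ j - 1)
    (A : Matrix (Fin m) (Fin m) F) (s : F) (hs : s ≠ 0)
    (hA : A ^ r = s • (1 : Matrix (Fin m) (Fin m) F)) :
    A ^ (Fintype.card F - 1) = 1 := by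
  classical
  have hdet : A.det ≠ 0 := by
    intro h0
    have := congrArg Matrix.det hA
    rw [Matrix.det_pow, h0, zero_pow hr.ne_zero, Matrix.det_smul, Matrix.det_one, mul_one] at this
    exact pow_ne_zero _ hs this.symm
  set g : GL (Fin m) F := Matrix.GeneralLinearGroup.mkOfDetNeZero A hdet with hg
  have hgv : (g : Matrix (Fin m) (Fin m) F) = A := rfl
  have h1 : g ^ (r * (Fintype.card F - 1)) = 1 := by
    apply Units.ext
    rw [Units.val_pow_eq_pow_val, hgv, pow_mul, hA, _root_.smul_pow, one_pow,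
      FiniteField.pow_card_sub_one_eq_one s hs, one_smul]
    rfl
  have h2 : orderOf g ∣ r * (Fintype.card F - 1) := orderOf_dvd_of_pow_eq_one h1
  have h3 : orderOf g ∣ Nat.card (GL (Fin m) F) := orderOf_dvd_natCard g
  have h4 : ¬ r ∣ Nat.card (GL (Fin m) F) := by
    intro h
    rcases TENT1.prime_dvd_card_GL m r hr h with h5 | ⟨j, hj0, hjm, hj⟩
    · exact hrF h5
    · exact hnd j hj0 hjm hj
  have h5 : Nat.Coprime (orderOf g) r := by
    rw [Nat.coprime_comm, Nat.Prime.coprime_iff_not_dvd hr]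
    intro h
    exact h4 (h.trans h3)
  have h6 : orderOf g ∣ Fintype.card F - 1 := h5.dvd_of_dvd_mul_left h2
  have h7 : g ^ (Fintype.card F - 1) = 1 := orderOf_dvd_iff_pow_eq_one.mp h6
  have := congrArg Units.val h7
  rwa [Units.val_pow_eq_pow_val, hgv] at this

end Cfsg.Agent.Helper61.TEORD
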