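import Mathlib

set_option autoImplicit false

namespace Cfsg.Agent.Helper61.TFFRM1

open Matrix Polynomial
open scoped Kronecker

universe u v

/-- An involutory isometry of a symplectic space has a hyperbolic frame of eigenvectors. -/
theorem frm_abstract {F : Type u} [Field F] (h2 : (2 : F) ≠ 0) (k : ℕ) :
    ∀ (V : Type v) [AddCommGroup V] [Module F V] [FiniteDimensional F V]
      (B : LinearMap.BilinForm F V) (X : V →ₗ[F] V),
      (∀ a, B a a = 0) → (∀ a, (∀ c, B a c = 0) → a = 0) →
      (∀ a c, B (X a) (X c) = B a c) → (∀ a, X (X a) = a) →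
      Module.finrank F V = 2 * k →
      ∃ (e f : Fin k → V) (δ : Fin k → F), (∀ j, δ j = 1 ∨ δ j = -1) ∧
        (∀ j, X (e j) = δ j • e j) ∧ (∀ j, X (f j) = δ j • f j) ∧
        (∀ i j, B (e i) (f j) = if i = j then 1 else 0) ∧
        (∀ i j, B (e i) (e j) = 0) ∧ (∀ i j, B (f i) (f j) = 0) := by
  induction k with
  | zero =>
    intro V _ _ _ B X _ _ _ _ _
    exact ⟨fun j => j.elim0, fun j => j.elim0, fun j => j.elim0, fun j => j.elim0,
      fun j => j.elim0, fun j => j.elim0, fun j => j.elim0, fun j => j.elim0, fun j => j.elim0⟩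
  | succ k ih =>
    intro V _ _ _ B X halt hnd hX hXX hdim
    have hskew : ∀ a c, B a c = - B c a := by
      intro a c
      have h := halt (a + c)
      simp only [map_add, LinearMap.add_apply, halt, zero_add, add_zero] at h
      exact eq_neg_of_add_eq_zero_right h
    have hndM : B.Nondegenerate :=
      ⟨hnd, fun y hy => hnd y (fun c => by rw [hskew, hy c, neg_zero])⟩
    have hpos : 0 < Module.finrank F V := by omega
    obtain ⟨w, hw⟩ : ∃ w : V, w ≠ 0 := by
      have := Module.finrank_pos_iff.mp hpos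
      exact exists_ne 0
    obtain ⟨ε, u₀, hε, hu₀, hXu₀⟩ :
        ∃ (ε : F) (u₀ : V), (ε = 1 ∨ ε = -1) ∧ u₀ ≠ 0 ∧ X u₀ = ε • u₀ := by
      by_cases h : w + X w = 0
      · refine ⟨-1, w, Or.inr rfl, hw, ?_⟩
        rw [neg_one_smul]
        exact eq_neg_of_add_eq_zero_right h
      · refine ⟨1, w + X w, Or.inl rfl, h, ?_⟩
        rw [map_add, hXX, one_smul, add_comm]
    have hεε : ε * ε = 1 := by
      rcases hε with rfl | rfl <;> ring
    obtain ⟨w₁, hw₁⟩ : ∃ w₁, B u₀ w₁ ≠ 0 := by
      by_contra hcon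
      push Not at hcon
      exact hu₀ (hnd u₀ hcon)
    obtain ⟨w', hw'⟩ : ∃ w' : V, w' = w₁ + ε • X w₁ := ⟨_, rfl⟩
    have hXw' : X w' = ε • w' := by
      rw [hw', map_add, map_smul, hXX, smul_add, smul_smul, hεε, one_smul, add_comm]
    have hBw' : B u₀ w' = 2 * B u₀ w₁ := by
      have h3 : B u₀ (X w₁) = ε * B u₀ w₁ := by
        calc B u₀ (X w₁) = B (X u₀) (X (X w₁)) := (hX _ _).symm
          _ = B (ε • u₀) w₁ := by rw [hXu₀, hXX]
          _ = ε * B u₀ w₁ := by rw [map_smul, LinearMap.smul_apply, smul_eq_mul]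
      rw [hw', map_add, map_smul, h3, smul_eq_mul, ← mul_assoc, hεε]
      ring
    have hBne : B u₀ w' ≠ 0 := by
      rw [hBw']
      exact mul_ne_zero h2 hw₁
    obtain ⟨v₀, hv₀⟩ : ∃ v₀ : V, v₀ = (B u₀ w')⁻¹ • w' := ⟨_, rfl⟩
    have hB1 : B u₀ v₀ = 1 := by
      rw [hv₀, map_smul, smul_eq_mul, inv_mul_cancel₀ hBne]
    have hB1' : B v₀ u₀ = -1 := by rw [hskew, hB1]
    have hXv₀ : X v₀ = ε • v₀ := by
      rw [hv₀, map_smul, hXw', smul_comm]
    -- the orthogonal complement of the plane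
    obtain ⟨W, hW⟩ : ∃ W : Submodule F V,
        W = B.orthogonal (Submodule.span F (Set.range ![u₀, v₀])) := ⟨_, rfl⟩
    have hWmem : ∀ y, y ∈ W ↔ B u₀ y = 0 ∧ B v₀ y = 0 := by
      intro y
      rw [hW, LinearMap.BilinForm.mem_orthogonal_iff]
      constructor
      · intro h
        exact ⟨h u₀ (Submodule.subset_span ⟨0, rfl⟩), h v₀ (Submodule.subset_span ⟨1, rfl⟩)⟩
      · rintro ⟨h1, h2'⟩ n hn
        induction hn using Submodule.span_induction with
        | mem z hz =>
          obtain ⟨i, rfl⟩ := hz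
          fin_cases i
          · exact h1
          · exact h2'
        | zero => simp
        | add y z _ _ hy hz => rw [map_add, LinearMap.add_apply, hy, hz, add_zero]
        | smul c y _ hy => rw [map_smul, LinearMap.smul_apply, hy, smul_zero]
    have hli : LinearIndependent F ![u₀, v₀] := by
      rw [LinearIndependent.pair_iff]
      intro s t hst
      have e1 : B (s • u₀ + t • v₀) v₀ = s := by
        rw [map_add, map_smul, map_smul, LinearMap.add_apply, LinearMap.smul_apply,
          LinearMap.smul_apply, hB1, halt]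
        simp
      have e2 : B u₀ (s • u₀ + t • v₀) = t := by
        rw [map_add, map_smul, map_smul, halt, hB1]
        simp
      rw [hst] at e1 e2
      constructor
      · rw [← e1]
        simp
      · rw [← e2]
        simp
    have hfinW : Module.finrank F W = 2 * k := by
      rw [hW, LinearMap.BilinForm.finrank_orthogonal hndM, finrank_span_eq_card hli, hdim,
        Fintype.card_fin]
      omega
    have hWX : ∀ y ∈ W, X y ∈ W := by
      intro y hy
      rw [hWmem] at hy ⊢
      constructor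
      · have : B u₀ (X y) = ε * B u₀ y := by
          calc B u₀ (X y) = B (X u₀) (X (X y)) := (hX _ _).symm
            _ = B (ε • u₀) y := by rw [hXu₀, hXX]
            _ = ε * B u₀ y := by rw [map_smul, LinearMap.smul_apply, smul_eq_mul]
        rw [this, hy.1, mul_zero]
      · have : B v₀ (X y) = ε * B v₀ y := by
          calc B v₀ (X y) = B (X v₀) (X (X y)) := (hX _ _).symm
            _ = B (ε • v₀) y := by rw [hXv₀, hXX]
            _ = ε * B v₀ y := by rw [map_smul, LinearMap.smul_apply, smul_eq_mul]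
        rw [this, hy.2, mul_zero]
    -- induction hypothesis on W
    have hrestr : ∀ a c : W, B.restrict W a c = B (a : V) (c : V) := fun a c => rfl
    obtain ⟨e', f', δ', hδ', hXe', hXf', hef', hee', hff'⟩ := ih W (B.restrict W) (X.restrict hWX)
      (fun a => by rw [hrestr]; exact halt _)
      (by
        intro a ha
        have ha0 : (a : V) = 0 := by
          apply hnd
          intro z
          have hzW : z - B u₀ z • v₀ + B v₀ z • u₀ ∈ W := by
            rw [hWmem]
            constructor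
            · rw [map_add, map_sub, map_smul, map_smul, hB1, halt]
              simp
            · rw [map_add, map_sub, map_smul, map_smul, hB1', halt]
              simp
          have h5 := ha ⟨_, hzW⟩
          rw [hrestr] at h5
          have ha1 := ((hWmem (a : V)).mp a.2).1
          have ha2 := ((hWmem (a : V)).mp a.2).2
          have ha1' : B (a : V) u₀ = 0 := by rw [hskew, ha1, neg_zero]
          have ha2' : B (a : V) v₀ = 0 := by rw [hskew, ha2, neg_zero]
          simp only [map_add, map_sub, map_smul, ha1', ha2', smul_zero, sub_zero, add_zero]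
            at h5
          exact h5
        exact Subtype.ext ha0)
      (fun a c => by
        rw [hrestr, hrestr, LinearMap.coe_restrict_apply, LinearMap.coe_restrict_apply]
        exact hX _ _)
      (fun a => by
        apply Subtype.ext
        rw [LinearMap.coe_restrict_apply, LinearMap.coe_restrict_apply]
        exact hXX _)
      hfinW
    refine ⟨Fin.cons u₀ (fun j => (e' j : V)), Fin.cons v₀ (fun j => (f' j : V)),
      Fin.cons ε δ', ?_, ?_, ?_, ?_, ?_, ?_⟩
    · intro j
      refine Fin.cases ?_ (fun j' => ?_) j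
      · rw [Fin.cons_zero]
        exact hε
      · rw [Fin.cons_succ]
        exact hδ' j'
    · intro j
      refine Fin.cases ?_ (fun j' => ?_) j
      · rw [Fin.cons_zero, Fin.cons_zero]
        exact hXu₀
      · rw [Fin.cons_succ, Fin.cons_succ]
        have := congrArg Subtype.val (hXe' j')
        rw [LinearMap.coe_restrict_apply] at this
        exact this
    · intro j
      refine Fin.cases ?_ (fun j' => ?_) j
      · rw [Fin.cons_zero, Fin.cons_zero]
        exact hXv₀
      · rw [Fin.cons_succ, Fin.cons_succ]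
        have := congrArg Subtype.val (hXf' j')
        rw [LinearMap.coe_restrict_apply] at this
        exact this
    · intro i j
      refine Fin.cases ?_ (fun i' => ?_) i <;> refine Fin.cases ?_ (fun j' => ?_) j
      · rw [Fin.cons_zero, Fin.cons_zero, if_pos rfl]
        exact hB1
      · rw [Fin.cons_zero, Fin.cons_succ, if_neg (Fin.succ_ne_zero j').symm]
        exact ((hWmem _).mp (f' j').2).1
      · rw [Fin.cons_zero, Fin.cons_succ, if_neg (Fin.succ_ne_zero i'), hskew,
          ((hWmem _).mp (e' i').2).2, neg_zero]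
      · rw [Fin.cons_succ, Fin.cons_succ, ← hrestr, hef' i' j']
        simp only [Fin.succ_inj]
    · intro i j
      refine Fin.cases ?_ (fun i' => ?_) i <;> refine Fin.cases ?_ (fun j' => ?_) j
      · rw [Fin.cons_zero]
        exact halt _
      · rw [Fin.cons_zero, Fin.cons_succ]
        exact ((hWmem _).mp (e' j').2).1
      · rw [Fin.cons_zero, Fin.cons_succ, hskew, ((hWmem _).mp (e' i').2).1, neg_zero]
      · rw [Fin.cons_succ, Fin.cons_succ, ← hrestr, hee' i' j']
    · intro i j
      refine Fin.cases ?_ (fun i' => ?_) i <;> refine Fin.cases ?_ (fun j' => ?_) j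
      · rw [Fin.cons_zero]
        exact halt _
      · rw [Fin.cons_zero, Fin.cons_succ]
        exact ((hWmem _).mp (f' j').2).2
      · rw [Fin.cons_zero, Fin.cons_succ, hskew, ((hWmem _).mp (f' i').2).2, neg_zero]
      · rw [Fin.cons_succ, Fin.cons_succ, ← hrestr, hff' i' j']

theorem frm_gram_entry {F : Type*} [Field F] {n : Type*} [Fintype n] (A M : Matrix n n F)
    (q q' : n) :
    (Aᵀ * M * A) q q' = (fun p => A p q) ⬝ᵥ (M *ᵥ (fun p => A p q')) := by
  simp only [Matrix.mul_apply, Matrix.transpose_apply, dotProduct, Matrix.mulVec,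
    Finset.sum_mul, Finset.mul_sum]
  rw [Finset.sum_comm]
  refine Finset.sum_congr rfl (fun i _ => Finset.sum_congr rfl (fun j _ => ?_))
  ring

theorem frm_E_apply {F : Type*} [Field F] {b : ℕ} (κ : Fin b → F) (a c : Fin 2) (i j : Fin b) :
    ((!![0, 1; -1, 0] : Matrix (Fin 2) (Fin 2) F) ⊗ₖ Matrix.diagonal κ) (a, i) (c, j) =
      (!![0, 1; -1, 0] : Matrix (Fin 2) (Fin 2) F) a c * (if i = j then κ i else 0) := by
  rw [Matrix.kroneckerMap_apply, Matrix.diagonal_apply]

theorem frm_E_transpose {F : Type*} [Field F] {b : ℕ} (κ : Fin b → F) :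
    ((!![0, 1; -1, 0] : Matrix (Fin 2) (Fin 2) F) ⊗ₖ Matrix.diagonal κ)ᵀ =
      -((!![0, 1; -1, 0] : Matrix (Fin 2) (Fin 2) F) ⊗ₖ Matrix.diagonal κ) := by
  ext ⟨a, i⟩ ⟨c, j⟩
  rw [Matrix.transpose_apply, Matrix.neg_apply, frm_E_apply, frm_E_apply]
  by_cases hij : i = j
  · subst hij
    fin_cases a <;> fin_cases c <;> simp
  · rw [if_neg hij, if_neg (Ne.symm hij), mul_zero, mul_zero, neg_zero]

theorem frm_E_inv {F : Type*} [Field F] {b : ℕ} (κ : Fin b → F) (hκ : ∀ j, κ j ≠ 0) :
    ((!![0, 1; -1, 0] : Matrix (Fin 2) (Fin 2) F) ⊗ₖ Matrix.diagonal κ) *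
      ((!![0, -1; 1, 0] : Matrix (Fin 2) (Fin 2) F) ⊗ₖ Matrix.diagonal (fun j => (κ j)⁻¹)) = 1 := by
  rw [← Matrix.mul_kronecker_mul, Matrix.diagonal_mul_diagonal]
  have h1 : (!![0, 1; -1, 0] : Matrix (Fin 2) (Fin 2) F) * !![0, -1; 1, 0] = 1 := by
    ext i j
    fin_cases i <;> fin_cases j <;> simp [Matrix.mul_apply, Fin.sum_univ_two]
  have h2 : (fun i => κ i * (κ i)⁻¹) = fun _ => (1 : F) := by
    funext i
    exact mul_inv_cancel₀ (hκ i)
  rw [h1, h2, Matrix.diagonal_one, Matrix.one_kronecker_one]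

/-! ## Piece FRM1 -/
theorem frame_invol {F : Type*} [Field F] (h2 : (2 : F) ≠ 0) {b : ℕ} (κ : Fin b → F)
    (hκ : ∀ j, κ j ≠ 0) (x : Matrix (Fin 2 × Fin b) (Fin 2 × Fin b) F)
    (hx : xᵀ * ((!![0, 1; -1, 0] : Matrix (Fin 2) (Fin 2) F) ⊗ₖ Matrix.diagonal κ) * x =
      (!![0, 1; -1, 0] : Matrix (Fin 2) (Fin 2) F) ⊗ₖ Matrix.diagonal κ)
    (hxx : x * x = 1) :
    ∃ (h h' : Matrix (Fin 2 × Fin b) (Fin 2 × Fin b) F) (δ : Fin b → F), h * h' = 1 ∧
      h' * h = 1 ∧
      hᵀ * ((!![0, 1; -1, 0] : Matrix (Fin 2) (Fin 2) F) ⊗ₖ Matrix.diagonal κ) * h =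
        (!![0, 1; -1, 0] : Matrix (Fin 2) (Fin 2) F) ⊗ₖ Matrix.diagonal κ ∧
      (∀ j, δ j = 1 ∨ δ j = -1) ∧
      x * h = h * ((1 : Matrix (Fin 2) (Fin 2) F) ⊗ₖ Matrix.diagonal δ) := by
  classical
  obtain ⟨E, hE⟩ : ∃ E : Matrix (Fin 2 × Fin b) (Fin 2 × Fin b) F,
      E = (!![0, 1; -1, 0] : Matrix (Fin 2) (Fin 2) F) ⊗ₖ Matrix.diagonal κ := ⟨_, rfl⟩
  obtain ⟨E', hE'⟩ : ∃ E' : Matrix (Fin 2 × Fin b) (Fin 2 × Fin b) F,
      E' = (!![0, -1; 1, 0] : Matrix (Fin 2) (Fin 2) F) ⊗ₖ Matrix.diagonal (fun j => (κ j)⁻¹) :=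
    ⟨_, rfl⟩
  rw [← hE] at hx ⊢
  have hEE' : E * E' = 1 := by
    rw [hE, hE']
    exact frm_E_inv κ hκ
  have hE'E : E' * E = 1 := _root_.mul_eq_one_comm.mp hEE'
  have hET : Eᵀ = -E := by
    rw [hE]
    exact frm_E_transpose κ
  have hEap : ∀ (a c : Fin 2) (i j : Fin b), E (a, i) (c, j) =
      (!![0, 1; -1, 0] : Matrix (Fin 2) (Fin 2) F) a c * (if i = j then κ i else 0) := by
    intro a c i j
    rw [hE]
    exact frm_E_apply κ a c i j
  -- the form and the map
  have halt : ∀ a : Fin 2 × Fin b → F, Matrix.toBilin' E a a = 0 := by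
    intro a
    rw [Matrix.toBilin'_apply']
    have h3 : a ⬝ᵥ (E *ᵥ a) = - (a ⬝ᵥ (E *ᵥ a)) := by
      conv_lhs => rw [Matrix.dotProduct_mulVec, ← Matrix.mulVec_transpose, dotProduct_comm, hET,
        Matrix.neg_mulVec, dotProduct_neg]
    have h4 : (2 : F) * (a ⬝ᵥ (E *ᵥ a)) = 0 := by linear_combination h3
    rcases mul_eq_zero.mp h4 with h5 | h5
    · exact absurd h5 h2
    · exact h5
  have hskew : ∀ a c : Fin 2 × Fin b → F,
      Matrix.toBilin' E a c = - Matrix.toBilin' E c a := by
    intro a c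
    have h := halt (a + c)
    simp only [map_add, LinearMap.add_apply, halt, zero_add, add_zero] at h
    exact eq_neg_of_add_eq_zero_right h
  have hnd : ∀ a : Fin 2 × Fin b → F, (∀ c, Matrix.toBilin' E a c = 0) → a = 0 := by
    intro a ha
    have h3 : a ᵥ* E = 0 := by
      rw [← dotProduct_eq_zero_iff]
      intro c
      rw [← Matrix.dotProduct_mulVec, ← Matrix.toBilin'_apply']
      exact ha c
    have h4 : a ᵥ* (E * E') = 0 := by rw [← Matrix.vecMul_vecMul, h3, Matrix.zero_vecMul]
    rw [hEE', Matrix.vecMul_one] at h4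
    exact h4
  have hX : ∀ a c : Fin 2 × Fin b → F,
      Matrix.toBilin' E (Matrix.toLin' x a) (Matrix.toLin' x c) = Matrix.toBilin' E a c := by
    intro a c
    rw [Matrix.toBilin'_apply', Matrix.toBilin'_apply', Matrix.toLin'_apply, Matrix.toLin'_apply,
      ← Matrix.vecMul_transpose, ← Matrix.dotProduct_mulVec, Matrix.mulVec_mulVec,
      Matrix.mulVec_mulVec, hx]
  have hXX : ∀ a : Fin 2 × Fin b → F, Matrix.toLin' x (Matrix.toLin' x a) = a := by
    intro a
    rw [Matrix.toLin'_apply, Matrix.toLin'_apply, Matrix.mulVec_mulVec, hxx, Matrix.one_mulVec]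
  have hdim : Module.finrank F (Fin 2 × Fin b → F) = 2 * b := by
    rw [Module.finrank_fintype_fun_eq_card, Fintype.card_prod, Fintype.card_fin,
      Fintype.card_fin]
  obtain ⟨e, f, δ, hδ, hXe, hXf, hef, hee, hff⟩ :=
    frm_abstract h2 b (Fin 2 × Fin b → F) (Matrix.toBilin' E) (Matrix.toLin' x) halt hnd hX hXX
      hdim
  -- the columns
  obtain ⟨col, hcol⟩ : ∃ col : Fin 2 × Fin b → (Fin 2 × Fin b → F),
      col = fun q => if q.1 = 0 then e q.2 else κ q.2 • f q.2 := ⟨_, rfl⟩
  have hcol0 : ∀ j, col (0, j) = e j := by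
    intro j
    rw [hcol]
    simp
  have hcol1 : ∀ j, col (1, j) = κ j • f j := by
    intro j
    rw [hcol]
    simp
  obtain ⟨h, hh⟩ : ∃ h : Matrix (Fin 2 × Fin b) (Fin 2 × Fin b) F, h = fun p q => col q p :=
    ⟨_, rfl⟩
  have hhcol : ∀ q, (fun p => h p q) = col q := by
    intro q
    rw [hh]
  have hgram : hᵀ * E * h = E := by
    ext ⟨a, i⟩ ⟨c, j⟩
    rw [frm_gram_entry, hhcol, hhcol, ← Matrix.toBilin'_apply', hEap]
    fin_cases a <;> fin_cases c
    · show Matrix.toBilin' E (col (0, i)) (col (0, j)) = _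
      rw [hcol0, hcol0, hee]
      simp
    · show Matrix.toBilin' E (col (0, i)) (col (1, j)) = _
      rw [hcol0, hcol1, map_smul, hef, smul_eq_mul]
      by_cases hij : i = j
      · subst hij
        simp
      · simp [hij]
    · show Matrix.toBilin' E (col (1, i)) (col (0, j)) = _
      rw [hcol1, hcol0, map_smul, LinearMap.smul_apply, hskew, hef, smul_eq_mul]
      by_cases hij : i = j
      · subst hij
        simp
      · simp [hij, Ne.symm hij]
    · show Matrix.toBilin' E (col (1, i)) (col (1, j)) = _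
      rw [hcol1, hcol1, map_smul, map_smul, LinearMap.smul_apply, hff]
      simp
  have hXcol : ∀ q : Fin 2 × Fin b, x *ᵥ col q = δ q.2 • col q := by
    rintro ⟨a, j⟩
    fin_cases a
    · show x *ᵥ col (0, j) = δ j • col (0, j)
      rw [hcol0, ← Matrix.toLin'_apply, hXe]
    · show x *ᵥ col (1, j) = δ j • col (1, j)
      rw [hcol1, ← Matrix.toLin'_apply, map_smul, hXf, smul_comm]
  refine ⟨h, E' * hᵀ * E, δ, ?_, ?_, hgram, hδ, ?_⟩
  · apply _root_.mul_eq_one_comm.mp
    rw [mul_assoc, mul_assoc, ← mul_assoc hᵀ, hgram, hE'E]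
  · rw [mul_assoc, mul_assoc, ← mul_assoc hᵀ, hgram, hE'E]
  · have hD : (1 : Matrix (Fin 2) (Fin 2) F) ⊗ₖ Matrix.diagonal δ =
        Matrix.diagonal (fun q : Fin 2 × Fin b => δ q.2) := by
      rw [← Matrix.diagonal_one, Matrix.diagonal_kronecker_diagonal]
      congr 1
      funext q
      rw [one_mul]
    rw [hD]
    ext p q
    rw [Matrix.mul_diagonal]
    have h5 : (x * h) p q = (x *ᵥ (fun p' => h p' q)) p := by
      simp only [Matrix.mul_apply, Matrix.mulVec, dotProduct]
    rw [h5, hhcol, hXcol, hh]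
    simp only [Pi.smul_apply, smul_eq_mul]
    ring

end Cfsg.Agent.Helper61.TFFRM1
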