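import Mathlib

/-!
# CALL S2414 (helper97), piece HDET
-/

set_option autoImplicit false

namespace Cfsg.Agent.Helper61

/-- HDET -/
theorem tg_h_det {K : Type*} [Field K] (n : ℕ) (hn : 1 ≤ n) (k : Kˣ) :
    (Matrix.diagonal (fun i : Fin (n + 1) =>
      if i.val = 0 then (k : K) else if i.val = 1 then ((k⁻¹ : Kˣ) : K) else 1)).det = 1 := by
  obtain ⟨n', rfl⟩ : ∃ n', n = n' + 1 := ⟨n - 1, by omega⟩
  rw [Matrix.det_diagonal, Fin.prod_univ_succ, Fin.prod_univ_succ]
  simp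

end Cfsg.Agent.Helper61
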