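import Mathlib

/-!
# CALL S2414 (helper97), piece HORD
-/

set_option autoImplicit false

namespace Cfsg.Agent.Helper61

/-- HORD -/
theorem tg_h_pow {K : Type*} [Field K] [Fintype K] (n : ℕ) (k : Kˣ)
    (h : Matrix.SpecialLinearGroup (Fin (n + 1)) K)
    (hh : (h : Matrix (Fin (n + 1)) (Fin (n + 1)) K) =
      Matrix.diagonal (fun i => if i.val = 0 then (k : K) else if i.val = 1 then ((k⁻¹ : Kˣ) : K) else 1)) :
    h ^ (Fintype.card K - 1) = 1 := by
  apply Subtype.ext
  rw [Matrix.SpecialLinearGroup.coe_pow, hh, Matrix.diagonal_pow, Matrix.SpecialLinearGroup.coe_one,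
    ← Matrix.diagonal_one]
  congr 1
  funext i
  simp only [Pi.pow_apply]
  split_ifs
  · exact FiniteField.pow_card_sub_one_eq_one _ k.ne_zero
  · exact FiniteField.pow_card_sub_one_eq_one _ (k⁻¹).ne_zero
  · exact one_pow _

end Cfsg.Agent.Helper61
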