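import Mathlib
import Cfsg.Agent.Helper98.OPar

/-!
# CALL S2414 (helper97), piece POW

An Eichler (Siegel) transformation has order dividing the characteristic.
-/

set_option autoImplicit false

universe u

namespace Cfsg.Agent.Helper61

open Cfsg Matrix Cfsg.Agent.Helper45 Cfsg.Agent.Helper98

variable {ι : Type} [Fintype ι] [DecidableEq ι] {F : Type u} [Field F]
  (Q : QuadraticForm F (ι → F))

theorem tg_eichO_congr' {u b b' : ι → F} (hu : Q u = 0) (hub : QuadraticMap.polar ⇑Q u b = 0)
    (hub' : QuadraticMap.polar ⇑Q u b' = 0) (e : b = b') :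
    eichO Q u b hu hub = eichO Q u b' hu hub' := by
  subst e
  rfl

/-- POW -/
theorem tg_eichO_pow_char (p : ℕ) [CharP F p] (u b : ι → F) (hu : Q u = 0)
    (hub : QuadraticMap.polar ⇑Q u b = 0) : (eichO Q u b hu hub) ^ p = 1 := by
  have hsm : ∀ c : F, QuadraticMap.polar ⇑Q u (c • b) = 0 := by
    intro c
    rw [QuadraticMap.polar_smul_right, hub, smul_zero]
  have key : ∀ j : ℕ, (eichO Q u b hu hub) ^ j = eichO Q u ((j : F) • b) hu (hsm _) := by
    intro j
    induction j with
    | zero =>
      rw [pow_zero]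
      apply ext_mv
      intro x
      rw [mv_eichO, Nat.cast_zero, zero_smul, eich_zero, mv_one]
    | succ j ih =>
      have h1 : QuadraticMap.polar ⇑Q u ((j : F) • b + b) = 0 := by
        rw [QuadraticMap.polar_add_right, hsm, hub, add_zero]
      rw [pow_succ, ih, eichO_mul Q u _ _ hu (hsm _) hub h1]
      exact tg_eichO_congr' Q hu h1 (hsm _) (by rw [Nat.cast_succ, add_smul, one_smul])
  rw [key p]
  apply ext_mv
  intro x
  rw [mv_eichO, CharP.cast_eq_zero, zero_smul, eich_zero, mv_one]

end Cfsg.Agent.Helper61
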