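import Mathlib
import Cfsg.Prelude.Def_GeometricClasses
import Cfsg.Prelude.Def_Classical
import Cfsg.Agent.Helper58.TSDefs
import Cfsg.Agent.Helper98.OPar
import Cfsg.Agent.Helper6.TSR2SKBASIS
import Cfsg.Agent.Helper61.TSR2SkOmCore

/-!
helper61: piece SKOMEGA of sub-CALL TSR2 (helper90) - an isometry `g` with `g² = -1` (`-1` a
nonsquare) lies in `Ω` iff `2 ^ d` is a square.  Core: `Cfsg.Agent.Helper61.TSR2.skom_core`
(product of the `2 d` reflections in `v j + g (v j)`, `v j`), frame from SKBASIS (helper6).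
-/

set_option autoImplicit false

namespace Cfsg.Agent.Helper61.TSR2

open Module Cfsg Cfsg.Geo Cfsg.Agent.Helper58.TS
open scoped MatrixGroups

variable {ι : Type} [Fintype ι] [DecidableEq ι] {F : Type*} [Field F] [Fintype F]

/-- SKOMEGA [L] (uses SKBASIS and `Helper45.mem_omega_prod_refl`): with `v` from SKBASIS,
`M = ∏_j reflectionMatrix Q (v j + M v j) * reflectionMatrix Q (v j)` (on `⟨v, M v⟩`:
`r_{v+Mv} r_v` sends `v ↦ M v`, `M v ↦ -v`; `Q (v + M v) = 2 Q v`), a product of `2d` reflections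
with norm product `2^d ∏ (Q (v j))²`. -/
theorem r2_skew_omega (Q : (ι → F) → F) (hQ : IsNondegenerateQuadraticForm Q) (h2 : (2 : F) ≠ 0)
    (d : ℕ) (hd : 1 ≤ d) (hcard : Fintype.card ι = 2 * d) (g : ↥(Cfsg.isometryGroup F Q))
    (hg2 : ((g : GL ι F) : Matrix ι ι F) * ((g : GL ι F) : Matrix ι ι F) = -1)
    (hm1 : ¬ IsSquare (-1 : F)) : g ∈ Cfsg.Omega F Q ↔ IsSquare ((2 : F) ^ d) := by
  have hM : ∀ x, Q (((g : GL ι F) : Matrix ι ι F).mulVec x) = Q x :=
    fun x => Cfsg.Agent.Helper45.mv_quad Q g x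
  obtain ⟨v, hv, horth⟩ :=
    Cfsg.Agent.Helper6.TSR2.r2_skew_basis Q hQ h2 d hcard _ hM hg2 hm1
  exact skom_core (Cfsg.Agent.Helper98.op_qf Q hQ) h2 (Cfsg.Agent.Helper98.op_qf_nondeg Q hQ)
    d hd hcard g hg2 v hv horth

end Cfsg.Agent.Helper61.TSR2
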