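import Mathlib

set_option autoImplicit false
set_option linter.unusedSectionVars false
set_option linter.unusedVariables false
set_option linter.unusedSimpArgs false
set_option linter.style.haveILetI false

namespace Cfsg.Agent.Helper61

/-- PIECE A of CALL S2407 -/
theorem exists_torus_params {K : Type*} [Field K] [Fintype K] {q : ℕ} (hq : 1 < q)
    (hK : Fintype.card K = q ^ 3) :
    ∃ A B : K, A ≠ 0 ∧ B ≠ 0 ∧ B ^ q = B ∧ (A ^ 2 * B⁻¹) ^ q ≠ A ^ 2 * B⁻¹ ∧
      ∀ t : K, t ≠ 0 → ∃ i : ℕ, t = (A ^ 2 * B⁻¹) ^ i := by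
  classical
  obtain ⟨u, hu⟩ := IsCyclic.exists_generator (α := Kˣ)
  have hord : orderOf u = q ^ 3 - 1 := by
    rw [orderOf_eq_card_of_forall_mem_zpowers hu, Nat.card_eq_fintype_card, Fintype.card_units, hK]
  have hq3 : q < q ^ 3 := by
    calc q = q ^ 1 := (pow_one q).symm
      _ < q ^ 3 := Nat.pow_lt_pow_right hq (by norm_num)
  have hg0 : (u : K) ≠ 0 := u.ne_zero
  have hgpow : (u : K) ^ (q ^ 3 - 1) = 1 := by
    have := FiniteField.pow_card_sub_one_eq_one (u : K) hg0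
    rw [hK] at this
    exact this
  -- N = q^2 + q + 1 is odd
  obtain ⟨M, hM⟩ : ∃ M : ℕ, 2 * M = q ^ 2 + q + 1 + 1 := by
    have h : Even (q * (q + 1)) := Nat.even_mul_succ_self q
    obtain ⟨r, hr⟩ := h
    exact ⟨r + 1, by nlinarith⟩
  have hAB : ((u : K) ^ M) ^ 2 * ((u : K) ^ (q ^ 2 + q + 1))⁻¹ = (u : K) := by
    rw [← pow_mul, mul_comm M 2, hM, pow_succ, mul_comm ((u : K) ^ (q ^ 2 + q + 1)) (u : K),
      mul_assoc, mul_inv_cancel₀ (pow_ne_zero _ hg0), mul_one]
  refine ⟨(u : K) ^ M, (u : K) ^ (q ^ 2 + q + 1), pow_ne_zero _ hg0, pow_ne_zero _ hg0, ?_, ?_, ?_⟩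
  · rw [← pow_mul]
    have e : (q ^ 2 + q + 1) * q = (q ^ 2 + q + 1) + (q ^ 3 - 1) := by
      have : 1 ≤ q ^ 3 := Nat.one_le_pow _ _ (by omega)
      zify [this]
      ring
    rw [e, pow_add, hgpow, mul_one]
  · rw [hAB]
    intro h
    -- u ^ (q - 1) = 1
    have h1 : (u : K) ^ (q - 1) = 1 := by
      have h' : (u : K) ^ (q - 1) * (u : K) = (u : K) := by
        rw [← pow_succ, show q - 1 + 1 = q by omega]; exact h
      have := mul_right_cancel₀ hg0 (h'.trans (one_mul (u : K)).symm)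
      exact this
    have h2 : u ^ (q - 1) = 1 := by
      apply Units.ext
      rw [Units.val_pow_eq_pow_val, h1, Units.val_one]
    have h3 : orderOf u ∣ q - 1 := orderOf_dvd_of_pow_eq_one h2
    rw [hord] at h3
    have := Nat.le_of_dvd (by omega) h3
    omega
  · intro t ht
    rw [hAB]
    have hmem := hu (Units.mk0 t ht)
    rw [← mem_powers_iff_mem_zpowers, Submonoid.mem_powers_iff] at hmem
    obtain ⟨i, hi⟩ := hmem
    refine ⟨i, ?_⟩
    have := congrArg (fun x : Kˣ => (x : K)) hi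
    simp only [Units.val_pow_eq_pow_val, Units.val_mk0] at this
    exact this.symm

end Cfsg.Agent.Helper61
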