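import Mathlib

set_option autoImplicit false
set_option linter.unusedSectionVars false
set_option linter.unusedVariables false
set_option linter.unusedSimpArgs false
set_option linter.style.haveILetI false

namespace Cfsg.Agent.Helper61

/-- degree-two analogue of `exists_trace3` (for the sister row S2406): the trace `t + t ^ q`
maps the field with `q ^ 2` elements onto the fixed field of `x ↦ x ^ q`. -/
theorem exists_trace2 {K : Type*} [Field K] [Fintype K] {q : ℕ} (hq : 1 < q)
    (hK : Fintype.card K = q ^ 2) (s : K) (hs : s ^ q = s) :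
    ∃ t : K, t + t ^ q = s := by
  classical
  obtain ⟨p, hp⟩ := CharP.exists K
  haveI := hp
  have hpp : p.Prime := CharP.char_is_prime K p
  haveI : Fact p.Prime := ⟨hpp⟩
  obtain ⟨n, -, hn⟩ := FiniteField.card K p
  obtain ⟨m, -, hm⟩ : ∃ m, m ≤ (n : ℕ) ∧ q = p ^ m := by
    apply (Nat.dvd_prime_pow hpp).mp
    rw [← hn, hK]
    exact dvd_pow_self q (by norm_num)
  have hfrob : ∀ a b : K, (a + b) ^ q = a ^ q + b ^ q := by
    intro a b
    rw [hm]
    exact add_pow_char_pow a b p m
  have hq2 : ∀ t : K, (t ^ q) ^ q = t := by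
    intro t
    rw [← pow_mul, show q * q = q ^ 2 by ring, ← hK]
    exact FiniteField.pow_card t
  obtain ⟨t₀, ht₀⟩ : ∃ t₀ : K, t₀ + t₀ ^ q ≠ 0 := by
    by_contra hcon
    push Not at hcon
    have hne : (Polynomial.X ^ q + Polynomial.X : Polynomial K) ≠ 0 := by
      intro h
      have := congrArg (fun f : Polynomial K => f.coeff q) h
      simp only [Polynomial.coeff_add, Polynomial.coeff_X_pow, Polynomial.coeff_X,
        Polynomial.coeff_zero] at this
      rw [if_pos trivial, if_neg (by omega)] at this
      simp at this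
    have hdeg : (Polynomial.X ^ q + Polynomial.X : Polynomial K).natDegree ≤ q := by
      apply Polynomial.natDegree_add_le_of_degree_le
      · rw [Polynomial.natDegree_X_pow]
      · rw [Polynomial.natDegree_X]; omega
    have hsubset : (Finset.univ : Finset K) ⊆
        (Polynomial.X ^ q + Polynomial.X : Polynomial K).roots.toFinset := by
      intro k _
      rw [Multiset.mem_toFinset, Polynomial.mem_roots hne]
      simp only [Polynomial.IsRoot, Polynomial.eval_add, Polynomial.eval_pow, Polynomial.eval_X]
      rw [← hcon k]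
      ring
    have hle : Fintype.card K ≤ q :=
      calc Fintype.card K = (Finset.univ : Finset K).card := rfl
        _ ≤ (Polynomial.X ^ q + Polynomial.X : Polynomial K).roots.toFinset.card :=
            Finset.card_le_card hsubset
        _ ≤ Multiset.card (Polynomial.X ^ q + Polynomial.X : Polynomial K).roots :=
            Multiset.toFinset_card_le _
        _ ≤ (Polynomial.X ^ q + Polynomial.X : Polynomial K).natDegree :=
            Polynomial.card_roots' _
        _ ≤ q := hdeg
    rw [hK] at hle
    have : q < q ^ 2 := by nlinarith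
    omega
  obtain ⟨c, hc⟩ : ∃ c : K, c = t₀ + t₀ ^ q := ⟨_, rfl⟩
  rw [← hc] at ht₀
  have hcq : c ^ q = c := by
    rw [hc, hfrob, hq2]
    ring
  have hcinv : (s * c⁻¹) ^ q = s * c⁻¹ := by
    rw [mul_pow, inv_pow, hs, hcq]
  refine ⟨s * c⁻¹ * t₀, ?_⟩
  have e1 : (s * c⁻¹ * t₀) ^ q = s * c⁻¹ * t₀ ^ q := by rw [mul_pow, hcinv]
  rw [e1]
  have : s * c⁻¹ * t₀ + s * c⁻¹ * t₀ ^ q = s * c⁻¹ * c := by
    rw [hc]; ring
  rw [this, mul_assoc, inv_mul_cancel₀ ht₀, mul_one]

end Cfsg.Agent.Helper61
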