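import Mathlib
import Cfsg.Prelude.Def_CaseTheorems

/-!
# Wreathed and quasi-dihedral 2-groups: coordinates (helper61)

For a subgroup `S` of `X` with `Cfsg.IsWreathed ↥S` we build a "frame" `IsWrFrameIn S n A c x' y'`:
`A` the homocyclic abelian subgroup of index 2, `c` a generator of `Z(S)`, `x'`, `y'` the two
non-central involutions of `A`, with the structural facts needed for fusion arguments.
For `Cfsg.IsQuasiDihedral ↥S` we show that the centre of `S` has at most two elements.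
-/

set_option autoImplicit false

namespace Cfsg.Agent.Helper61

variable {X : Type*} [Group X]

/-- In a cyclic group of order `2 ^ n` (`n ≥ 1`) generated by `c`, an element with trivial square is `1`
or `c ^ 2 ^ (n - 1)`. -/
theorem wr_sq_one_of_mem_zpowers {c : X} {n : ℕ} (hn : 1 ≤ n) (hc : orderOf c = 2 ^ n) {a : X}
    (ha : a ∈ Subgroup.zpowers c) (h : a * a = 1) : a = 1 ∨ a = c ^ 2 ^ (n - 1) := by
  obtain ⟨i, rfl⟩ := Subgroup.mem_zpowers_iff.mp ha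
  have h1 : c ^ (2 * i) = 1 := by rw [two_mul, zpow_add]; exact h
  have h2 : ((2 ^ n : ℕ) : ℤ) ∣ 2 * i := by rw [← hc]; exact orderOf_dvd_iff_zpow_eq_one.mpr h1
  obtain ⟨m, rfl⟩ : ∃ m, n = m + 1 := ⟨n - 1, by omega⟩
  have h3 : ((2 ^ m : ℕ) : ℤ) ∣ i := by
    rw [pow_succ] at h2
    push_cast at h2 ⊢
    rw [mul_comm] at h2
    exact (mul_dvd_mul_iff_left (two_ne_zero)).mp h2
  obtain ⟨k, rfl⟩ := h3
  simp only [Nat.add_sub_cancel]
  rw [zpow_mul, zpow_natCast]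
  obtain ⟨w, hw⟩ : ∃ w, w = c ^ 2 ^ m := ⟨_, rfl⟩
  rw [← hw]
  have hw2 : w ^ (2 : ℤ) = 1 := by
    rw [hw, zpow_ofNat, ← pow_mul, ← pow_succ, ← hc]; exact pow_orderOf_eq_one c
  rcases Int.even_or_odd' k with ⟨q, rfl | rfl⟩
  · left; rw [zpow_mul, hw2, one_zpow]
  · right; rw [zpow_add, zpow_mul, hw2, one_zpow, one_mul, zpow_one]

theorem wr_mul {x y : X} (hxy : x * y = y * x) (i j k l : ℤ) :
    x ^ i * y ^ j * (x ^ k * y ^ l) = x ^ (i + k) * y ^ (j + l) := by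
  have h : Commute x y := hxy
  have h1 : y ^ j * x ^ k = x ^ k * y ^ j := ((h.zpow_zpow k j).eq).symm
  rw [zpow_add, zpow_add]
  calc x ^ i * y ^ j * (x ^ k * y ^ l) = x ^ i * (y ^ j * x ^ k) * y ^ l := by group
    _ = x ^ i * (x ^ k * y ^ j) * y ^ l := by rw [h1]
    _ = x ^ i * x ^ k * (y ^ j * y ^ l) := by group

theorem wr_inv {x y : X} (hxy : x * y = y * x) (i j : ℤ) :
    (x ^ i * y ^ j)⁻¹ = x ^ (-i) * y ^ (-j) := by
  apply inv_eq_of_mul_eq_one_right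
  rw [wr_mul hxy]
  simp

/-- Coordinates for a wreathed group inside `X`. -/
structure WrCoord (S : Subgroup X) (n : ℕ) (x y t : X) : Prop where
  hn : 2 ≤ n
  hxS : x ∈ S
  hyS : y ∈ S
  htS : t ∈ S
  hxy : x * y = y * x
  ht2 : t * t = 1
  htx : t * x * t⁻¹ = y
  hty : t * y * t⁻¹ = x
  hx : orderOf x = 2 ^ n
  hy : orderOf y = 2 ^ n
  hd : ∀ i j : ℤ, x ^ i = y ^ j → x ^ i = 1
  hcard : Nat.card S = 2 ^ (2 * n + 1)

/-- The abelian subgroup `⟨x⟩⟨y⟩`. -/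
def wrA (x y : X) (hxy : x * y = y * x) : Subgroup X where
  carrier := {a | ∃ i j : ℤ, a = x ^ i * y ^ j}
  mul_mem' := by
    rintro _ _ ⟨i, j, rfl⟩ ⟨k, l, rfl⟩
    exact ⟨i + k, j + l, wr_mul hxy i j k l⟩
  one_mem' := ⟨0, 0, by simp⟩
  inv_mem' := by
    rintro _ ⟨i, j, rfl⟩
    exact ⟨-i, -j, wr_inv hxy i j⟩

theorem mem_wrA {x y : X} (hxy : x * y = y * x) {a : X} :
    a ∈ wrA x y hxy ↔ ∃ i j : ℤ, a = x ^ i * y ^ j := Iff.rfl

namespace WrCoord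

variable {S : Subgroup X} {n : ℕ} {x y t : X}

theorem tinv (h : WrCoord S n x y t) : t⁻¹ = t := inv_eq_of_mul_eq_one_right h.ht2

theorem eq_one (h : WrCoord S n x y t) {i j : ℤ} (e : x ^ i * y ^ j = 1) :
    x ^ i = 1 ∧ y ^ j = 1 := by
  have h1 : x ^ i = y ^ (-j) := by
    rw [zpow_neg]; exact eq_inv_of_mul_eq_one_left e
  have h2 := h.hd i (-j) h1
  refine ⟨h2, ?_⟩
  rw [h2, one_mul] at e
  exact e

theorem A_le (h : WrCoord S n x y t) : wrA x y h.hxy ≤ S := by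
  rintro _ ⟨i, j, rfl⟩
  exact S.mul_mem (S.zpow_mem h.hxS i) (S.zpow_mem h.hyS j)

theorem A_comm (h : WrCoord S n x y t) : ∀ a ∈ wrA x y h.hxy, ∀ b ∈ wrA x y h.hxy, a * b = b * a := by
  rintro _ ⟨i, j, rfl⟩ _ ⟨k, l, rfl⟩
  rw [wr_mul h.hxy, wr_mul h.hxy, add_comm i k, add_comm j l]

theorem conj_t (h : WrCoord S n x y t) (i j : ℤ) :
    t * (x ^ i * y ^ j) * t⁻¹ = x ^ j * y ^ i := by
  have e1 : t * x ^ i * t⁻¹ = y ^ i := by rw [← conj_zpow, h.htx]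
  have e2 : t * y ^ j * t⁻¹ = x ^ j := by rw [← conj_zpow, h.hty]
  have h1 : y ^ i * x ^ j = x ^ j * y ^ i := (((show Commute x y from h.hxy).zpow_zpow j i).eq).symm
  calc t * (x ^ i * y ^ j) * t⁻¹ = (t * x ^ i * t⁻¹) * (t * y ^ j * t⁻¹) := by group
    _ = x ^ j * y ^ i := by rw [e1, e2, h1]

theorem t_not_mem (h : WrCoord S n x y t) : t ∉ wrA x y h.hxy := by
  intro ht
  have hxA : x ∈ wrA x y h.hxy := ⟨1, 0, by simp⟩
  have h1 := h.A_comm t ht x hxA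
  have h2 : y = x := by
    rw [← h.htx, h1]; group
  have h3 := h.hd 1 1 (by rw [zpow_one, zpow_one, h2])
  rw [zpow_one] at h3
  have h4 := h.hx
  rw [h3, orderOf_one] at h4
  have : 2 ^ n ≥ 2 ^ 2 := Nat.pow_le_pow_right (by norm_num) h.hn
  omega

theorem card_A (h : WrCoord S n x y t) : Nat.card (wrA x y h.hxy) = 2 ^ (2 * n) := by
  have hdisj : Disjoint (Subgroup.zpowers x) (Subgroup.zpowers y) := by
    rw [Subgroup.disjoint_def]
    intro g hgx hgy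
    obtain ⟨i, rfl⟩ := Subgroup.mem_zpowers_iff.mp hgx
    obtain ⟨j, hj⟩ := Subgroup.mem_zpowers_iff.mp hgy
    exact h.hd i j hj.symm
  have hinj := Subgroup.mul_injective_of_disjoint hdisj
  let f : Subgroup.zpowers x × Subgroup.zpowers y → wrA x y h.hxy := fun p =>
    ⟨(p.1 : X) * (p.2 : X), by
      obtain ⟨i, hi⟩ := Subgroup.mem_zpowers_iff.mp p.1.2
      obtain ⟨j, hj⟩ := Subgroup.mem_zpowers_iff.mp p.2.2
      exact ⟨i, j, by rw [hi, hj]⟩⟩
  have hf : Function.Bijective f := by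
    constructor
    · intro p q hpq
      exact hinj (congrArg Subtype.val hpq)
    · rintro ⟨a, i, j, rfl⟩
      exact ⟨(⟨x ^ i, Subgroup.zpow_mem_zpowers x i⟩, ⟨y ^ j, Subgroup.zpow_mem_zpowers y j⟩), rfl⟩
  rw [← Nat.card_congr (Equiv.ofBijective f hf), Nat.card_prod, Nat.card_zpowers, Nat.card_zpowers,
    h.hx, h.hy, ← pow_add, two_mul]

theorem mul_mem_iff (h : WrCoord S n x y t) : ∀ a ∈ S, ∀ b ∈ S,
    (a * b ∈ wrA x y h.hxy ↔ (a ∈ wrA x y h.hxy ↔ b ∈ wrA x y h.hxy)) := by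
  have hS : Finite S := Nat.finite_of_card_ne_zero (by rw [h.hcard]; positivity)
  have hidx : ((wrA x y h.hxy).subgroupOf S).index = 2 := by
    have h1 := Subgroup.card_mul_index ((wrA x y h.hxy).subgroupOf S)
    rw [Nat.card_congr (Subgroup.subgroupOfEquivOfLe h.A_le).toEquiv, h.card_A, h.hcard, pow_succ] at h1
    exact Nat.eq_of_mul_eq_mul_left (by positivity) h1
  intro a ha b hb
  have := Subgroup.mul_mem_iff_of_index_two hidx (a := ⟨a, ha⟩) (b := ⟨b, hb⟩)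
  simpa [Subgroup.mem_subgroupOf] using this

theorem exists_coord (h : WrCoord S n x y t) {s : X} (hs : s ∈ S) (hsA : s ∉ wrA x y h.hxy) :
    ∃ b ∈ wrA x y h.hxy, s = b * t := by
  have h1 : s * t ∈ wrA x y h.hxy := by
    rw [h.mul_mem_iff s hs t h.htS]
    exact ⟨fun h' => absurd h' hsA, fun h' => absurd h' h.t_not_mem⟩
  refine ⟨s * t, h1, ?_⟩
  rw [mul_assoc, h.ht2, mul_one]

theorem c_zpow (h : WrCoord S n x y t) (k : ℤ) : (x * y) ^ k = x ^ k * y ^ k :=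
  (show Commute x y from h.hxy).mul_zpow k

theorem c_mem (h : WrCoord S n x y t) : x * y ∈ wrA x y h.hxy := ⟨1, 1, by simp⟩

theorem t_c (h : WrCoord S n x y t) : t * (x * y) = (x * y) * t := by
  have h1 := h.conj_t 1 1
  rw [zpow_one, zpow_one] at h1
  calc t * (x * y) = (t * (x * y) * t⁻¹) * t := by group
    _ = (x * y) * t := by rw [h1]

theorem c_central (h : WrCoord S n x y t) : ∀ s ∈ S, s * (x * y) = (x * y) * s := by
  intro s hs
  by_cases hsA : s ∈ wrA x y h.hxy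
  · exact h.A_comm s hsA _ h.c_mem
  · obtain ⟨b, hb, rfl⟩ := h.exists_coord hs hsA
    rw [mul_assoc, h.t_c, ← mul_assoc, h.A_comm b hb _ h.c_mem, mul_assoc]

theorem c_order (h : WrCoord S n x y t) : orderOf (x * y) = 2 ^ n := by
  apply Nat.dvd_antisymm
  · apply orderOf_dvd_of_pow_eq_one
    have h1 := h.c_zpow ((2 ^ n : ℕ) : ℤ)
    rw [zpow_natCast, zpow_natCast, zpow_natCast] at h1
    rw [h1]
    have e1 : x ^ 2 ^ n = 1 := by rw [← h.hx]; exact pow_orderOf_eq_one x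
    have e2 : y ^ 2 ^ n = 1 := by rw [← h.hy]; exact pow_orderOf_eq_one y
    rw [e1, e2, one_mul]
  · rw [← h.hx]
    apply orderOf_dvd_of_pow_eq_one
    have h1 := h.c_zpow ((orderOf (x * y) : ℕ) : ℤ)
    rw [zpow_natCast, pow_orderOf_eq_one] at h1
    have h2 := (h.eq_one h1.symm).1
    rw [zpow_natCast] at h2
    exact h2

theorem cent (h : WrCoord S n x y t) : ∀ s ∈ S, s ∉ wrA x y h.hxy → ∀ a ∈ wrA x y h.hxy,
    a * s = s * a → a ∈ Subgroup.zpowers (x * y) := by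
  intro s hs hsA a ha hcomm
  obtain ⟨b, hb, rfl⟩ := h.exists_coord hs hsA
  have hab := h.A_comm a ha b hb
  have h1 : t * a * t⁻¹ = a := by
    have e1 : b * (a * t) = b * (t * a) := by
      calc b * (a * t) = a * (b * t) := by rw [← mul_assoc, ← hab, mul_assoc]
        _ = b * t * a := hcomm
        _ = b * (t * a) := by rw [mul_assoc]
    have e2 : a * t = t * a := mul_left_cancel e1
    rw [← e2]; group
  obtain ⟨i, j, rfl⟩ := ha
  rw [h.conj_t] at h1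
  -- x^j y^i = x^i y^j
  have h2 : x ^ (j - i) * y ^ (i - j) = 1 := by
    have e := wr_mul h.hxy j i (-i) (-j)
    rw [h1, wr_mul h.hxy] at e
    simp only [add_neg_cancel, zpow_zero, one_mul] at e
    rw [sub_eq_add_neg, sub_eq_add_neg]
    exact e.symm
  have h3 := (h.eq_one h2).2
  have h4 : y ^ j = y ^ i := by
    have : y ^ i = y ^ (i - j) * y ^ j := by rw [← zpow_add]; congr 1; ring
    rw [this, h3, one_mul]
  rw [h4, ← h.c_zpow]
  exact Subgroup.zpow_mem_zpowers _ i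

theorem x'_pow (h : WrCoord S n x y t) :
    (x * y) ^ 2 ^ (n - 1) = x ^ 2 ^ (n - 1) * y ^ 2 ^ (n - 1) :=
  (show Commute x y from h.hxy).mul_pow _

theorem x'_mem (h : WrCoord S n x y t) : x ^ 2 ^ (n - 1) ∈ wrA x y h.hxy :=
  ⟨((2 ^ (n - 1) : ℕ) : ℤ), 0, by rw [zpow_natCast, zpow_zero, mul_one]⟩

theorem y'_mem (h : WrCoord S n x y t) : y ^ 2 ^ (n - 1) ∈ wrA x y h.hxy :=
  ⟨0, ((2 ^ (n - 1) : ℕ) : ℤ), by rw [zpow_natCast, zpow_zero, one_mul]⟩

theorem x'_ne_one (h : WrCoord S n x y t) : x ^ 2 ^ (n - 1) ≠ 1 := by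
  intro e
  have h1 := orderOf_dvd_of_pow_eq_one e
  rw [h.hx] at h1
  have h2 := (Nat.pow_dvd_pow_iff_le_right (by norm_num : 1 < 2)).mp h1
  have := h.hn
  omega

theorem y'_ne_one (h : WrCoord S n x y t) : y ^ 2 ^ (n - 1) ≠ 1 := by
  intro e
  have h1 := orderOf_dvd_of_pow_eq_one e
  rw [h.hy] at h1
  have h2 := (Nat.pow_dvd_pow_iff_le_right (by norm_num : 1 < 2)).mp h1
  have := h.hn
  omega

theorem x'_sq (h : WrCoord S n x y t) : x ^ 2 ^ (n - 1) * x ^ 2 ^ (n - 1) = 1 := by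
  have hn := h.hn
  rw [← pow_add, ← two_mul, ← pow_succ', show n - 1 + 1 = n by omega, ← h.hx]
  exact pow_orderOf_eq_one x

theorem y'_sq (h : WrCoord S n x y t) : y ^ 2 ^ (n - 1) * y ^ 2 ^ (n - 1) = 1 := by
  have hn := h.hn
  rw [← pow_add, ← two_mul, ← pow_succ', show n - 1 + 1 = n by omega, ← h.hy]
  exact pow_orderOf_eq_one y

theorem x'_ne_y' (h : WrCoord S n x y t) : x ^ 2 ^ (n - 1) ≠ y ^ 2 ^ (n - 1) := by
  intro e
  have h1 := h.hd ((2 ^ (n - 1) : ℕ) : ℤ) ((2 ^ (n - 1) : ℕ) : ℤ) (by rw [zpow_natCast, zpow_natCast, e])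
  rw [zpow_natCast] at h1
  exact h.x'_ne_one h1

theorem invol (h : WrCoord S n x y t) : ∀ a ∈ wrA x y h.hxy, a * a = 1 →
    a = 1 ∨ a = (x * y) ^ 2 ^ (n - 1) ∨ a = x ^ 2 ^ (n - 1) ∨ a = y ^ 2 ^ (n - 1) := by
  rintro _ ⟨i, j, rfl⟩ e
  rw [wr_mul h.hxy] at e
  obtain ⟨e1, e2⟩ := h.eq_one e
  rw [zpow_add] at e1 e2
  have hn : 1 ≤ n := le_trans (by norm_num) h.hn
  rcases wr_sq_one_of_mem_zpowers hn h.hx (Subgroup.zpow_mem_zpowers x i) e1 with hx1 | hx1 <;>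
  rcases wr_sq_one_of_mem_zpowers hn h.hy (Subgroup.zpow_mem_zpowers y j) e2 with hy1 | hy1
  · left; rw [hx1, hy1, one_mul]
  · right; right; right; rw [hx1, hy1, one_mul]
  · right; right; left; rw [hx1, hy1, mul_one]
  · right; left; rw [hx1, hy1, h.x'_pow]

theorem swap (h : WrCoord S n x y t) : ∀ s ∈ S, s ∉ wrA x y h.hxy →
    s * x ^ 2 ^ (n - 1) * s⁻¹ = y ^ 2 ^ (n - 1) ∧ s * y ^ 2 ^ (n - 1) * s⁻¹ = x ^ 2 ^ (n - 1) := by
  intro s hs hsA
  obtain ⟨b, hb, rfl⟩ := h.exists_coord hs hsA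
  have e1 : t * x ^ 2 ^ (n - 1) * t⁻¹ = y ^ 2 ^ (n - 1) := by rw [← conj_pow, h.htx]
  have e2 : t * y ^ 2 ^ (n - 1) * t⁻¹ = x ^ 2 ^ (n - 1) := by rw [← conj_pow, h.hty]
  constructor
  · calc b * t * x ^ 2 ^ (n - 1) * (b * t)⁻¹ = b * (t * x ^ 2 ^ (n - 1) * t⁻¹) * b⁻¹ := by group
      _ = y ^ 2 ^ (n - 1) := by rw [e1, h.A_comm b hb _ h.y'_mem]; group
  · calc b * t * y ^ 2 ^ (n - 1) * (b * t)⁻¹ = b * (t * y ^ 2 ^ (n - 1) * t⁻¹) * b⁻¹ := by group
      _ = x ^ 2 ^ (n - 1) := by rw [e2, h.A_comm b hb _ h.x'_mem]; group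

/-- An involution outside `A` is `x ^ i * t * x ^ (-i)`. -/
theorem invol_form (h : WrCoord S n x y t) {s : X} (hs : s ∈ S) (hsA : s ∉ wrA x y h.hxy)
    (e : s * s = 1) : ∃ i : ℤ, s = x ^ i * t * (x ^ i)⁻¹ := by
  obtain ⟨b, ⟨i, j, rfl⟩, rfl⟩ := h.exists_coord hs hsA
  have h1 : x ^ i * y ^ j * t * (x ^ i * y ^ j * t) = x ^ (i + j) * y ^ (j + i) := by
    have e1 := h.conj_t i j
    calc x ^ i * y ^ j * t * (x ^ i * y ^ j * t)
        = x ^ i * y ^ j * (t * (x ^ i * y ^ j) * t⁻¹) * (t * t) := by group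
      _ = x ^ (i + j) * y ^ (j + i) := by rw [e1, h.ht2, mul_one, wr_mul h.hxy]
  rw [h1] at e
  have h2 := (h.eq_one e).2
  have h3 : y ^ j = y ^ (-i) := by
    have : y ^ j = y ^ (j + i) * y ^ (-i) := by rw [← zpow_add]; congr 1; ring
    rw [this, h2, one_mul]
  refine ⟨i, ?_⟩
  have h4 : t * (x ^ i)⁻¹ * t⁻¹ = y ^ (-i) := by
    rw [← zpow_neg, ← conj_zpow, h.htx]
  rw [h3]
  calc x ^ i * y ^ (-i) * t = x ^ i * (t * (x ^ i)⁻¹ * t⁻¹) * t := by rw [h4]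
    _ = x ^ i * t * (x ^ i)⁻¹ := by group

theorem invol_conj (h : WrCoord S n x y t) : ∀ s ∈ S, ∀ s' ∈ S, s ∉ wrA x y h.hxy →
    s' ∉ wrA x y h.hxy → s * s = 1 → s' * s' = 1 → ∃ a ∈ wrA x y h.hxy, s' = a * s * a⁻¹ := by
  intro s hs s' hs' hsA hsA' e e'
  obtain ⟨i, rfl⟩ := h.invol_form hs hsA e
  obtain ⟨k, rfl⟩ := h.invol_form hs' hsA' e'
  refine ⟨x ^ (k - i), ⟨k - i, 0, by simp⟩, ?_⟩
  rw [zpow_sub]
  group

theorem center_le [Finite X] (h : WrCoord S n x y t) : ∀ w ∈ S, (∀ s ∈ S, s * w = w * s) →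
    w ∈ Subgroup.zpowers (x * y) := by
  intro w hw hcen
  by_cases hwA : w ∈ wrA x y h.hxy
  · exact h.cent t h.htS h.t_not_mem w hwA (hcen t h.htS).symm
  · exfalso
    have hle : wrA x y h.hxy ≤ Subgroup.zpowers (x * y) := fun a ha =>
      h.cent w hw hwA a ha (hcen a (h.A_le ha))
    have h1 := Subgroup.card_le_of_le hle
    rw [h.card_A, Nat.card_zpowers, h.c_order] at h1
    have h2 := (Nat.pow_le_pow_iff_right (by norm_num : 1 < 2)).mp h1
    have := h.hn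
    omega

theorem uniq [Finite X] (h : WrCoord S n x y t) : ∀ A₂ : Subgroup X, A₂ ≤ S →
    (∀ a ∈ A₂, ∀ b ∈ A₂, a * b = b * a) → Nat.card A₂ = Nat.card (wrA x y h.hxy) →
    A₂ = wrA x y h.hxy := by
  intro A₂ hA₂S hcomm hcard
  have hle : A₂ ≤ wrA x y h.hxy := by
    by_contra hcon
    obtain ⟨s, hs, hsA⟩ := SetLike.not_le_iff_exists.mp hcon
    have hsS := hA₂S hs
    have hsub : (A₂ : Set X) ⊆ (Subgroup.zpowers (x * y) : Set X) ∪
        (fun a => a * s) '' (Subgroup.zpowers (x * y) : Set X) := by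
      intro a ha
      by_cases haA : a ∈ wrA x y h.hxy
      · left
        exact h.cent s hsS hsA a haA (hcomm a ha s hs)
      · right
        have h1 : a * s⁻¹ ∈ wrA x y h.hxy := by
          rw [h.mul_mem_iff a (hA₂S ha) s⁻¹ (S.inv_mem hsS)]
          exact ⟨fun h' => absurd h' haA, fun h' => absurd ((Subgroup.inv_mem_iff _).mp h') hsA⟩
        have h2 : a * s⁻¹ * s = s * (a * s⁻¹) := by
          have := hcomm a ha s hs
          calc a * s⁻¹ * s = a := by group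
            _ = s * a * s⁻¹ := by rw [← this]; group
            _ = s * (a * s⁻¹) := by group
        exact ⟨a * s⁻¹, h.cent s hsS hsA _ h1 h2, by group⟩
    have h1 : Nat.card A₂ ≤ 2 ^ n + 2 ^ n := by
      rw [← SetLike.coe_sort_coe, Nat.card_coe_set_eq]
      calc (A₂ : Set X).ncard ≤ ((Subgroup.zpowers (x * y) : Set X) ∪
            (fun a => a * s) '' (Subgroup.zpowers (x * y) : Set X)).ncard :=
            Set.ncard_le_ncard hsub (Set.toFinite _)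
        _ ≤ (Subgroup.zpowers (x * y) : Set X).ncard +
            ((fun a => a * s) '' (Subgroup.zpowers (x * y) : Set X)).ncard := Set.ncard_union_le _ _
        _ ≤ (Subgroup.zpowers (x * y) : Set X).ncard + (Subgroup.zpowers (x * y) : Set X).ncard :=
            Nat.add_le_add_left (Set.ncard_image_le (Set.toFinite _)) _
        _ = 2 ^ n + 2 ^ n := by
            rw [← Nat.card_coe_set_eq, SetLike.coe_sort_coe, Nat.card_zpowers, h.c_order]
    rw [hcard, h.card_A] at h1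
    have hn := h.hn
    have h2 : 2 ^ (2 * n) ≤ 2 ^ (n + 1) := by rw [pow_succ]; omega
    have h3 := (Nat.pow_le_pow_iff_right (by norm_num : 1 < 2)).mp h2
    omega
  exact Subgroup.eq_of_le_of_card_ge hle hcard.ge

end WrCoord

/-- The frame of a wreathed Sylow subgroup. -/
structure IsWrFrameIn (S : Subgroup X) (n : ℕ) (A : Subgroup X) (c x' y' : X) : Prop where
  two_le : 2 ≤ n
  A_le : A ≤ S
  mul_mem_iff : ∀ a ∈ S, ∀ b ∈ S, (a * b ∈ A ↔ (a ∈ A ↔ b ∈ A))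
  exists_not_mem : ∃ s ∈ S, s ∉ A
  comm : ∀ a ∈ A, ∀ b ∈ A, a * b = b * a
  c_mem : c ∈ A
  c_central : ∀ s ∈ S, s * c = c * s
  c_order : orderOf c = 2 ^ n
  cent : ∀ s ∈ S, s ∉ A → ∀ a ∈ A, a * s = s * a → a ∈ Subgroup.zpowers c
  card : Nat.card A = 2 ^ (2 * n)
  x'_mem : x' ∈ A
  y'_mem : y' ∈ A
  x'_ne_y' : x' ≠ y'
  x'_ne_one : x' ≠ 1
  y'_ne_one : y' ≠ 1
  x'_ne_z : x' ≠ c ^ 2 ^ (n - 1)
  y'_ne_z : y' ≠ c ^ 2 ^ (n - 1)
  x'_sq : x' * x' = 1
  y'_sq : y' * y' = 1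
  invol : ∀ a ∈ A, a * a = 1 → a = 1 ∨ a = c ^ 2 ^ (n - 1) ∨ a = x' ∨ a = y'
  swap : ∀ s ∈ S, s ∉ A → s * x' * s⁻¹ = y' ∧ s * y' * s⁻¹ = x'
  invol_conj : ∀ s ∈ S, ∀ s' ∈ S, s ∉ A → s' ∉ A → s * s = 1 → s' * s' = 1 →
    ∃ a ∈ A, s' = a * s * a⁻¹
  uniq : ∀ A₂ : Subgroup X, A₂ ≤ S → (∀ a ∈ A₂, ∀ b ∈ A₂, a * b = b * a) →
    Nat.card A₂ = Nat.card A → A₂ = A
  center_le : ∀ w ∈ S, (∀ s ∈ S, s * w = w * s) → w ∈ Subgroup.zpowers c

theorem WrCoord.frame [Finite X] {S : Subgroup X} {n : ℕ} {x y t : X} (h : WrCoord S n x y t) :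
    IsWrFrameIn S n (wrA x y h.hxy) (x * y) (x ^ 2 ^ (n - 1)) (y ^ 2 ^ (n - 1)) where
  two_le := h.hn
  A_le := h.A_le
  mul_mem_iff := h.mul_mem_iff
  exists_not_mem := ⟨t, h.htS, h.t_not_mem⟩
  comm := h.A_comm
  c_mem := h.c_mem
  c_central := h.c_central
  c_order := h.c_order
  cent := h.cent
  card := h.card_A
  x'_mem := h.x'_mem
  y'_mem := h.y'_mem
  x'_ne_y' := h.x'_ne_y'
  x'_ne_one := h.x'_ne_one
  y'_ne_one := h.y'_ne_one
  x'_ne_z := by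
    rw [h.x'_pow]
    intro e
    exact h.y'_ne_one (by simpa using e.symm)
  y'_ne_z := by
    rw [h.x'_pow]
    intro e
    exact h.x'_ne_one (by simpa using e.symm)
  x'_sq := h.x'_sq
  y'_sq := h.y'_sq
  invol := h.invol
  swap := h.swap
  invol_conj := h.invol_conj
  uniq := h.uniq
  center_le := h.center_le

/-- A wreathed subgroup of a finite group has a frame. -/
theorem exists_wrFrame [Finite X] (S : Subgroup X) (h : Cfsg.IsWreathed ↥S) :
    ∃ (n : ℕ) (A : Subgroup X) (c x' y' : X), IsWrFrameIn S n A c x' y' := by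
  obtain ⟨n, hn, hcard, x₀, y₀, t₀, hx₀, hxy₀, hdisj₀, ht₀, htx₀⟩ := h
  have ht2 : (t₀ : X) * (t₀ : X) = 1 := by
    have h1 : t₀ ^ 2 = 1 := by rw [← ht₀]; exact pow_orderOf_eq_one t₀
    have h2 := congrArg Subtype.val h1
    rw [pow_two] at h2
    exact h2
  have htx : (t₀ : X) * (x₀ : X) * (t₀ : X)⁻¹ = (y₀ : X) := congrArg Subtype.val htx₀
  have htinv : (t₀ : X)⁻¹ = (t₀ : X) := inv_eq_of_mul_eq_one_right ht2
  have hty : (t₀ : X) * (y₀ : X) * (t₀ : X)⁻¹ = (x₀ : X) := by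
    rw [← htx, htinv]
    calc (t₀ : X) * ((t₀ : X) * (x₀ : X) * (t₀ : X)) * (t₀ : X)
        = ((t₀ : X) * (t₀ : X)) * (x₀ : X) * ((t₀ : X) * (t₀ : X)) := by group
      _ = (x₀ : X) := by rw [ht2, one_mul, mul_one]
  have hx : orderOf (x₀ : X) = 2 ^ n := by rw [Subgroup.orderOf_coe]; exact hx₀
  have hy : orderOf (y₀ : X) = 2 ^ n := by
    rw [← htx, ← hx]
    exact (MulAut.conj (t₀ : X)).orderOf_eq (x₀ : X)
  have hW : WrCoord S n (x₀ : X) (y₀ : X) (t₀ : X) :=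
    { hn := hn
      hxS := x₀.2
      hyS := y₀.2
      htS := t₀.2
      hxy := congrArg Subtype.val hxy₀
      ht2 := ht2
      htx := htx
      hty := hty
      hx := hx
      hy := hy
      hd := by
        intro i j e
        have e' : x₀ ^ i = y₀ ^ j := Subtype.ext (by simpa using e)
        have h1 : x₀ ^ i ∈ Subgroup.zpowers x₀ ⊓ Subgroup.zpowers y₀ :=
          ⟨Subgroup.zpow_mem_zpowers x₀ i, by rw [e']; exact Subgroup.zpow_mem_zpowers y₀ j⟩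
        rw [hdisj₀, Subgroup.mem_bot] at h1
        have h2 := congrArg Subtype.val h1
        simpa using h2
      hcard := hcard }
  exact ⟨n, _, _, _, _, hW.frame⟩

/-- In a quasi-dihedral subgroup `S`, the centre has at most one nontrivial element. -/
theorem qd_center [Finite X] (S : Subgroup X) (h : Cfsg.IsQuasiDihedral ↥S) :
    ∃ z₀ : X, ∀ w ∈ S, (∀ s ∈ S, s * w = w * s) → w = 1 ∨ w = z₀ := by
  obtain ⟨n, hn, hcard, x₀, y₀, hx₀, hy₀, hyx₀⟩ := h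
  obtain ⟨x, hx'⟩ : ∃ x : X, x = (x₀ : X) := ⟨_, rfl⟩
  obtain ⟨y, hy'⟩ : ∃ y : X, y = (y₀ : X) := ⟨_, rfl⟩
  have hxS : x ∈ S := hx' ▸ x₀.2
  have hyS : y ∈ S := hy' ▸ y₀.2
  have hx : orderOf x = 2 ^ n := by rw [hx', Subgroup.orderOf_coe]; exact hx₀
  have hyx : y * x * y⁻¹ = x ^ (2 ^ (n - 1) - 1) := by
    have := congrArg Subtype.val hyx₀
    simpa [hx', hy'] using this
  obtain ⟨m, rfl⟩ : ∃ m, n = m + 3 := ⟨n - 3, by omega⟩
  have hn1 : m + 3 - 1 = m + 2 := by omega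
  rw [hn1] at hyx
  refine ⟨x ^ 2 ^ (m + 3 - 1), ?_⟩
  have hpos : 1 ≤ 2 ^ m := Nat.one_le_two_pow
  -- `y` does not commute with `x`
  have hnc : y * x ≠ x * y := by
    intro e
    have h1 : x ^ (2 ^ (m + 2) - 1) = x := by rw [← hyx, e]; group
    have h3 : 2 ^ (m + 2) - 1 = (2 ^ (m + 2) - 2) + 1 := by
      have : 2 ^ (m + 2) = 4 * 2 ^ m := by ring
      omega
    have h2 : x ^ (2 ^ (m + 2) - 2) = 1 := by
      rw [h3, pow_succ] at h1
      exact mul_right_cancel (by rw [h1, one_mul])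
    have h4 := orderOf_dvd_of_pow_eq_one h2
    rw [hx] at h4
    have e1 : 2 ^ (m + 2) = 4 * 2 ^ m := by ring
    have e2 : 2 ^ (m + 3) = 8 * 2 ^ m := by ring
    have h7 := Nat.le_of_dvd (by omega) h4
    omega
  have hSf : Finite S := Nat.finite_of_card_ne_zero (by rw [hcard]; positivity)
  have hxle : Subgroup.zpowers x ≤ S := Subgroup.zpowers_le.mpr hxS
  have hidx : ((Subgroup.zpowers x).subgroupOf S).index = 2 := by
    have h1 := Subgroup.card_mul_index ((Subgroup.zpowers x).subgroupOf S)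
    rw [Nat.card_congr (Subgroup.subgroupOfEquivOfLe hxle).toEquiv, Nat.card_zpowers, hx, hcard,
      pow_succ (2 : ℕ) (m + 3)] at h1
    exact Nat.eq_of_mul_eq_mul_left (by positivity) h1
  have hmm : ∀ a ∈ S, ∀ b ∈ S,
      (a * b ∈ Subgroup.zpowers x ↔ (a ∈ Subgroup.zpowers x ↔ b ∈ Subgroup.zpowers x)) := by
    intro a ha b hb
    have := Subgroup.mul_mem_iff_of_index_two hidx (a := ⟨a, ha⟩) (b := ⟨b, hb⟩)
    simpa [Subgroup.mem_subgroupOf] using this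
  intro w hw hcen
  have hwx : w ∈ Subgroup.zpowers x := by
    by_contra hwn
    have hyn : y ∉ Subgroup.zpowers x := by
      intro hy
      obtain ⟨i, hi⟩ := Subgroup.mem_zpowers_iff.mp hy
      apply hnc
      rw [← hi]
      group
    have h1 : w * y ∈ Subgroup.zpowers x :=
      (hmm w hw y hyS).mpr ⟨fun h' => absurd h' hwn, fun h' => absurd h' hyn⟩
    obtain ⟨i, hi⟩ := Subgroup.mem_zpowers_iff.mp h1
    have h2 := hcen x hxS
    have hw' : w = x ^ i * y⁻¹ := by rw [hi]; group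
    rw [hw'] at h2
    have h3 : x * y⁻¹ = y⁻¹ * x := by
      have e1 : x ^ i * (x * y⁻¹) = x ^ i * (y⁻¹ * x) := by
        calc x ^ i * (x * y⁻¹) = x * (x ^ i * y⁻¹) := by group
          _ = x ^ i * y⁻¹ * x := h2
          _ = x ^ i * (y⁻¹ * x) := by group
      exact mul_left_cancel e1
    apply hnc
    calc y * x = y * (x * y⁻¹) * y := by group
      _ = y * (y⁻¹ * x) * y := by rw [h3]
      _ = x * y := by group
  have hww : w * w = 1 := by
    obtain ⟨i, rfl⟩ := Subgroup.mem_zpowers_iff.mp hwx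
    have h1 : y * x ^ i * y⁻¹ = x ^ i := by
      have := hcen y hyS
      rw [this]; group
    rw [← conj_zpow, hyx, ← zpow_natCast, ← zpow_mul] at h1
    have h2 : x ^ (((2 ^ (m + 2) - 1 : ℕ) : ℤ) * i - i) = 1 := by
      rw [zpow_sub, h1, mul_inv_cancel]
    have h3 := orderOf_dvd_iff_zpow_eq_one.mpr h2
    rw [hx, Nat.cast_sub (Nat.one_le_two_pow : 1 ≤ 2 ^ (m + 2))] at h3
    push_cast at h3
    -- 2^(m+3) ∣ (2^(m+2) - 1) * i - i
    obtain ⟨P, hP⟩ : ∃ P : ℤ, P = 2 ^ m := ⟨_, rfl⟩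
    have e3 : (2 : ℤ) ^ (m + 3) = 2 * (4 * P) := by rw [hP]; ring
    have e2 : ((2 : ℤ) ^ (m + 2) - 1) * i - i = 2 * ((2 * P - 1) * i) := by rw [hP]; ring
    rw [e3, e2] at h3
    have h4 : 4 * P ∣ (2 * P - 1) * i := (mul_dvd_mul_iff_left (two_ne_zero)).mp h3
    have h5 : 4 * P ∣ i := by
      have e : i = P * (4 * P * i) - (2 * P + 1) * ((2 * P - 1) * i) := by ring
      rw [e]
      exact dvd_sub (Dvd.dvd.mul_left (Dvd.intro _ rfl) _) (Dvd.dvd.mul_left h4 _)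
    have h6 : x ^ (2 * i) = 1 := by
      apply orderOf_dvd_iff_zpow_eq_one.mp
      rw [hx]
      push_cast
      rw [e3]
      exact mul_dvd_mul_left 2 h5
    rw [← zpow_add, ← two_mul]
    exact h6
  exact wr_sq_one_of_mem_zpowers (by omega) hx hwx hww

end Cfsg.Agent.Helper61
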