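import Mathlib
import Cfsg.Agent.Helper61.WrFrame
import Cfsg.Agent.Helper53.Card
import Cfsg.Agent.Helper53.BaerSuzuki

/-!
# Fusion of the centre of a wreathed Sylow 2-subgroup (helper61)

Let `P` be a Sylow 2-subgroup of `X` with a wreathed frame (`IsWrFrameIn`), `c` the generator of `Z(P)`
and `z = c ^ 2 ^ (n - 1)` its involution.  If `z` is the only one of its conjugates in `P`, then `c` is
the only one of its conjugates in `P` (`wr_weakly_closed`).  Elementary: Sylow's theorem and the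
structure of the frame; no transfer, no characters.
-/

set_option autoImplicit false

namespace Cfsg.Agent.Helper61

open Cfsg.Agent.Helper53

variable {X : Type*} [Group X]

namespace IsWrFrameIn

variable {S : Subgroup X} {n : ℕ} {A : Subgroup X} {c x' y' : X}

/-- `A` is normalized by `S`. -/
theorem conj_mem_iff (hF : IsWrFrameIn S n A c x' y') {s : X} (hs : s ∈ S) (a : X) :
    s * a * s⁻¹ ∈ A ↔ a ∈ A := by
  by_cases ha : a ∈ S
  · rw [hF.mul_mem_iff (s * a) (S.mul_mem hs ha) s⁻¹ (S.inv_mem hs), hF.mul_mem_iff s hs a ha,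
      Subgroup.inv_mem_iff]
    tauto
  · constructor
    · intro h
      exfalso; apply ha
      have h1 := hF.A_le h
      have h2 : a = s⁻¹ * (s * a * s⁻¹) * s := by group
      rw [h2]; exact S.mul_mem (S.mul_mem (S.inv_mem hs) h1) hs
    · intro h; exact absurd (hF.A_le h) ha

theorem z_mem (hF : IsWrFrameIn S n A c x' y') : c ^ 2 ^ (n - 1) ∈ A := A.pow_mem hF.c_mem _

theorem invol_c (hF : IsWrFrameIn S n A c x' y') {a : X} (ha : a ∈ Subgroup.zpowers c)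
    (h : a * a = 1) : a = 1 ∨ a = c ^ 2 ^ (n - 1) :=
  wr_sq_one_of_mem_zpowers (le_trans (by norm_num) hF.two_le) hF.c_order ha h

theorem odd_zpow_not_mem (hF : IsWrFrameIn S n A c x' y') {s : X} (hs : s ∈ S) (hsA : s ∉ A)
    {e : ℤ} (he : Odd e) : s ^ e ∉ A := by
  obtain ⟨q, rfl⟩ := he
  have h1 : s ^ (2 * q + 1) = (s * s) ^ q * s := by rw [zpow_add, zpow_mul, zpow_two, zpow_one]
  have h2 : (s * s) ^ q ∈ A := A.zpow_mem ((hF.mul_mem_iff s hs s hs).mpr Iff.rfl) q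
  rw [h1, hF.mul_mem_iff _ (S.zpow_mem (S.mul_mem hs hs) q) s hs]
  tauto

theorem map_conj_comm (hF : IsWrFrameIn S n A c x' y') (v : X) :
    ∀ a ∈ A.map (MulAut.conj v).toMonoidHom, ∀ b ∈ A.map (MulAut.conj v).toMonoidHom,
      a * b = b * a := by
  rintro _ ⟨a, ha, rfl⟩ _ ⟨b, hb, rfl⟩
  simp only [MulEquiv.coe_toMonoidHom, MulAut.conj_apply]
  calc v * a * v⁻¹ * (v * b * v⁻¹) = v * (a * b) * v⁻¹ := by group
    _ = v * (b * a) * v⁻¹ := by rw [hF.comm a ha b hb]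
    _ = v * b * v⁻¹ * (v * a * v⁻¹) := by group

end IsWrFrameIn

theorem wr_normA_of_map_eq {A : Subgroup X} {u : X}
    (h : A.map (MulAut.conj u).toMonoidHom = A) : ∀ a, u * a * u⁻¹ ∈ A ↔ a ∈ A := by
  intro a
  constructor
  · intro ha
    rw [← h, mem_map_conj] at ha
    have e : u⁻¹ * (u * a * u⁻¹) * u = a := by group
    rw [e] at ha; exact ha
  · intro ha
    rw [← h]; exact conj_mem_map_conj ha

theorem wr_conj_inv_eq {u a : X} (h : u * a * u⁻¹ = a) : u⁻¹ * a * u = a := by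
  calc u⁻¹ * a * u = u⁻¹ * (u * a * u⁻¹) * u := by rw [h]
    _ = a := by group

section fusion

variable [Finite X] {n : ℕ} {A : Subgroup X} {c x' y' : X}

omit [Finite X] in
theorem wr_n1_z (P : Sylow 2 X) (hF : IsWrFrameIn (P : Subgroup X) n A c x' y')
    (hz : ∀ g : X, g * c ^ 2 ^ (n - 1) * g⁻¹ ∈ (P : Subgroup X) →
      g * c ^ 2 ^ (n - 1) * g⁻¹ = c ^ 2 ^ (n - 1))
    {u : X} (hu : ∀ a, u * a * u⁻¹ ∈ A ↔ a ∈ A) :
    u * c ^ 2 ^ (n - 1) * u⁻¹ = c ^ 2 ^ (n - 1) :=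
  hz u (hF.A_le ((hu _).mpr hF.z_mem))

omit [Finite X] in
theorem wr_n1_inv (P : Sylow 2 X) (hF : IsWrFrameIn (P : Subgroup X) n A c x' y')
    (hz : ∀ g : X, g * c ^ 2 ^ (n - 1) * g⁻¹ ∈ (P : Subgroup X) →
      g * c ^ 2 ^ (n - 1) * g⁻¹ = c ^ 2 ^ (n - 1))
    {u : X} (hu : ∀ a, u * a * u⁻¹ ∈ A ↔ a ∈ A) {e : X} (heA : e ∈ A) (he2 : e * e = 1)
    (he1 : e ≠ 1) (hez : e ≠ c ^ 2 ^ (n - 1)) : u * e * u⁻¹ = x' ∨ u * e * u⁻¹ = y' := by
  have h1 : u * e * u⁻¹ ∈ A := (hu _).mpr heA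
  have h2 : (u * e * u⁻¹) * (u * e * u⁻¹) = 1 := by
    calc (u * e * u⁻¹) * (u * e * u⁻¹) = u * (e * e) * u⁻¹ := by group
      _ = 1 := by rw [he2]; group
  have hback : e = u⁻¹ * (u * e * u⁻¹) * u := by group
  rcases hF.invol _ h1 h2 with h | h | h | h
  · exfalso; apply he1
    rw [hback, h]; group
  · exfalso; apply hez
    rw [hback, h]
    exact wr_conj_inv_eq (wr_n1_z P hF hz hu)
  · left; exact h
  · right; exact h

omit [Finite X] in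
theorem wr_n1_swap (P : Sylow 2 X) (hF : IsWrFrameIn (P : Subgroup X) n A c x' y')
    (hz : ∀ g : X, g * c ^ 2 ^ (n - 1) * g⁻¹ ∈ (P : Subgroup X) →
      g * c ^ 2 ^ (n - 1) * g⁻¹ = c ^ 2 ^ (n - 1))
    {u : X} (hu : ∀ a, u * a * u⁻¹ ∈ A ↔ a ∈ A) (h : u * x' * u⁻¹ = y') :
    u * y' * u⁻¹ = x' := by
  rcases wr_n1_inv P hF hz hu hF.y'_mem hF.y'_sq hF.y'_ne_one hF.y'_ne_z with h1 | h1
  · exact h1
  · exfalso; apply hF.x'_ne_y'
    have : u * x' * u⁻¹ = u * y' * u⁻¹ := by rw [h, h1]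
    exact mul_left_cancel (mul_right_cancel this)

omit [Finite X] in
/-- An element of odd order normalizing `A` centralizes `A`. -/
theorem wr_n2 (P : Sylow 2 X) (hF : IsWrFrameIn (P : Subgroup X) n A c x' y')
    (hz : ∀ g : X, g * c ^ 2 ^ (n - 1) * g⁻¹ ∈ (P : Subgroup X) →
      g * c ^ 2 ^ (n - 1) * g⁻¹ = c ^ 2 ^ (n - 1))
    {w : X} (hw : ∀ a, w * a * w⁻¹ ∈ A ↔ a ∈ A) {m : ℕ} (hm : Odd m) (hwm : w ^ m = 1) :
    ∀ a ∈ A, w * a * w⁻¹ = a := by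
  have hx : w * x' * w⁻¹ = x' := by
    rcases wr_n1_inv P hF hz hw hF.x'_mem hF.x'_sq hF.x'_ne_one hF.x'_ne_z with h | h
    · exact h
    · exfalso
      have hy := wr_n1_swap P hF hz hw h
      have h2 : Commute (w * w) x' := by
        have e : w * w * x' * (w * w)⁻¹ = x' := by
          calc w * w * x' * (w * w)⁻¹ = w * (w * x' * w⁻¹) * w⁻¹ := by group
            _ = x' := by rw [h, hy]
        show w * w * x' = x' * (w * w)
        calc w * w * x' = (w * w * x' * (w * w)⁻¹) * (w * w) := by group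
          _ = x' * (w * w) := by rw [e]
      obtain ⟨q, hq⟩ := hm
      have h3 : Commute ((w * w) ^ q) x' := h2.pow_left q
      have h4 : w ^ m = (w * w) ^ q * w := by rw [hq, pow_succ, pow_mul, pow_two]
      rw [h4] at hwm
      have h5 : w = ((w * w) ^ q)⁻¹ := eq_inv_of_mul_eq_one_right hwm
      have h6 : Commute w x' := by rw [h5]; exact h3.inv_left
      apply hF.x'_ne_y'
      rw [← h]
      calc x' = x' * w * w⁻¹ := by group
        _ = w * x' * w⁻¹ := by rw [← h6.eq]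
  have hy : w * y' * w⁻¹ = y' := by
    rcases wr_n1_inv P hF hz hw hF.y'_mem hF.y'_sq hF.y'_ne_one hF.y'_ne_z with h | h
    · exfalso; apply hF.x'_ne_y'
      have : w * x' * w⁻¹ = w * y' * w⁻¹ := by rw [hx, h]
      exact mul_left_cancel (mul_right_cancel this)
    · exact h
  have hzz := wr_n1_z P hF hz hw
  have hinv : ∀ e ∈ A, e * e = 1 → w * e * w⁻¹ = e := by
    intro e he he2
    rcases hF.invol e he he2 with h | h | h | h
    · rw [h]; group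
    · rw [h]; exact hzz
    · rw [h]; exact hx
    · rw [h]; exact hy
  have key : ∀ k : ℕ, ∀ a ∈ A, a ^ 2 ^ k = 1 → w * a * w⁻¹ = a := by
    intro k
    induction k with
    | zero =>
      intro a _ ha
      rw [pow_zero, pow_one] at ha
      rw [ha]; group
    | succ k ih =>
      intro a ha hak
      have hb : (a * a) ^ 2 ^ k = 1 := by rw [← pow_two, ← pow_mul, ← pow_succ']; exact hak
      have hb' := ih (a * a) (A.mul_mem ha ha) hb
      obtain ⟨e, he⟩ : ∃ e, e = w * a * w⁻¹ * a⁻¹ := ⟨_, rfl⟩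
      have hwa : w * a * w⁻¹ ∈ A := (hw a).mpr ha
      have heA : e ∈ A := by rw [he]; exact A.mul_mem hwa (A.inv_mem ha)
      have he2 : e * e = 1 := by
        have hc1 := hF.comm a⁻¹ (A.inv_mem ha) (w * a * w⁻¹) hwa
        calc e * e = w * a * w⁻¹ * (a⁻¹ * (w * a * w⁻¹)) * a⁻¹ := by rw [he]; group
          _ = w * a * w⁻¹ * ((w * a * w⁻¹) * a⁻¹) * a⁻¹ := by rw [hc1]
          _ = (w * (a * a) * w⁻¹) * (a * a)⁻¹ := by group
          _ = 1 := by rw [hb']; group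
      have hee := hinv e heA he2
      have e3 : w * a * w⁻¹ = e * a := by rw [he]; group
      have hpow : ∀ j : ℕ, w ^ j * a * (w ^ j)⁻¹ = e ^ j * a := by
        intro j
        induction j with
        | zero => simp
        | succ j ihj =>
          have e1 : w ^ (j + 1) * a * (w ^ (j + 1))⁻¹ = w * (w ^ j * a * (w ^ j)⁻¹) * w⁻¹ := by
            rw [pow_succ']; group
          have e2 : w * (e ^ j * a) * w⁻¹ = (w * e * w⁻¹) ^ j * (w * a * w⁻¹) := by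
            rw [conj_pow]; group
          rw [e1, ihj, e2, hee, e3, pow_succ, mul_assoc]
      have h1 := hpow m
      rw [hwm] at h1
      have h2 : e ^ m = 1 := by
        have h1' : 1 * a = e ^ m * a := by rw [← h1]; group
        exact (mul_right_cancel h1').symm
      obtain ⟨q, hq⟩ := hm
      have h3 : e = 1 := by
        rw [hq, pow_succ, pow_mul, pow_two, he2, one_pow, one_mul] at h2
        exact h2
      rw [h3] at he
      exact mul_inv_eq_one.mp he.symm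
  intro a ha
  apply key (2 * n) a ha
  have h1 : (⟨a, ha⟩ : A) ^ Nat.card A = 1 := pow_card_eq_one'
  rw [hF.card] at h1
  exact congrArg Subtype.val h1

/-- A 2-element normalizing `A` and fixing `x'` lies in `A`. -/
theorem wr_n3 (P : Sylow 2 X) (hF : IsWrFrameIn (P : Subgroup X) n A c x' y')
    (hz : ∀ g : X, g * c ^ 2 ^ (n - 1) * g⁻¹ ∈ (P : Subgroup X) →
      g * c ^ 2 ^ (n - 1) * g⁻¹ = c ^ 2 ^ (n - 1))
    {r : X} (hr : ∀ a, r * a * r⁻¹ ∈ A ↔ a ∈ A) {k : ℕ} (hrk : r ^ 2 ^ k = 1)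
    (hrx : r * x' * r⁻¹ = x') : r ∈ A := by
  have hF2 : Fact (Nat.Prime 2) := ⟨Nat.prime_two⟩
  have hA2 : IsPGroup 2 A := P.isPGroup'.to_le hF.A_le
  have hr2 : IsPGroup 2 (Subgroup.zpowers r) := isPGroup_zpowers_of_pow k hrk
  have hrN : Subgroup.zpowers r ≤ Subgroup.normalizer (A : Set X) := by
    rw [Subgroup.zpowers_le, Subgroup.mem_normalizer_iff]
    intro a; exact (hr a).symm
  have hQ : IsPGroup 2 (Subgroup.zpowers r ⊔ A : Subgroup X) :=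
    IsPGroup.to_sup_of_normal_right' hr2 hA2 hrN
  obtain ⟨v, hv⟩ := exists_map_conj_le_sylow P hQ
  have hvS : ∀ q ∈ Subgroup.zpowers r ⊔ A, v * q * v⁻¹ ∈ (P : Subgroup X) :=
    fun q hq => hv (conj_mem_map_conj hq)
  have hvA : A.map (MulAut.conj v).toMonoidHom = A := by
    apply hF.uniq
    · rintro _ ⟨a, ha, rfl⟩
      exact hvS a ((le_sup_right : A ≤ Subgroup.zpowers r ⊔ A) ha)
    · exact hF.map_conj_comm v
    · exact card_map_conj A v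
  have hvn : ∀ a, v * a * v⁻¹ ∈ A ↔ a ∈ A := wr_normA_of_map_eq hvA
  have hr2S : v * r * v⁻¹ ∈ (P : Subgroup X) :=
    hvS r ((le_sup_left : Subgroup.zpowers r ≤ Subgroup.zpowers r ⊔ A) (Subgroup.mem_zpowers r))
  by_contra hrA
  have hr2A : v * r * v⁻¹ ∉ A := fun h => hrA ((hvn r).mp h)
  obtain ⟨hs1, hs2⟩ := hF.swap _ hr2S hr2A
  have hconj : ∀ e, (v * r * v⁻¹) * (v * e * v⁻¹) * (v * r * v⁻¹)⁻¹ = v * (r * e * r⁻¹) * v⁻¹ := by
    intro e; group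
  rcases wr_n1_inv P hF hz hvn hF.x'_mem hF.x'_sq hF.x'_ne_one hF.x'_ne_z with h | h
  · have h1 := hconj x'
    rw [hrx, h, hs1] at h1
    exact hF.x'_ne_y' h1.symm
  · have h1 := hconj x'
    rw [hrx, h, hs2] at h1
    exact hF.x'_ne_y' h1

/-- The normalizer of `A` centralizes `c`. -/
theorem wr_n4 (P : Sylow 2 X) (hF : IsWrFrameIn (P : Subgroup X) n A c x' y')
    (hz : ∀ g : X, g * c ^ 2 ^ (n - 1) * g⁻¹ ∈ (P : Subgroup X) →
      g * c ^ 2 ^ (n - 1) * g⁻¹ = c ^ 2 ^ (n - 1))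
    {u : X} (hu : ∀ a, u * a * u⁻¹ ∈ A ↔ a ∈ A) : u * c = c * u := by
  obtain ⟨s₀, hs₀, hs₀A⟩ := hF.exists_not_mem
  suffices H : ∀ u' : X, (∀ a, u' * a * u'⁻¹ ∈ A ↔ a ∈ A) → u' * x' * u'⁻¹ = x' →
      u' * c = c * u' by
    rcases wr_n1_inv P hF hz hu hF.x'_mem hF.x'_sq hF.x'_ne_one hF.x'_ne_z with h | h
    · exact H u hu h
    · have hy := wr_n1_swap P hF hz hu h
      have hus : ∀ a, (u * s₀) * a * (u * s₀)⁻¹ ∈ A ↔ a ∈ A := by
        intro a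
        have e : (u * s₀) * a * (u * s₀)⁻¹ = u * (s₀ * a * s₀⁻¹) * u⁻¹ := by group
        rw [e, hu, hF.conj_mem_iff hs₀]
      have hx1 : (u * s₀) * x' * (u * s₀)⁻¹ = x' := by
        have e : (u * s₀) * x' * (u * s₀)⁻¹ = u * (s₀ * x' * s₀⁻¹) * u⁻¹ := by group
        rw [e, (hF.swap s₀ hs₀ hs₀A).1, hy]
      have h1 := H (u * s₀) hus hx1
      have h2 := hF.c_central s₀ hs₀
      have h3 : u * c * s₀ = c * u * s₀ := by
        calc u * c * s₀ = u * (c * s₀) := by group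
          _ = u * (s₀ * c) := by rw [h2]
          _ = u * s₀ * c := by group
          _ = c * (u * s₀) := h1
          _ = c * u * s₀ := by group
      exact mul_right_cancel h3
  intro u' hu' hx'
  obtain ⟨k, m, hm, hkm⟩ := Nat.exists_eq_two_pow_mul_odd (orderOf_pos u').ne'
  have hpowN : ∀ j : ℕ, ∀ a, u' ^ j * a * (u' ^ j)⁻¹ ∈ A ↔ a ∈ A := by
    intro j
    induction j with
    | zero => intro a; simp
    | succ j ih =>
      intro a
      have e : u' ^ (j + 1) * a * (u' ^ (j + 1))⁻¹ = u' * (u' ^ j * a * (u' ^ j)⁻¹) * u'⁻¹ := by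
        rw [pow_succ']; group
      rw [e, hu', ih]
  have hwm : (u' ^ 2 ^ k) ^ m = 1 := by rw [← pow_mul, ← hkm]; exact pow_orderOf_eq_one u'
  have hrk : (u' ^ m) ^ 2 ^ k = 1 := by
    rw [← pow_mul, mul_comm, ← hkm]; exact pow_orderOf_eq_one u'
  have hcx : Commute u' x' := by
    show u' * x' = x' * u'
    calc u' * x' = (u' * x' * u'⁻¹) * u' := by group
      _ = x' * u' := by rw [hx']
  have hrx : u' ^ m * x' * (u' ^ m)⁻¹ = x' := by
    have := (hcx.pow_left m).eq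
    rw [this]; group
  have hw := wr_n2 P hF hz (hpowN (2 ^ k)) hm hwm c hF.c_mem
  have hr := wr_n3 P hF hz (hpowN m) hrk hrx
  have hcw : Commute (u' ^ 2 ^ k) c := by
    show u' ^ 2 ^ k * c = c * u' ^ 2 ^ k
    calc u' ^ 2 ^ k * c = (u' ^ 2 ^ k * c * (u' ^ 2 ^ k)⁻¹) * u' ^ 2 ^ k := by group
      _ = c * u' ^ 2 ^ k := by rw [hw]
  have hcr : Commute (u' ^ m) c := hF.comm _ hr c hF.c_mem
  have hcop : IsCoprime ((2 ^ k : ℕ) : ℤ) (m : ℤ) := by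
    rw [Nat.isCoprime_iff_coprime]
    exact Nat.Coprime.pow_left k (Nat.coprime_two_left.mpr hm)
  obtain ⟨a, b, hab⟩ := hcop
  have hu'eq : u' = (u' ^ 2 ^ k) ^ a * (u' ^ m) ^ b := by
    rw [← zpow_natCast u' (2 ^ k), ← zpow_natCast u' m, ← zpow_mul, ← zpow_mul, ← zpow_add,
      mul_comm _ a, mul_comm _ b, hab, zpow_one]
  have hfin : Commute u' c := by
    rw [hu'eq]
    exact (hcw.zpow_left a).mul_left (hcr.zpow_left b)
  exact hfin.eq

/-- Sylow's theorem in the centralizer of a conjugate of `c`. -/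
theorem wr_sylow_conj (P : Sylow 2 X) (hF : IsWrFrameIn (P : Subgroup X) n A c x' y') {g : X} :
    ∃ u : X, u * (g * c * g⁻¹) * u⁻¹ = c ∧
      ∀ s ∈ (P : Subgroup X), s * (g * c * g⁻¹) = (g * c * g⁻¹) * s →
        u * s * u⁻¹ ∈ (P : Subgroup X) := by
  have hF2 : Fact (Nat.Prime 2) := ⟨Nat.prime_two⟩
  obtain ⟨b, hbdef⟩ : ∃ b, b = g * c * g⁻¹ := ⟨_, rfl⟩
  rw [← hbdef]
  obtain ⟨C, hC⟩ : ∃ C : Subgroup X, C = Subgroup.centralizer {b} := ⟨_, rfl⟩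
  have hCmem : ∀ s, s ∈ C ↔ s * b = b * s := by
    intro s; rw [hC, Subgroup.mem_centralizer_singleton_iff]
  obtain ⟨Q, hQ⟩ : ∃ Q : Subgroup X, Q = (P : Subgroup X) ⊓ C := ⟨_, rfl⟩
  have hS'C : ((g • P : Sylow 2 X) : Subgroup X) ≤ C := by
    rw [sylow_smul_eq_map]
    rintro _ ⟨s, hs, rfl⟩
    rw [hCmem, hbdef]
    simp only [MulEquiv.coe_toMonoidHom, MulAut.conj_apply]
    have := hF.c_central s hs
    calc g * s * g⁻¹ * (g * c * g⁻¹) = g * (s * c) * g⁻¹ := by group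
      _ = g * (c * s) * g⁻¹ := by rw [this]
      _ = g * c * g⁻¹ * (g * s * g⁻¹) := by group
  have hQC : Q ≤ C := hQ ▸ inf_le_right
  have hQ2 : IsPGroup 2 Q := P.isPGroup'.to_le (hQ ▸ inf_le_left)
  obtain ⟨h, hhC, hh⟩ := exists_mem_map_conj_le hS'C (g • P).isPGroup'
    (sylow_not_dvd_relIndex (g • P) hS'C) hQC hQ2
  refine ⟨g⁻¹ * h, ?_, ?_⟩
  · have := (hCmem h).mp hhC
    calc g⁻¹ * h * b * (g⁻¹ * h)⁻¹ = g⁻¹ * (h * b) * h⁻¹ * g := by group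
      _ = g⁻¹ * (b * h) * h⁻¹ * g := by rw [this]
      _ = g⁻¹ * b * g := by group
      _ = c := by rw [hbdef]; group
  · intro s hs hsb
    have hsQ : s ∈ Q := by rw [hQ]; exact ⟨hs, (hCmem s).mpr hsb⟩
    have h1 := hh (conj_mem_map_conj (g := h) hsQ)
    rw [sylow_smul_eq_map, mem_map_conj] at h1
    have e : g⁻¹ * h * s * (g⁻¹ * h)⁻¹ = g⁻¹ * (h * s * h⁻¹) * g := by group
    rw [e]; exact h1

/-- A conjugate of `c` inside `A` is `c`. -/
theorem wr_fus_A (P : Sylow 2 X) (hF : IsWrFrameIn (P : Subgroup X) n A c x' y')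
    (hz : ∀ g : X, g * c ^ 2 ^ (n - 1) * g⁻¹ ∈ (P : Subgroup X) →
      g * c ^ 2 ^ (n - 1) * g⁻¹ = c ^ 2 ^ (n - 1))
    {g : X} (hb : g * c * g⁻¹ ∈ A) : g * c * g⁻¹ = c := by
  obtain ⟨u, hu1, hu2⟩ := wr_sylow_conj P hF (g := g)
  have hle : A.map (MulAut.conj u).toMonoidHom = A := by
    apply hF.uniq
    · rintro _ ⟨a, ha, rfl⟩
      exact hu2 a (hF.A_le ha) (hF.comm a ha _ hb)
    · exact hF.map_conj_comm u
    · exact card_map_conj A u
  have hun := wr_normA_of_map_eq hle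
  have hc := wr_n4 P hF hz hun
  have h1 : u * (g * c * g⁻¹) * u⁻¹ = u * c * u⁻¹ := by rw [hu1, hc]; group
  exact mul_left_cancel (mul_right_cancel h1)

/-- No conjugate of `c` lies in `P \ A`. -/
theorem wr_fus_B (P : Sylow 2 X) (hF : IsWrFrameIn (P : Subgroup X) n A c x' y')
    (hz : ∀ g : X, g * c ^ 2 ^ (n - 1) * g⁻¹ ∈ (P : Subgroup X) →
      g * c ^ 2 ^ (n - 1) * g⁻¹ = c ^ 2 ^ (n - 1))
    {g : X} (hbS : g * c * g⁻¹ ∈ (P : Subgroup X)) (hbA : g * c * g⁻¹ ∉ A) : False := by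
  have hF2 : Fact (Nat.Prime 2) := ⟨Nat.prime_two⟩
  have hn := hF.two_le
  obtain ⟨u, hu1, hu2⟩ := wr_sylow_conj P hF (g := g)
  obtain ⟨b, hbdef⟩ : ∃ b, b = g * c * g⁻¹ := ⟨_, rfl⟩
  rw [← hbdef] at hbS hbA hu1 hu2
  have hcS : c ∈ (P : Subgroup X) := hF.A_le hF.c_mem
  have hbc : b * c = c * b := hF.c_central b hbS
  have hbo : orderOf b = 2 ^ n := by
    rw [hbdef, ← hF.c_order]; exact (MulAut.conj g).orderOf_eq c
  have hbb : b * b ∈ Subgroup.zpowers c :=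
    hF.cent b hbS hbA (b * b) ((hF.mul_mem_iff b hbS b hbS).mpr Iff.rfl) (by group)
  obtain ⟨k, hk⟩ := Subgroup.mem_zpowers_iff.mp hbb
  -- `k = 2 * e` with `e` odd
  obtain ⟨e, he, hke⟩ : ∃ e : ℤ, Odd e ∧ k = 2 * e := by
    obtain ⟨m, hm⟩ : ∃ m, n = m + 2 := ⟨n - 2, by omega⟩
    have e1 : ∀ j : ℕ, b ^ (2 * j) = c ^ (k * (j : ℤ)) := by
      intro j
      rw [pow_mul, pow_two, ← hk, ← zpow_natCast, ← zpow_mul]
    have h1 : b ^ 2 ^ (m + 2) = 1 := by rw [← hm, ← hbo]; exact pow_orderOf_eq_one b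
    have h2 : c ^ (k * ((2 ^ (m + 1) : ℕ) : ℤ)) = 1 := by rw [← e1, ← pow_succ']; exact h1
    have h3 := orderOf_dvd_iff_zpow_eq_one.mpr h2
    rw [hF.c_order, hm] at h3
    have h4 : (2 : ℤ) ∣ k := by
      push_cast at h3
      have e2 : (2 : ℤ) ^ (m + 2) = 2 ^ (m + 1) * 2 := by ring
      rw [e2, mul_comm k] at h3
      exact (mul_dvd_mul_iff_left (by positivity)).mp h3
    obtain ⟨e, hke⟩ := h4
    refine ⟨e, ?_, hke⟩
    by_contra hodd
    rw [Int.not_odd_iff_even] at hodd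
    obtain ⟨e', he'⟩ := hodd
    have h5 : b ^ 2 ^ (m + 1) = 1 := by
      rw [pow_succ', e1]
      apply orderOf_dvd_iff_zpow_eq_one.mp
      rw [hF.c_order, hm, hke, he']
      exact ⟨e', by push_cast; ring⟩
    have h6 := orderOf_dvd_of_pow_eq_one h5
    rw [hbo, hm] at h6
    have := (Nat.pow_dvd_pow_iff_le_right (by norm_num : 1 < 2)).mp h6
    omega
  rw [hke] at hk
  -- the involution `t' = c ^ (-e) * b`
  obtain ⟨t', ht'⟩ : ∃ t', t' = c ^ (-e) * b := ⟨_, rfl⟩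
  have hcb : Commute c b := hbc.symm
  have hceb : Commute (c ^ (-e)) b := hcb.zpow_left (-e)
  have ht'S : t' ∈ (P : Subgroup X) := by
    rw [ht']; exact Subgroup.mul_mem _ (Subgroup.zpow_mem _ hcS _) hbS
  have ht'A : t' ∉ A := by
    rw [ht', hF.mul_mem_iff _ (Subgroup.zpow_mem _ hcS _) b hbS]
    have : c ^ (-e) ∈ A := A.zpow_mem hF.c_mem _
    tauto
  have ht'2 : t' * t' = 1 := by
    rw [ht']
    calc c ^ (-e) * b * (c ^ (-e) * b) = c ^ (-e) * (b * c ^ (-e)) * b := by group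
      _ = c ^ (-e) * (c ^ (-e) * b) * b := by rw [hceb.eq]
      _ = c ^ (-e) * c ^ (-e) * (b * b) := by group
      _ = 1 := by
          rw [← hk, ← zpow_add, ← zpow_add]
          have : -e + -e + 2 * e = 0 := by ring
          rw [this, zpow_zero]
  have hbt : b = c ^ e * t' := by
    rw [ht', ← mul_assoc, ← zpow_add, add_neg_cancel, zpow_zero, one_mul]
  have ht'c : t' * c = c * t' := hF.c_central t' ht'S
  have ht'b : t' * b = b * t' := by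
    have h1 : Commute t' (c ^ e) := (show Commute t' c from ht'c).zpow_right e
    calc t' * b = t' * (c ^ e * t') := by rw [← hbt]
      _ = (t' * c ^ e) * t' := by group
      _ = c ^ e * t' * t' := by rw [h1.eq]
      _ = b * t' := by rw [← hbt]
  have ht'ne : t' ≠ c ^ 2 ^ (n - 1) := fun h => ht'A (h ▸ hF.z_mem)
  -- the images under `u`
  obtain ⟨d, hd⟩ : ∃ d, d = u * c * u⁻¹ := ⟨_, rfl⟩
  obtain ⟨t'', ht''⟩ : ∃ t'', t'' = u * t' * u⁻¹ := ⟨_, rfl⟩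
  have hdS : d ∈ (P : Subgroup X) := by rw [hd]; exact hu2 c hcS hbc.symm
  have ht''S : t'' ∈ (P : Subgroup X) := by rw [ht'']; exact hu2 t' ht'S ht'b
  have hdA : d ∉ A := by
    intro h
    have h1 : u * c * u⁻¹ = c := wr_fus_A P hF hz (hd ▸ h)
    have h2 : u * b * u⁻¹ = u * c * u⁻¹ := by rw [hu1, h1]
    have h3 : b = c := mul_left_cancel (mul_right_cancel h2)
    exact hbA (h3 ▸ hF.c_mem)
  have ht''2 : t'' * t'' = 1 := by
    rw [ht'']
    calc u * t' * u⁻¹ * (u * t' * u⁻¹) = u * (t' * t') * u⁻¹ := by group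
      _ = 1 := by rw [ht'2]; group
  have hdt : d * t'' = t'' * d := by
    rw [hd, ht'']
    calc u * c * u⁻¹ * (u * t' * u⁻¹) = u * (c * t') * u⁻¹ := by group
      _ = u * (t' * c) * u⁻¹ := by rw [ht'c]
      _ = u * t' * u⁻¹ * (u * c * u⁻¹) := by group
  have ht''A : t'' ∉ A := by
    intro h
    have h1 := hF.cent d hdS hdA t'' h hdt.symm
    rcases hF.invol_c h1 ht''2 with h2 | h2
    · apply ht'A
      have e1 : t' = u⁻¹ * t'' * u := by rw [ht'']; group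
      rw [e1, h2, mul_one, inv_mul_cancel]
      exact A.one_mem
    · have h3 : t' = u⁻¹ * c ^ 2 ^ (n - 1) * u⁻¹⁻¹ := by rw [← h2, ht'']; group
      have h4 := hz u⁻¹ (h3 ▸ ht'S)
      exact ht'ne (h3.trans h4)
  obtain ⟨a, haA, hat⟩ := hF.invol_conj t'' ht''S t' ht'S ht''A ht'A ht''2 ht'2
  obtain ⟨u₁, hu₁⟩ : ∃ u₁, u₁ = a * u := ⟨_, rfl⟩
  have haS := hF.A_le haA
  have h1t : u₁ * t' * u₁⁻¹ = t' := by
    calc u₁ * t' * u₁⁻¹ = a * (u * t' * u⁻¹) * a⁻¹ := by rw [hu₁]; group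
      _ = a * t'' * a⁻¹ := by rw [ht'']
      _ = t' := hat.symm
  have h1b : u₁ * b * u₁⁻¹ = c := by
    calc u₁ * b * u₁⁻¹ = a * (u * b * u⁻¹) * a⁻¹ := by rw [hu₁]; group
      _ = a * c * a⁻¹ := by rw [hu1]
      _ = c := by rw [hF.c_central a haS]; group
  obtain ⟨d₁, hd₁⟩ : ∃ d₁, d₁ = u₁ * c * u₁⁻¹ := ⟨_, rfl⟩
  have hd₁e : d₁ ^ e = c * t' := by
    have h1 : u₁ * (c ^ e * t') * u₁⁻¹ = c := by rw [← hbt]; exact h1b
    have h2 : u₁ * (c ^ e * t') * u₁⁻¹ = d₁ ^ e * t' := by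
      calc u₁ * (c ^ e * t') * u₁⁻¹ = (u₁ * c ^ e * u₁⁻¹) * (u₁ * t' * u₁⁻¹) := by group
        _ = d₁ ^ e * t' := by rw [h1t, hd₁, conj_zpow]
    rw [h1] at h2
    calc d₁ ^ e = d₁ ^ e * (t' * t') := by rw [ht'2, mul_one]
      _ = (d₁ ^ e * t') * t' := by group
      _ = c * t' := by rw [← h2]
  have hd₁t : Commute d₁ t' := by
    show d₁ * t' = t' * d₁
    calc d₁ * t' = (u₁ * c * u₁⁻¹) * (u₁ * t' * u₁⁻¹) := by rw [hd₁, h1t]
      _ = u₁ * (c * t') * u₁⁻¹ := by group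
      _ = u₁ * (t' * c) * u₁⁻¹ := by rw [ht'c]
      _ = (u₁ * t' * u₁⁻¹) * (u₁ * c * u₁⁻¹) := by group
      _ = t' * d₁ := by rw [h1t, hd₁]
  have hτ : ∀ τ : X, τ * τ = 1 → τ ^ e = τ := by
    intro τ hτ2
    obtain ⟨q, hq⟩ := he
    rw [hq, zpow_add, zpow_mul, zpow_two, hτ2, one_zpow, one_mul, zpow_one]
  have hpow : ∀ j : ℕ, (u₁ ^ j * c * (u₁ ^ j)⁻¹) ^ (e ^ j) = c * t' ^ j := by
    intro j
    induction j with
    | zero => simp
    | succ j ih =>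
      have e1 : u₁ ^ (j + 1) * c * (u₁ ^ (j + 1))⁻¹ = u₁ * (u₁ ^ j * c * (u₁ ^ j)⁻¹) * u₁⁻¹ := by
        rw [pow_succ']; group
      have e2 : u₁ * (c * t' ^ j) * u₁⁻¹ = d₁ * t' ^ j := by
        calc u₁ * (c * t' ^ j) * u₁⁻¹ = (u₁ * c * u₁⁻¹) * (u₁ * t' * u₁⁻¹) ^ j := by
              rw [conj_pow]; group
          _ = d₁ * t' ^ j := by rw [h1t, hd₁]
      have e3 : t' ^ j * t' ^ j = 1 := by
        rw [← pow_add, ← two_mul, pow_mul, pow_two, ht'2, one_pow]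
      calc (u₁ ^ (j + 1) * c * (u₁ ^ (j + 1))⁻¹) ^ (e ^ (j + 1))
          = ((u₁ * (u₁ ^ j * c * (u₁ ^ j)⁻¹) * u₁⁻¹) ^ (e ^ j)) ^ e := by
            rw [e1, pow_succ, zpow_mul]
        _ = (u₁ * ((u₁ ^ j * c * (u₁ ^ j)⁻¹) ^ (e ^ j)) * u₁⁻¹) ^ e := by rw [conj_zpow]
        _ = (d₁ * t' ^ j) ^ e := by rw [ih, e2]
        _ = d₁ ^ e * (t' ^ j) ^ e := (hd₁t.pow_right j).mul_zpow e
        _ = c * t' * t' ^ j := by rw [hd₁e, hτ (t' ^ j) e3]
        _ = c * t' ^ (j + 1) := by rw [pow_succ', mul_assoc]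
  -- the 2-part of `u₁`
  obtain ⟨K, m, hm, hKm⟩ := Nat.exists_eq_two_pow_mul_odd (orderOf_pos u₁).ne'
  obtain ⟨r, hr⟩ : ∃ r, r = u₁ ^ m := ⟨_, rfl⟩
  have hrK : r ^ 2 ^ K = 1 := by
    rw [hr, ← pow_mul, mul_comm, ← hKm]; exact pow_orderOf_eq_one u₁
  obtain ⟨β, hβ⟩ : ∃ β, β = r * c * r⁻¹ := ⟨_, rfl⟩
  obtain ⟨E, hE⟩ : ∃ E : ℤ, E = e ^ m := ⟨_, rfl⟩
  have hEodd : Odd E := hE ▸ he.pow
  have hβE : β ^ E = c * t' := by
    have h1 := hpow m
    rw [← hr, ← hβ, ← hE] at h1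
    rw [h1]
    obtain ⟨q, hq⟩ := hm
    rw [hq, pow_succ, pow_mul, pow_two, ht'2, one_pow, one_mul]
  -- a 2-group containing `c`, `t'`, `r`
  obtain ⟨B, hB⟩ : ∃ B : Subgroup X, B = (P : Subgroup X) ⊓ Subgroup.centralizer {t'} := ⟨_, rfl⟩
  have hBmem : ∀ s, s ∈ B ↔ s ∈ (P : Subgroup X) ∧ s * t' = t' * s := by
    intro s; rw [hB, Subgroup.mem_inf, Subgroup.mem_centralizer_singleton_iff]
  have hu₁B : B.map (MulAut.conj u₁).toMonoidHom ≤ B := by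
    rintro _ ⟨s, hs, rfl⟩
    obtain ⟨hsS, hst⟩ := (hBmem s).mp hs
    rw [hBmem]
    simp only [MulEquiv.coe_toMonoidHom, MulAut.conj_apply]
    constructor
    · have hsb : s * b = b * s := by
        have h1 : Commute s (c ^ e) := (show Commute s c from hF.c_central s hsS).zpow_right e
        calc s * b = s * (c ^ e * t') := by rw [← hbt]
          _ = (s * c ^ e) * t' := by group
          _ = c ^ e * (s * t') := by rw [h1.eq]; group
          _ = c ^ e * t' * s := by rw [hst]; group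
          _ = b * s := by rw [← hbt]
      have h2 := hu2 s hsS hsb
      have e1 : u₁ * s * u₁⁻¹ = a * (u * s * u⁻¹) * a⁻¹ := by rw [hu₁]; group
      rw [e1]; exact Subgroup.mul_mem _ (Subgroup.mul_mem _ haS h2) (Subgroup.inv_mem _ haS)
    · calc u₁ * s * u₁⁻¹ * t' = u₁ * s * u₁⁻¹ * (u₁ * t' * u₁⁻¹) := by rw [h1t]
        _ = u₁ * (s * t') * u₁⁻¹ := by group
        _ = u₁ * (t' * s) * u₁⁻¹ := by rw [hst]
        _ = (u₁ * t' * u₁⁻¹) * (u₁ * s * u₁⁻¹) := by group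
        _ = t' * (u₁ * s * u₁⁻¹) := by rw [h1t]
  have hu₁N : u₁ ∈ Subgroup.normalizer (B : Set X) :=
    mem_normalizer_iff_map_conj.mpr (map_conj_eq_of_le hu₁B)
  have hrN : Subgroup.zpowers r ≤ Subgroup.normalizer (B : Set X) := by
    rw [Subgroup.zpowers_le, hr]; exact Subgroup.pow_mem _ hu₁N m
  have hB2 : IsPGroup 2 B := P.isPGroup'.to_le (hB ▸ inf_le_left)
  have hr2 : IsPGroup 2 (Subgroup.zpowers r) := isPGroup_zpowers_of_pow K hrK
  have hQ : IsPGroup 2 (Subgroup.zpowers r ⊔ B : Subgroup X) :=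
    IsPGroup.to_sup_of_normal_right' hr2 hB2 hrN
  obtain ⟨v, hv⟩ := exists_map_conj_le_sylow P hQ
  have hvS : ∀ q ∈ Subgroup.zpowers r ⊔ B, v * q * v⁻¹ ∈ (P : Subgroup X) :=
    fun q hq => hv (conj_mem_map_conj hq)
  have hcB : c ∈ B := (hBmem c).mpr ⟨hcS, ht'c.symm⟩
  have ht'B : t' ∈ B := (hBmem t').mpr ⟨ht'S, rfl⟩
  obtain ⟨c₂, hc₂⟩ : ∃ c₂, c₂ = v * c * v⁻¹ := ⟨_, rfl⟩
  obtain ⟨t₂, ht₂⟩ : ∃ t₂, t₂ = v * t' * v⁻¹ := ⟨_, rfl⟩
  obtain ⟨r₂, hr₂⟩ : ∃ r₂, r₂ = v * r * v⁻¹ := ⟨_, rfl⟩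
  have hc₂S : c₂ ∈ (P : Subgroup X) :=
    hc₂ ▸ hvS c ((le_sup_right : B ≤ Subgroup.zpowers r ⊔ B) hcB)
  have ht₂S : t₂ ∈ (P : Subgroup X) :=
    ht₂ ▸ hvS t' ((le_sup_right : B ≤ Subgroup.zpowers r ⊔ B) ht'B)
  have hr₂S : r₂ ∈ (P : Subgroup X) :=
    hr₂ ▸ hvS r ((le_sup_left : Subgroup.zpowers r ≤ Subgroup.zpowers r ⊔ B)
      (Subgroup.mem_zpowers r))
  obtain ⟨β₂, hβ₂⟩ : ∃ β₂, β₂ = r₂ * c₂ * r₂⁻¹ := ⟨_, rfl⟩
  have hβ₂eq : β₂ = v * β * v⁻¹ := by rw [hβ₂, hr₂, hc₂, hβ]; group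
  have hβ₂E : β₂ ^ E = c₂ * t₂ := by
    rw [hβ₂eq, conj_zpow, hβE, hc₂, ht₂]; group
  have ht₂2 : t₂ * t₂ = 1 := by
    rw [ht₂]
    calc v * t' * v⁻¹ * (v * t' * v⁻¹) = v * (t' * t') * v⁻¹ := by group
      _ = 1 := by rw [ht'2]; group
  have ht₂ne1 : t₂ ≠ 1 := by
    intro h; apply ht'A
    have e1 : t' = v⁻¹ * t₂ * v := by rw [ht₂]; group
    rw [e1, h, mul_one, inv_mul_cancel]
    exact A.one_mem
  have ht₂nez : t₂ ≠ c ^ 2 ^ (n - 1) := by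
    intro h
    have h3 : t' = v⁻¹ * c ^ 2 ^ (n - 1) * v⁻¹⁻¹ := by rw [← h, ht₂]; group
    have h4 := hz v⁻¹ (h3 ▸ ht'S)
    exact ht'ne (h3.trans h4)
  have ht₂c₂ : t₂ * c₂ = c₂ * t₂ := by
    rw [ht₂, hc₂]
    calc v * t' * v⁻¹ * (v * c * v⁻¹) = v * (t' * c) * v⁻¹ := by group
      _ = v * (c * t') * v⁻¹ := by rw [ht'c]
      _ = v * c * v⁻¹ * (v * t' * v⁻¹) := by group
  have hnotz : ∀ τ ∈ Subgroup.zpowers c, τ = t₂ → False := by
    intro τ hτm hτt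
    rcases hF.invol_c hτm (by rw [hτt]; exact ht₂2) with h | h
    · exact ht₂ne1 (hτt ▸ h)
    · exact ht₂nez (hτt ▸ h)
  have hc₂A : c₂ ∉ A := by
    intro h
    have h1 : c₂ = c := by
      rw [hc₂] at h ⊢; exact wr_fus_A P hF hz h
    have h2 : β₂ = c := by
      rw [hβ₂, h1, hF.c_central r₂ hr₂S]; group
    rw [h2, h1] at hβ₂E
    apply hnotz (c ^ (E - 1)) (Subgroup.zpow_mem_zpowers c _)
    rw [show E - 1 = -1 + E by ring, zpow_add, zpow_neg_one, hβ₂E]; group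
  have hβ₂S : β₂ ∈ (P : Subgroup X) := by
    rw [hβ₂]; exact Subgroup.mul_mem _ (Subgroup.mul_mem _ hr₂S hc₂S) (Subgroup.inv_mem _ hr₂S)
  have hβ₂A : β₂ ∉ A := by rw [hβ₂, hF.conj_mem_iff hr₂S]; exact hc₂A
  have h5 : β₂ ^ E ∉ A := hF.odd_zpow_not_mem hβ₂S hβ₂A hEodd
  rw [hβ₂E, hF.mul_mem_iff c₂ hc₂S t₂ ht₂S] at h5
  have ht₂A : t₂ ∈ A := by tauto
  exact hnotz t₂ (hF.cent c₂ hc₂S hc₂A t₂ ht₂A ht₂c₂) rfl

/-- **Fusion of the centre of a wreathed Sylow 2-subgroup.** If the involution of `Z(P) = ⟨c⟩` is the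
only one of its conjugates in `P`, so is `c`. -/
theorem wr_weakly_closed (P : Sylow 2 X) (hF : IsWrFrameIn (P : Subgroup X) n A c x' y')
    (hz : ∀ g : X, g * c ^ 2 ^ (n - 1) * g⁻¹ ∈ (P : Subgroup X) →
      g * c ^ 2 ^ (n - 1) * g⁻¹ = c ^ 2 ^ (n - 1)) :
    ∀ g : X, g * c * g⁻¹ ∈ (P : Subgroup X) → g * c * g⁻¹ = c := by
  intro g hg
  by_cases hA : g * c * g⁻¹ ∈ A
  · exact wr_fus_A P hF hz hA
  · exact (wr_fus_B P hF hz hg hA).elim

end fusion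

end Cfsg.Agent.Helper61
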